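import Cfsg.Agent.F23.Defs

/-! Small orbits of lines, parity. -/

set_option autoImplicit false
open Module
namespace Cfsg.Agent.F23

section Basic
variable {G : Type*} [Group G] {σ : G →* Module.End ℚ V} {B : V →ₗ[ℚ] V →ₗ[ℚ] ℚ} {L : Submodule ℤ V}
  {g : G} {u : V} {d : ℕ}

theorem intForm (B : V →ₗ[ℚ] V →ₗ[ℚ] ℚ) (c : ℚ) (S : Submodule ℤ V)
    (h : ∀ x ∈ S, ∀ y ∈ S, ∃ n : ℤ, c * B x y = n) :
    ∃ β : S →ₗ[ℤ] S →ₗ[ℤ] ℤ, ∀ x y : S, ((β x y : ℤ) : ℚ) = c * B x y := by
  choose f hf using fun x y : S => h x x.2 y y.2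
  refine ⟨LinearMap.mk₂ ℤ f ?_ ?_ ?_ ?_, fun x y => (hf x y).symm⟩
  · intro a b y
    apply Int.cast_injective (α := ℚ)
    rw [Int.cast_add, ← hf, ← hf, ← hf, Submodule.coe_add, map_add, LinearMap.add_apply, mul_add]
  · intro n a y
    apply Int.cast_injective (α := ℚ)
    rw [smul_eq_mul, Int.cast_mul, ← hf, ← hf, Submodule.coe_smul, map_zsmul, LinearMap.smul_apply, zsmul_eq_mul]
    ring
  · intro a b y
    apply Int.cast_injective (α := ℚ)
    rw [Int.cast_add, ← hf, ← hf, ← hf, Submodule.coe_add, map_add, mul_add]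
  · intro n a y
    apply Int.cast_injective (α := ℚ)
    rw [smul_eq_mul, Int.cast_mul, ← hf, ← hf, Submodule.coe_smul, map_zsmul, zsmul_eq_mul]
    ring

theorem bz1 (B : V →ₗ[ℚ] V →ₗ[ℚ] ℚ) (n : ℤ) (x y : V) : B (n • x) y = n * B x y := by
  rw [map_zsmul, LinearMap.smul_apply, zsmul_eq_mul]

theorem bz2 (B : V →ₗ[ℚ] V →ₗ[ℚ] ℚ) (n : ℤ) (x y : V) : B x (n • y) = n * B x y := by
  rw [map_zsmul, zsmul_eq_mul]

theorem bq1 (B : V →ₗ[ℚ] V →ₗ[ℚ] ℚ) (n : ℚ) (x y : V) : B (n • x) y = n * B x y := by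
  rw [map_smul, LinearMap.smul_apply, smul_eq_mul]

theorem bq2 (B : V →ₗ[ℚ] V →ₗ[ℚ] ℚ) (n : ℚ) (x y : V) : B x (n • y) = n * B x y := by
  rw [map_smul, smul_eq_mul]

theorem act_mul (σ : G →* Module.End ℚ V) (a b : G) (x : V) : σ (a * b) x = σ a (σ b x) := by
  rw [map_mul]; rfl

theorem act_one (σ : G →* Module.End ℚ V) (x : V) : σ 1 x = x := by
  rw [map_one]; rfl

theorem act_inv (σ : G →* Module.End ℚ V) (a : G) (x : V) : σ a⁻¹ (σ a x) = x := by
  rw [← act_mul, inv_mul_cancel, act_one]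

theorem act_inv' (σ : G →* Module.End ℚ V) (a : G) (x : V) : σ a (σ a⁻¹ x) = x := by
  rw [← act_mul, mul_inv_cancel, act_one]

theorem act_ne (σ : G →* Module.End ℚ V) (a : G) {x : V} (hx : x ≠ 0) : σ a x ≠ 0 := fun e =>
  hx (by rw [← act_inv σ a x, e, map_zero])

theorem Form.move (hB : Form σ B) (k : G) (x y : V) : B (σ k x) y = B x (σ k⁻¹ y) := by
  rw [← hB.inv k x, act_inv']

theorem Form.nonneg (hB : Form σ B) (x : V) : 0 ≤ B x x := by
  by_cases h : x = 0
  · simp [h]
  · exact (hB.pos x h).le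

theorem Form.eq_zero (hB : Form σ B) {x : V} (h : B x x = 0) : x = 0 := by
  by_contra e
  exact (hB.pos x e).ne' h

theorem Hyp.exists_ne (H : Hyp σ) (hB : Form σ B) {x v : V} (hx : x ≠ 0) (hv : v ≠ 0) :
    ∃ h : G, B (σ h x) v ≠ 0 := by
  by_contra hc
  push Not at hc
  let W : Submodule ℚ V := ⨅ h : G, LinearMap.ker ((B.flip v).comp (σ h))
  have hW : ∀ w, w ∈ W ↔ ∀ h : G, B (σ h w) v = 0 := fun w => by
    simp only [W, Submodule.mem_iInf, LinearMap.mem_ker, LinearMap.comp_apply, LinearMap.flip_apply]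
  rcases H.irr W (fun k w hw => (hW _).mpr fun h => by rw [← act_mul]; exact (hW w).mp hw _) with e | e
  · exact hx ((Submodule.mem_bot ℚ).mp (e ▸ (hW x).mpr hc))
  · have := (hW v).mp (e ▸ Submodule.mem_top) 1
    rw [act_one] at this
    exact (hB.pos v hv).ne' this

/-- The stabiliser of a vector up to sign. -/
def pmStab (σ : G →* Module.End ℚ V) (z : V) : Subgroup G where
  carrier := {k | σ k z = z ∨ σ k z = -z}
  one_mem' := Or.inl (act_one σ z)
  mul_mem' := by
    rintro a b (ha | ha) (hb | hb) <;> simp only [Set.mem_ofPred_eq, act_mul, hb, map_neg, ha, neg_neg] <;> simp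
  inv_mem' := by
    rintro a (ha | ha)
    · left; conv_lhs => rw [← ha, act_inv]
    · right
      have := act_inv σ a z
      rw [ha, map_neg] at this
      exact neg_eq_iff_eq_neg.mp this

theorem pmStab_eq {z : V} {a b : G} (h : σ a z = σ b z ∨ σ a z = -σ b z) :
    (QuotientGroup.mk a : G ⧸ pmStab σ z) = QuotientGroup.mk b := by
  rw [eq_comm, QuotientGroup.eq]
  show σ _ z = z ∨ σ _ z = -z
  rw [act_mul]
  rcases h with h | h
  · left; rw [h, act_inv]
  · right; rw [h, map_neg, act_inv]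

theorem Hyp.index_ge (H : Hyp σ) {z : V} (hz : z ≠ 0) [Finite (G ⧸ pmStab σ z)] : 23 ≤ (pmStab σ z).index := by
  classical
  have := Fintype.ofFinite (G ⧸ pmStab σ z)
  let F : G ⧸ pmStab σ z → V := fun q => σ q.out z
  have h1 : ∀ m : G, σ m z ∈ Submodule.span ℚ (Set.range F) := fun m => by
    have h2 : F (QuotientGroup.mk m) ∈ Submodule.span ℚ (Set.range F) := Submodule.subset_span ⟨_, rfl⟩
    obtain ⟨k, hk⟩ := QuotientGroup.mk_out_eq_mul (pmStab σ z) m
    simp only [F] at h2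
    rw [hk, act_mul] at h2
    rcases k.2 with e | e
    · rwa [e] at h2
    · rw [e, map_neg] at h2
      simpa using neg_mem h2
  rcases H.irr (Submodule.span ℚ (Set.range F)) (fun k w hw => by
    induction hw using Submodule.span_induction with
    | mem x hx => obtain ⟨q, rfl⟩ := hx; rw [← act_mul]; exact h1 _
    | zero => rw [map_zero]; exact zero_mem _
    | add x y _ _ hx hy => rw [map_add]; exact add_mem hx hy
    | smul c x _ hx => rw [map_smul]; exact Submodule.smul_mem _ c hx) with e | e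
  · have := h1 1
    rw [e, act_one] at this
    exact absurd ((Submodule.mem_bot ℚ).mp this) hz
  · have h3 := finrank_range_le_card (R := ℚ) F
    unfold Set.finrank at h3
    rw [e, finrank_top, Module.finrank_fin_fun] at h3
    rw [Subgroup.index, Nat.card_eq_fintype_card]
    exact h3

theorem Hyp.noSmall (H : Hyp σ) (hidx : ∀ K : Subgroup G, K.index ≠ 23 ∧ K.index ≠ 24) {z : V} (hz : z ≠ 0)
    (T : Finset V) (hT : T.card ≤ 24) (h : ∀ k : G, σ k z ∈ T ∨ -σ k z ∈ T) : False := by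
  classical
  have h1 : ∀ q : G ⧸ pmStab σ z, ∃ t : T, (t : V) = σ q.out z ∨ (t : V) = -σ q.out z := fun q => by
    rcases h q.out with e | e
    · exact ⟨⟨_, e⟩, Or.inl rfl⟩
    · exact ⟨⟨_, e⟩, Or.inr rfl⟩
  choose F hF using h1
  have h2 : Function.Injective F := fun q q' e => by
    rw [← QuotientGroup.out_eq' q, ← QuotientGroup.out_eq' q']
    apply pmStab_eq
    have h3 := hF q
    have h4 := hF q'
    rw [e] at h3
    rcases h3 with h3 | h3 <;> rcases h4 with h4 | h4
    · left; rw [← h3, h4]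
    · right; rw [← h3, h4]
    · right; rw [← h4, h3, neg_neg]
    · left; exact neg_injective (h3.symm.trans h4)
  have := Finite.of_injective F h2
  have h5 := Nat.card_le_card_of_injective F h2
  rw [Nat.card_eq_fintype_card (α := T), Fintype.card_coe] at h5
  have h6 := H.index_ge hz
  have h7 := hidx (pmStab σ z)
  unfold Subgroup.index at h6 h7
  omega

theorem Hyp.noOrth (H : Hyp σ) (hB : Form σ B) (hidx : ∀ K : Subgroup G, K.index ≠ 23 ∧ K.index ≠ 24)
    {z : V} (hz : z ≠ 0) (h : ∀ k : G, σ k z = z ∨ σ k z = -z ∨ B (σ k z) z = 0) : False := by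
  classical
  let F : G ⧸ pmStab σ z → V := fun q => σ q.out z
  have h1 : ∀ q q', q ≠ q' → B (F q) (F q') = 0 := fun q q' hq => by
    have e1 : B (F q) (F q') = B (σ (q'.out⁻¹ * q.out) z) z := by
      rw [act_mul, hB.move q'.out⁻¹, inv_inv]
    rw [e1]
    have e2 : ¬ (σ (q'.out⁻¹ * q.out) z = z ∨ σ (q'.out⁻¹ * q.out) z = -z) := fun e => hq (by
      rw [← QuotientGroup.out_eq' q, ← QuotientGroup.out_eq' q', eq_comm, QuotientGroup.eq]
      exact e)
    rcases h (q'.out⁻¹ * q.out) with e | e | e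
    · exact absurd (Or.inl e) e2
    · exact absurd (Or.inr e) e2
    · exact e
  have h2 : LinearIndependent ℚ F := by
    rw [linearIndependent_iff']
    intro s c hc q hq
    have h3 := congrArg (fun v => B v (F q)) hc
    simp only [map_sum, map_smul, LinearMap.sum_apply, LinearMap.smul_apply, map_zero, LinearMap.zero_apply,
      smul_eq_mul] at h3
    rw [Finset.sum_eq_single q (fun q' _ e => by rw [h1 q' q e, mul_zero]) (fun e => absurd hq e)] at h3
    exact (mul_eq_zero.mp h3).resolve_right (hB.pos _ (act_ne σ _ hz)).ne'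
  have := h2.finite
  have := Fintype.ofFinite (G ⧸ pmStab σ z)
  have h5 := h2.fintype_card_le_finrank
  rw [Module.finrank_fin_fun, ← Nat.card_eq_fintype_card] at h5
  have h6 := H.index_ge hz
  have h7 := hidx (pmStab σ z)
  unfold Subgroup.index at h6 h7
  omega

theorem Hyp.noSimplex (H : Hyp σ) (hB : Form σ B) (hidx : ∀ K : Subgroup G, K.index ≠ 23 ∧ K.index ≠ 24)
    {z : V} (hz : z ≠ 0) (S : Set V) (hS : ∀ k : G, σ k z ∈ S ∨ -σ k z ∈ S)
    (hn : ∀ x ∈ S, B x x = B z z) (h : ∀ x ∈ S, ∀ y ∈ S, x ≠ y → 23 * B x y = -B z z) : False := by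
  classical
  have h1 : ∀ T : Finset V, (T : Set V) ⊆ S → T.card ≤ 24 := fun T hT => by
    have h2 := hB.nonneg (∑ x ∈ T, x)
    have h3 : ∀ x ∈ T, ∑ y ∈ T, 23 * B x y = (24 - T.card) * B z z := fun x hx => by
      rw [← Finset.add_sum_erase T _ hx, Finset.sum_congr rfl (fun y hy =>
        h x (hT hx) y (hT (Finset.mem_of_mem_erase hy)) (Finset.ne_of_mem_erase hy).symm), hn x (hT hx),
        Finset.sum_const, Finset.card_erase_of_mem hx, nsmul_eq_mul,
        Nat.cast_sub (Finset.card_pos.mpr ⟨x, hx⟩)]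
      push_cast; ring
    have h4 : 23 * B (∑ x ∈ T, x) (∑ x ∈ T, x) = T.card * ((24 - T.card) * B z z) := by
      rw [map_sum B, LinearMap.sum_apply, Finset.mul_sum,
        Finset.sum_congr rfl (fun x hx => by rw [map_sum, Finset.mul_sum, h3 x hx]), Finset.sum_const, nsmul_eq_mul]
    have h5 := hB.pos z hz
    by_contra h6
    have h7 : (25 : ℚ) ≤ T.card := by exact_mod_cast (by omega : 25 ≤ T.card)
    have h8 : (T.card : ℚ) * ((24 - T.card) * B z z) < 0 :=
      mul_neg_of_pos_of_neg (by linarith) (mul_neg_of_neg_of_pos (by linarith) h5)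
    linarith
  have h2 : S.Finite := by
    by_contra e
    obtain ⟨T, hT, hc⟩ := Set.Infinite.exists_subset_card_eq e 25
    have := h1 T hT
    omega
  exact H.noSmall hidx hz h2.toFinset (h1 _ (by simp)) (fun k => by simpa using hS k)

theorem Setup.d_pos (S : Setup σ B L g u d) : 0 < d := Nat.pos_of_ne_zero S.sq.ne_zero

theorem Setup.d_ne (S : Setup σ B L g u d) : (d : ℚ) ≠ 0 := by exact_mod_cast S.d_pos.ne'

theorem Setup.u_ne (S : Setup σ B L g u d) : u ≠ 0 := fun e => by
  have := S.uu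
  rw [e, map_zero] at this
  exact S.d_ne (by linarith)

theorem Setup.gpow (S : Setup σ B L g u d) (j : ℕ) : σ (g ^ j) u = u := by
  induction j with
  | zero => rw [pow_zero, act_one]
  | succ j ih => rw [pow_succ, act_mul, S.gu, ih]

theorem Setup.pow23 (S : Setup σ B L g u d) : σ (g ^ 23) = 1 := by
  have h1 : ∀ w, B w u = 0 → σ (g ^ 23) w = w := fun w hw => by
    have h2 := S.sum0 w hw
    have h3 := congrArg (σ g) h2
    rw [map_zero, map_sum] at h3
    simp only [← act_mul, ← pow_succ'] at h3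
    have h4 := Finset.sum_range_succ' (fun j => σ (g ^ j) w) 23
    rw [Finset.sum_range_succ, h2, h3, pow_zero, act_one] at h4
    simpa using h4
  refine LinearMap.ext fun x => ?_
  have h5 := h1 (x - (B x u / (23 * d)) • u) (by
    rw [map_sub, map_smul, LinearMap.sub_apply, LinearMap.smul_apply, S.uu, smul_eq_mul]
    have := S.d_ne
    field_simp
    ring)
  rw [map_sub, map_smul, S.gpow] at h5
  exact sub_left_injective h5

theorem Setup.evenM (S : Setup σ B L g u d) {x : V} (hx : x ∈ L) (hu : B x u = 0) : ∃ n : ℤ, B x x = 2 * n := by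
  have h1 := congrArg (B x) (S.sum0 x hu)
  rw [map_sum, map_zero] at h1
  have h2 : ∀ j, j ≤ 23 → B x (σ (g ^ (23 - j)) x) = B x (σ (g ^ j) x) := fun j hj => by
    rw [← S.form.inv (g ^ j), ← act_mul, ← pow_add, Nat.add_sub_cancel' hj, S.pow23, S.form.symm]
    rfl
  choose n hn using fun j : ℕ => S.lat.int x hx _ (S.lat.inv (g ^ j) x hx)
  have h3 : ∀ j, j ≤ 23 → n (23 - j) = n j := fun j hj => by
    apply Int.cast_injective (α := ℚ)
    rw [← hn, ← hn, h2 j hj]
  have h4 : B x x = n 0 := by rw [← hn, pow_zero, act_one]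
  simp only [hn] at h1
  have h5 : ∑ j ∈ Finset.range 23, n j = 0 := by exact_mod_cast h1
  simp only [Finset.sum_range_succ, Finset.sum_range_zero] at h5
  have := h3 1; have := h3 2; have := h3 3; have := h3 4; have := h3 5; have := h3 6; have := h3 7
  have := h3 8; have := h3 9; have := h3 10; have := h3 11
  norm_num at *
  refine ⟨-(n 1 + n 2 + n 3 + n 4 + n 5 + n 6 + n 7 + n 8 + n 9 + n 10 + n 11), ?_⟩
  rw [h4]
  exact_mod_cast (by omega)

theorem Setup.par (S : Setup σ B L g u d) {x : V} (hx : x ∈ L) {k : ℤ} (hk : B x u = d * k) :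
    ∃ n : ℤ, B x x = 2 * n + d * k := by
  obtain ⟨y, hy, hyu⟩ := S.one
  obtain ⟨a, ha⟩ := S.evenM (x := x - k • y) (sub_mem hx (L.smul_mem k hy)) (by
    rw [map_sub, map_zsmul, LinearMap.sub_apply, LinearMap.smul_apply, hk, hyu, zsmul_eq_mul]; ring)
  obtain ⟨b, hb⟩ := S.evenM (x := (23 : ℤ) • y - u) (sub_mem (L.smul_mem _ hy) S.uL) (by
    rw [map_sub, map_zsmul, LinearMap.sub_apply, LinearMap.smul_apply, S.uu, hyu, zsmul_eq_mul]; push_cast; ring)
  obtain ⟨p, hp⟩ := S.lat.int x hx y hy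
  obtain ⟨q, hq⟩ := S.lat.int y hy y hy
  obtain ⟨r, hr⟩ := S.lat.int x hx x hx
  simp only [map_sub, bz1, bz2, LinearMap.sub_apply, S.form.symm y x,
    S.form.symm u y, hp, hq, hr, hyu, S.uu] at ha hb
  have ha' : r - k * p - k * (p - k * q) = 2 * a := by
    apply Int.cast_injective (α := ℚ); push_cast; linarith
  have hb' : 23 * (23 * q - d) = 2 * b := by
    apply Int.cast_injective (α := ℚ); push_cast at hb ⊢; linarith
  obtain ⟨e, he⟩ : Even (k * (k - 1)) := by
    have := Int.even_mul_succ_self (k - 1)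
    rwa [sub_add_cancel, mul_comm] at this
  have h1 : q = d + 2 * (b - 264 * q + 11 * d) := by omega
  refine ⟨a + k * p - k * k * (b - 264 * q + 11 * d) - d * e - d * k, ?_⟩
  rw [hr]
  have h2 : r = 2 * (a + k * p - k * k * (b - 264 * q + 11 * d) - d * e - d * k) + d * k := by
    have h3 : k * k * q = k * k * d + 2 * (k * k * (b - 264 * q + 11 * d)) := by
      conv_lhs => rw [h1]
      ring
    have h4 : d * (k * (k - 1)) = d * (e + e) := by rw [he]
    linarith
  exact_mod_cast h2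

end Basic

end Cfsg.Agent.F23
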