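import Mathlib

/-! Circulant Gram matrices of order 23 made of roots. -/

set_option autoImplicit false

namespace Cfsg.Agent.F23

open Finset

def cyT : List (List ℕ) := [[213, 201, 183, 159, 130, 100, 72, 45, 23, 7, 0], [201, 159, 100, 45, 7, 0, 23, 72, 130, 183, 213], [183, 100, 23, 0, 45, 130, 201, 213, 159, 72, 7], [159, 45, 0, 72, 183, 213, 130, 23, 7, 100, 201], [130, 7, 45, 183, 201, 72, 0, 100, 213, 159, 23], [100, 0, 130, 213, 72, 7, 159, 201, 45, 23, 183], [72, 23, 201, 130, 0, 159, 183, 7, 100, 213, 45], [45, 72, 213, 23, 100, 201, 7, 130, 183, 0, 159], [23, 130, 159, 7, 213, 45, 100, 183, 0, 201, 72], [7, 183, 72, 100, 159, 23, 213, 0, 201, 45, 130], [0, 213, 7, 201, 23, 183, 45, 159, 72, 130, 100]]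

def cyDot : List ℕ → List ℕ → ℕ
  | x :: l, y :: m => x * y + cyDot l m
  | _, _ => 0

def cyLeaf (l : List ℕ) : Bool := cyT.any (fun t => Nat.blt (cyDot t l) 914) || l.all (Nat.blt · 2)

def cyGo : ℕ → ℕ → List ℕ → Bool
  | 0, s, l => !(Nat.beq s 10) || cyLeaf l
  | n + 1, s, l => Nat.blt 10 s || (Nat.blt (s + 2 * (n + 1)) 10 ||
      (cyGo n s (0 :: l) && (cyGo n (s + 1) (1 :: l) && cyGo n (s + 2) (2 :: l))))

theorem cyGo_sound : ∀ (m : List ℕ) (s : ℕ) (l : List ℕ), cyGo m.length s l = true →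
    (∀ x ∈ m, x ≤ 2) → s + m.sum = 10 → cyLeaf (m.reverse ++ l) = true
  | [], s, l, h, _, hs => by
    simp only [List.sum_nil, add_zero] at hs
    subst hs
    simpa [cyGo] using h
  | x :: m, s, l, h, h2, hs => by
    have hb : m.sum ≤ m.length * 2 := by
      simpa using List.sum_le_card_nsmul m 2 fun y hy => h2 y (List.mem_cons_of_mem _ hy)
    have hx := h2 x List.mem_cons_self
    simp only [List.sum_cons] at hs
    simp only [List.length_cons, cyGo, Bool.or_eq_true, Nat.blt_eq, Bool.and_eq_true] at h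
    rw [List.reverse_cons, List.append_assoc, List.singleton_append]
    have h2' : ∀ y ∈ m, y ≤ 2 := fun y hy => h2 y (List.mem_cons_of_mem _ hy)
    rcases h with h | h | ⟨h0, h1, h3⟩
    · omega
    · omega
    · interval_cases x
      · exact cyGo_sound m _ _ h0 h2' (by omega)
      · exact cyGo_sound m _ _ h1 h2' (by omega)
      · exact cyGo_sound m _ _ h3 h2' (by omega)

theorem cyGo_true : cyGo 11 0 [] = true := by decide +kernel

def cyV : Fin 23 → ℤ := ![3, 3, 3, 2, 1, 1, 0, -1, -2, -2, -3, -3, -3, -3, -2, -2, -1, 0, 1, 1, 2, 3, 3]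

def cyR : Fin 23 → ℤ := ![111, 105, 93, 75, 51, 22, -8, -36, -63, -85, -101, -108, -108, -101, -85, -63, -36, -8, 22, 51, 75, 93, 105]

theorem cyR_eq : ∀ k : Fin 23, k ≠ 0 → ∀ m : Fin 23, ∑ i : Fin 23, cyV (k * i) * cyV (k * (i - m)) = cyR (k * m) := by
  decide +kernel

theorem cy_lin (a : Fin 23 → ℤ) (hpsd : ∀ v : Fin 23 → ℤ, 0 ≤ ∑ i, ∑ j, v i * v j * a (i - j))
    {k : Fin 23} (hk : k ≠ 0) : 0 ≤ ∑ m, cyR (k * m) * a m := by
  refine (hpsd fun i => cyV (k * i)).trans_eq ?_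
  rw [sum_congr rfl fun i _ => (Equiv.subLeft i).sum_comp
    (fun j => cyV (k * i) * cyV (k * j) * a (i - j)) |>.symm, sum_comm]
  refine sum_congr rfl fun m _ => ?_
  rw [← cyR_eq k hk m, sum_mul]
  exact sum_congr rfl fun i _ => by rw [Equiv.subLeft_apply, sub_sub_cancel]

theorem cy_nonpos (a : Fin 23 → ℤ) (h0 : a 0 = 2) (hs : ∀ j, a (-j) = a j)
    (h1 : ∀ j, j ≠ 0 → -1 ≤ a j ∧ a j ≤ 1) (hsum : ∑ j, a j = 0)
    (hpsd : ∀ v : Fin 23 → ℤ, 0 ≤ ∑ i, ∑ j, v i * v j * a (i - j)) : ∀ j, j ≠ 0 → a j ≤ 0 := by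
  have hb : ∀ j, j ≠ 0 → ∃ b : ℕ, b ≤ 2 ∧ a j = b - 1 := fun j hj =>
    ⟨(a j + 1).toNat, by have := h1 j hj; omega, by have := h1 j hj; omega⟩
  obtain ⟨b1, c1, e1⟩ := hb 1 (by decide)
  obtain ⟨b2, c2, e2⟩ := hb 2 (by decide)
  obtain ⟨b3, c3, e3⟩ := hb 3 (by decide)
  obtain ⟨b4, c4, e4⟩ := hb 4 (by decide)
  obtain ⟨b5, c5, e5⟩ := hb 5 (by decide)
  obtain ⟨b6, c6, e6⟩ := hb 6 (by decide)
  obtain ⟨b7, c7, e7⟩ := hb 7 (by decide)
  obtain ⟨b8, c8, e8⟩ := hb 8 (by decide)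
  obtain ⟨b9, c9, e9⟩ := hb 9 (by decide)
  obtain ⟨b10, c10, e10⟩ := hb 10 (by decide)
  obtain ⟨b11, c11, e11⟩ := hb 11 (by decide)
  have e12 : a 12 = b11 - 1 := (hs 11).trans e11
  have e13 : a 13 = b10 - 1 := (hs 10).trans e10
  have e14 : a 14 = b9 - 1 := (hs 9).trans e9
  have e15 : a 15 = b8 - 1 := (hs 8).trans e8
  have e16 : a 16 = b7 - 1 := (hs 7).trans e7
  have e17 : a 17 = b6 - 1 := (hs 6).trans e6
  have e18 : a 18 = b5 - 1 := (hs 5).trans e5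
  have e19 : a 19 = b4 - 1 := (hs 4).trans e4
  have e20 : a 20 = b3 - 1 := (hs 3).trans e3
  have e21 : a 21 = b2 - 1 := (hs 2).trans e2
  have e22 : a 22 = b1 - 1 := (hs 1).trans e1
  have ex : ∀ f : Fin 23 → ℤ, ∑ m, f m * a m = f 0 * 2 + (f 1 + f 22) * (b1 - 1) + (f 2 + f 21) * (b2 - 1) +
      (f 3 + f 20) * (b3 - 1) + (f 4 + f 19) * (b4 - 1) + (f 5 + f 18) * (b5 - 1) +
      (f 6 + f 17) * (b6 - 1) + (f 7 + f 16) * (b7 - 1) + (f 8 + f 15) * (b8 - 1) +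
      (f 9 + f 14) * (b9 - 1) + (f 10 + f 13) * (b10 - 1) + (f 11 + f 12) * (b11 - 1) := fun f => by
    have : ∑ m, f m * a m = f 0 * a 0 + (f 1 * a 1 + (f 2 * a 2 + (f 3 * a 3 + (f 4 * a 4 + (f 5 * a 5 +
        (f 6 * a 6 + (f 7 * a 7 + (f 8 * a 8 + (f 9 * a 9 + (f 10 * a 10 + (f 11 * a 11 + (f 12 * a 12 +
        (f 13 * a 13 + (f 14 * a 14 + (f 15 * a 15 + (f 16 * a 16 + (f 17 * a 17 + (f 18 * a 18 +
        (f 19 * a 19 + (f 20 * a 20 + (f 21 * a 21 + (f 22 * a 22 + 0)))))))))))))))))))))) := rfl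
    rw [this, h0, e1, e2, e3, e4, e5, e6, e7, e8, e9, e10, e11, e12, e13, e14, e15, e16, e17, e18, e19,
      e20, e21, e22]
    ring
  have hS := ex fun _ => 1
  simp only [one_mul, hsum] at hS
  have hL := cyGo_sound [b11, b10, b9, b8, b7, b6, b5, b4, b3, b2, b1] 0 [] cyGo_true
    (by simp only [List.mem_cons, List.not_mem_nil, or_false]; rintro x (h|h|h|h|h|h|h|h|h|h|h) <;> omega)
    (by simp only [List.sum_cons, List.sum_nil]; omega)
  have key : ∀ (k : Fin 23), k ≠ 0 → ∀ r1 r2 r3 r4 r5 r6 r7 r8 r9 r10 r11 : ℤ,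
      (cyR (k * 0) = 111 ∧ cyR (k * 1) + cyR (k * 22) = r1 ∧ cyR (k * 2) + cyR (k * 21) = r2 ∧
      cyR (k * 3) + cyR (k * 20) = r3 ∧ cyR (k * 4) + cyR (k * 19) = r4 ∧ cyR (k * 5) + cyR (k * 18) = r5 ∧
      cyR (k * 6) + cyR (k * 17) = r6 ∧ cyR (k * 7) + cyR (k * 16) = r7 ∧ cyR (k * 8) + cyR (k * 15) = r8 ∧
      cyR (k * 9) + cyR (k * 14) = r9 ∧ cyR (k * 10) + cyR (k * 13) = r10 ∧
      cyR (k * 11) + cyR (k * 12) = r11) → 0 ≤ 222 + r1 * (b1 - 1) + r2 * (b2 - 1) + r3 * (b3 - 1) +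
        r4 * (b4 - 1) + r5 * (b5 - 1) + r6 * (b6 - 1) + r7 * (b7 - 1) + r8 * (b8 - 1) + r9 * (b9 - 1) +
        r10 * (b10 - 1) + r11 * (b11 - 1) := by
    rintro k hk _ _ _ _ _ _ _ _ _ _ _ ⟨h, rfl, rfl, rfl, rfl, rfl, rfl, rfl, rfl, rfl, rfl, rfl⟩
    have := cy_lin a hpsd hk
    rw [ex fun m => cyR (k * m), h] at this
    exact this
  have k1 := key 1 (by decide) (210) (186) (150) (102) (44) (-16) (-72) (-126) (-170) (-202) (-216) (by decide)
  have k2 := key 2 (by decide) (186) (102) (-16) (-126) (-202) (-216) (-170) (-72) (44) (150) (210) (by decide)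
  have k3 := key 3 (by decide) (150) (-16) (-170) (-216) (-126) (44) (186) (210) (102) (-72) (-202) (by decide)
  have k4 := key 4 (by decide) (102) (-126) (-216) (-72) (150) (210) (44) (-170) (-202) (-16) (186) (by decide)
  have k5 := key 5 (by decide) (44) (-202) (-126) (150) (186) (-72) (-216) (-16) (210) (102) (-170) (by decide)
  have k6 := key 6 (by decide) (-16) (-216) (44) (210) (-72) (-202) (102) (186) (-126) (-170) (150) (by decide)
  have k7 := key 7 (by decide) (-72) (-170) (186) (44) (-216) (102) (150) (-202) (-16) (210) (-126) (by decide)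
  have k8 := key 8 (by decide) (-126) (-72) (210) (-170) (-16) (186) (-202) (44) (150) (-216) (102) (by decide)
  have k9 := key 9 (by decide) (-170) (44) (102) (-202) (210) (-126) (-16) (150) (-216) (186) (-72) (by decide)
  have k10 := key 10 (by decide) (-202) (150) (-72) (-16) (102) (-170) (210) (-216) (186) (-126) (44) (by decide)
  have k11 := key 11 (by decide) (-216) (210) (-202) (186) (-170) (150) (-126) (102) (-72) (44) (-16) (by decide)
  simp only [List.reverse_cons, List.reverse_nil, List.nil_append, List.cons_append, List.append_nil,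
    cyLeaf, cyT, List.any_cons, List.any_nil, cyDot, List.all_cons, List.all_nil, Bool.or_eq_true,
    Bool.and_eq_true, Nat.blt_eq, Bool.false_eq_true, or_false, and_true] at hL
  have hb2 : b1 < 2 ∧ b2 < 2 ∧ b3 < 2 ∧ b4 < 2 ∧ b5 < 2 ∧ b6 < 2 ∧ b7 < 2 ∧ b8 < 2 ∧ b9 < 2 ∧ b10 < 2 ∧
      b11 < 2 := by
    refine hL.resolve_left ?_
    rintro (h|h|h|h|h|h|h|h|h|h|h) <;> omega
  intro j hj
  have : ∀ j : Fin 23, j = 0 ∨ j = 1 ∨ j = 2 ∨ j = 3 ∨ j = 4 ∨ j = 5 ∨ j = 6 ∨ j = 7 ∨ j = 8 ∨ j = 9 ∨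
      j = 10 ∨ j = 11 ∨ j = 12 ∨ j = 13 ∨ j = 14 ∨ j = 15 ∨ j = 16 ∨ j = 17 ∨ j = 18 ∨ j = 19 ∨ j = 20 ∨
      j = 21 ∨ j = 22 := by decide
  rcases this j with h|h|h|h|h|h|h|h|h|h|h|h|h|h|h|h|h|h|h|h|h|h|h <;> subst h
  · exact absurd rfl hj
  all_goals omega

theorem cyc (a : ZMod 23 → ℤ) (h0 : a 0 = 2) (hs : ∀ j, a (-j) = a j) (h1 : ∀ j, j ≠ 0 → -1 ≤ a j ∧ a j ≤ 1)
    (hsum : ∑ j, a j = 0) (hpsd : ∀ v : ZMod 23 → ℤ, 0 ≤ ∑ i, ∑ j, v i * v j * a (i - j)) :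
    ∃ s : ZMod 23, s ≠ 0 ∧ ∀ j, j ≠ 0 → a j = if j = s ∨ j = -s then -1 else 0 := by
  have hn : ∀ j : ZMod 23, j ≠ 0 → a j ≤ 0 := cy_nonpos a h0 hs h1 hsum hpsd
  have hle : ∀ T : Finset (ZMod 23), 0 ∈ T → 0 ≤ ∑ j ∈ T, a j := fun T hT => by
    rw [← sum_add_sum_compl T] at hsum
    have := sum_nonpos (s := Tᶜ) (f := a) fun j hj => hn j fun e => mem_compl.1 hj (e ▸ hT)
    omega
  obtain ⟨s, hs0, hs1⟩ : ∃ s, s ≠ 0 ∧ a s = -1 := by
    by_contra h
    push Not at h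
    rw [← add_sum_erase _ _ (mem_univ 0), sum_eq_zero fun j hj => by
      have h2 := ne_of_mem_erase hj
      have := h j h2
      have := h1 j h2
      have := hn j h2
      omega] at hsum
    omega
  refine ⟨s, hs0, fun j hj => ?_⟩
  split_ifs with h
  · rcases h with rfl | rfl
    · exact hs1
    · rw [hs, hs1]
  · push Not at h
    have h3 : ∀ s : ZMod 23, s ≠ 0 → s ≠ -s := by decide
    have h4 := hle {0, j, s, -s} (by simp)
    rw [sum_insert (by simp [hj.symm, hs0.symm, hs0]), sum_insert (by simp [h.1, h.2]),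
      sum_pair (h3 s hs0), hs, hs1, h0] at h4
    have := hn j hj
    omega

end Cfsg.Agent.F23
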