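import Cfsg.Agent.F23.Defs

/-! Bases and duals of rational lattices. -/

set_option autoImplicit false

open Module

namespace Cfsg.Agent.F23

variable {G : Type*} [Group G] {σ : G →* Module.End ℚ V} {B : V →ₗ[ℚ] V →ₗ[ℚ] ℚ} {L : Submodule ℤ V}

theorem exists_basis {L : Submodule ℤ V} (h : L.FG) (hs : Submodule.span ℚ (L : Set V) = ⊤) :
    ∃ b : Basis (Fin 23) ℚ V, L = Submodule.span ℤ (Set.range b) := by
  have : Module.Finite ℤ L := Module.Finite.iff_fg.mpr h
  have : Module.Free ℤ L := inferInstance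
  let c := Module.finBasis ℤ L
  have h1 : LinearIndependent ℤ (fun i => (c i : V)) := c.linearIndependent.map' L.subtype L.ker_subtype
  have h2 : LinearIndependent ℚ (fun i => (c i : V)) := (LinearIndependent.iff_fractionRing ℤ ℚ).mp h1
  have h3 : Submodule.span ℤ (Set.range fun i => (c i : V)) = L := by
    have := congrArg (Submodule.map L.subtype) c.span_eq
    rw [Submodule.map_span, ← Set.range_comp, Submodule.map_top, Submodule.range_subtype] at this
    exact this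
  have h4 : ⊤ ≤ Submodule.span ℚ (Set.range fun i => (c i : V)) := by
    rw [← hs, Submodule.span_le]
    exact fun x hx => Submodule.span_subset_span ℤ ℚ _ (h3.ge hx)
  let b := Basis.mk h2 h4
  have h5 : finrank ℤ L = 23 := by
    have := finrank_eq_card_basis b
    simpa using this.symm
  refine ⟨b.reindex (finCongr h5), ?_⟩
  rw [Basis.range_reindex]
  refine h3.symm.trans ?_
  congr 2
  ext i
  simp [b]

theorem Form.nondeg (hB : Form σ B) : LinearMap.BilinForm.Nondegenerate B :=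
  ⟨fun x hx => by_contra fun h => (hB.pos x h).ne' (hx x),
    fun x hx => by_contra fun h => (hB.pos x h).ne' (hx x)⟩

theorem dual_eq_dualSubmodule (B : V →ₗ[ℚ] V →ₗ[ℚ] ℚ) (L : Submodule ℤ V) :
    dual B L = LinearMap.BilinForm.dualSubmodule B L := by
  ext z
  rw [mem_dual, LinearMap.BilinForm.mem_dualSubmodule]
  refine forall₂_congr fun x _ => ?_
  rw [Submodule.mem_one]
  exact exists_congr fun n => eq_comm

theorem Form.dual_basis (hB : Form σ B) (b : Basis (Fin 23) ℚ V) :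
    ∃ c : Basis (Fin 23) ℚ V, (∀ i j, B (c i) (b j) = if j = i then 1 else 0) ∧
      dual B (Submodule.span ℤ (Set.range b)) = Submodule.span ℤ (Set.range c) :=
  ⟨LinearMap.BilinForm.dualBasis B hB.nondeg b, LinearMap.BilinForm.apply_dualBasis_left hB.nondeg b,
    (dual_eq_dualSubmodule _ _).trans (LinearMap.BilinForm.dualSubmodule_span_of_basis B hB.nondeg b)⟩

theorem Lat.bases (hL : Lat σ B L) (hB : Form σ B) :
    ∃ b c : Basis (Fin 23) ℚ V, L = Submodule.span ℤ (Set.range b) ∧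
      (∀ i j, B (c i) (b j) = if j = i then 1 else 0) ∧ dual B L = Submodule.span ℤ (Set.range c) := by
  obtain ⟨b, rfl⟩ := exists_basis hL.fg hL.span
  obtain ⟨c, h1, h2⟩ := hB.dual_basis b
  exact ⟨b, c, rfl, h1, h2⟩

theorem Lat.dual_dual (hL : Lat σ B L) (hB : Form σ B) {z : V} (h : ∀ w ∈ dual B L, ∃ n : ℤ, B z w = n) :
    z ∈ L := by
  obtain ⟨b, c, h1, h2, h3⟩ := hL.bases hB
  rw [h1, b.mem_span_iff_repr_mem ℤ]
  intro i
  obtain ⟨n, hn⟩ := h (c i) (h3 ▸ Submodule.subset_span ⟨i, rfl⟩)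
  refine ⟨n, ?_⟩
  rw [hB.symm, ← b.sum_repr z] at hn
  simp only [map_sum, map_smul, h2, smul_eq_mul, mul_ite, mul_one, mul_zero, Finset.sum_ite_eq',
    Finset.mem_univ, if_true] at hn
  simpa using hn.symm

theorem Lat.dual_fg (hL : Lat σ B L) (hB : Form σ B) : (dual B L).FG := by
  obtain ⟨b, c, -, -, h3⟩ := hL.bases hB
  rw [h3]
  exact Submodule.fg_span (Set.finite_range c)

theorem Form.inv' (hB : Form σ B) (k : G) (x y : V) : B (σ k x) y = B x (σ k⁻¹ y) := by
  rw [← hB.inv k x, ← Module.End.mul_apply, ← map_mul, mul_inv_cancel, map_one, Module.End.one_apply]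

theorem Lat.dual_inv (hL : Lat σ B L) (hB : Form σ B) (k : G) {z : V} (h : z ∈ dual B L) :
    σ k z ∈ dual B L := fun x hx => by
  rw [hB.inv']
  exact h _ (hL.inv _ x hx)

theorem exists_mul_mem_span (b : Basis (Fin 23) ℚ V) (z : V) :
    ∃ n : ℕ, 0 < n ∧ (n : ℤ) • z ∈ Submodule.span ℤ (Set.range b) := by
  refine ⟨∏ i, (b.repr z i).den, Finset.prod_pos fun i _ => (b.repr z i).den_pos, ?_⟩
  rw [b.mem_span_iff_repr_mem ℤ]
  intro i
  obtain ⟨m, hm⟩ := Finset.dvd_prod_of_mem (fun i => (b.repr z i).den) (Finset.mem_univ i)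
  refine ⟨m * (b.repr z i).num, ?_⟩
  rw [hm, map_zsmul, Finsupp.smul_apply, zsmul_eq_mul]
  simp only [eq_intCast]
  push_cast
  rw [← Rat.mul_den_eq_num]
  ring

theorem exists_kill_fg {M : Submodule ℤ V} (hM : M.FG) (h : L.FG) (hs : Submodule.span ℚ (L : Set V) = ⊤) :
    ∃ n : ℕ, 0 < n ∧ ∀ z ∈ M, (n : ℤ) • z ∈ L := by
  obtain ⟨b, rfl⟩ := exists_basis h hs
  obtain ⟨s, rfl⟩ := hM
  choose f hf using exists_mul_mem_span b
  refine ⟨∏ z ∈ s, f z, Finset.prod_pos fun z _ => (hf z).1, fun z hz => ?_⟩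
  induction hz using Submodule.span_induction with
  | mem x hx =>
    obtain ⟨m, hm⟩ := Finset.dvd_prod_of_mem f hx
    rw [hm, mul_comm, Nat.cast_mul, mul_smul]
    exact Submodule.smul_mem _ _ (hf x).2
  | zero => simp
  | add x y _ _ hx hy => rw [smul_add]; exact add_mem hx hy
  | smul a x _ hx => rw [smul_comm]; exact Submodule.smul_mem _ _ hx

theorem Lat.exists_kill (hL : Lat σ B L) (hB : Form σ B) :
    ∃ n : ℕ, 0 < n ∧ ∀ z ∈ dual B L, (n : ℤ) • z ∈ L :=
  exists_kill_fg (hL.dual_fg hB) hL.fg hL.span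

theorem Lat.exists_dual (hL : Lat σ B L) (hB : Form σ B) (f : L →ₗ[ℤ] ℤ) :
    ∃ z ∈ dual B L, ∀ x : L, B z x = (f x : ℚ) := by
  obtain ⟨b, c, h1, h2, h3⟩ := hL.bases hB
  have hb : ∀ i, b i ∈ L := fun i => h1 ▸ Submodule.subset_span ⟨i, rfl⟩
  have key : ∀ x (hx : x ∈ L), B (∑ i, f ⟨b i, hb i⟩ • c i) x = (f ⟨x, hx⟩ : ℚ) := by
    intro x hx
    have hx' := hx
    rw [h1, Submodule.mem_span_range_iff_exists_fun] at hx'
    obtain ⟨a, rfl⟩ := hx'
    have e : (⟨∑ i, a i • b i, hx⟩ : L) = ∑ i, a i • (⟨b i, hb i⟩ : L) := by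
      ext1; simp
    rw [e]
    simp only [map_sum, map_zsmul, LinearMap.sum_apply, LinearMap.smul_apply, h2]
    simp
  exact ⟨_, fun x hx => ⟨_, key x hx⟩, fun x => key x x.2⟩

theorem Lat.exists_one (hL : Lat σ B L) (hB : Form σ B) : ∃ x ∈ L, ∃ z ∈ dual B L, B x z = 1 := by
  obtain ⟨b, c, h1, h2, h3⟩ := hL.bases hB
  exact ⟨b 0, h1 ▸ Submodule.subset_span ⟨0, rfl⟩, c 0, h3 ▸ Submodule.subset_span ⟨0, rfl⟩,
    by rw [hB.symm, h2, if_pos rfl]⟩

theorem gram_change (B : V →ₗ[ℚ] V →ₗ[ℚ] ℚ) (b b' : Basis (Fin 23) ℚ V) :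
    (Matrix.of fun i j => B (b i) (b j)).det = b'.det b ^ 2 * (Matrix.of fun i j => B (b' i) (b' j)).det := by
  have e : ∀ c : Basis (Fin 23) ℚ V, (Matrix.of fun i j => B (c i) (c j)) = LinearMap.BilinForm.toMatrix c B :=
    fun c => by ext i j; simp [LinearMap.BilinForm.toMatrix_apply]
  rw [e, e, ← LinearMap.BilinForm.toMatrix_mul_basis_toMatrix b' b, Matrix.det_mul, Matrix.det_mul,
    Matrix.det_transpose, Basis.det_apply]
  ring

theorem Form.gram_pos (hB : Form σ B) (b : Basis (Fin 23) ℚ V) :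
    0 < (Matrix.of fun i j => B (b i) (b j)).det := by
  obtain ⟨v, hv⟩ := LinearMap.BilinForm.exists_orthogonal_basis (K := ℚ) (B := B) ⟨fun x y => hB.symm x y⟩
  have h5 : finrank ℚ V = 23 := by simp
  let w := v.reindex (finCongr h5)
  have e : (Matrix.of fun i j => B (w i) (w j)) = Matrix.diagonal fun i => B (w i) (w i) := by
    ext i j
    by_cases h : i = j
    · subst h; simp
    · rw [Matrix.diagonal_apply_ne _ h, Matrix.of_apply]
      simp only [w, Basis.reindex_apply]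
      exact hv fun e => h ((finCongr h5).symm.injective e)
  rw [gram_change B b w, e, Matrix.det_diagonal]
  exact mul_pos (pow_pos_of_ne (w.isUnit_det b).ne_zero) (Finset.prod_pos fun i _ => hB.pos _ (w.ne_zero i))
where pow_pos_of_ne {x : ℚ} (h : x ≠ 0) : 0 < x ^ 2 := by positivity

theorem gram_index (B : V →ₗ[ℚ] V →ₗ[ℚ] ℚ) (b b' : Basis (Fin 23) ℚ V)
    (h : Submodule.span ℤ (Set.range b) ≤ Submodule.span ℤ (Set.range b')) :
    (Submodule.span ℤ (Set.range b)).toAddSubgroup.relIndex (Submodule.span ℤ (Set.range b')).toAddSubgroup ≠ 0 ∧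
    (Matrix.of fun i j => B (b i) (b j)).det =
      ((Submodule.span ℤ (Set.range b)).toAddSubgroup.relIndex
        (Submodule.span ℤ (Set.range b')).toAddSubgroup : ℚ) ^ 2 * (Matrix.of fun i j => B (b' i) (b' j)).det := by
  have e := AddSubgroup.relIndex_eq_abs_det (Submodule.span ℤ (Set.range b)).toAddSubgroup
    (Submodule.span ℤ (Set.range b')).toAddSubgroup h b b' (Submodule.span_int_eq_addSubgroupClosure _)
    (Submodule.span_int_eq_addSubgroupClosure _)
  refine ⟨fun h0 => ?_, by rw [e, sq_abs, gram_change B b b']⟩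
  rw [h0, Nat.cast_zero, eq_comm, abs_eq_zero] at e
  exact (b'.isUnit_det b).ne_zero e

end Cfsg.Agent.F23
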