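import Cfsg.Agent.F23.Tau

/-! Isometries of the orthogonal complement of a vector extend up to sign. -/

set_option autoImplicit false
namespace Cfsg.Agent.F23

/-- The data of the extension lemma. -/
structure ExtD {Λ K : Type*} [AddCommGroup Λ] [AddCommGroup K] (b : Λ →ₗ[ℤ] Λ →ₗ[ℤ] ℤ) (v s : Λ) (m : ℤ)
    (ι : K →+ Λ) : Prop where
  symm : ∀ x y, b x y = b y x
  nd : ∀ x, (∀ y, b x y = 0) → x = 0
  uni : ∀ f : Λ →+ ℤ, ∃ t, ∀ x, b t x = f x
  hm : m = 4 ∨ m = 6
  vv : b v v = m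
  sv : b s v = 1
  inj : Function.Injective ι
  rng : ∀ x, x ∈ ι.range ↔ b x v = 0

section
variable {Λ K : Type*} [AddCommGroup Λ] [AddCommGroup K] {b : Λ →ₗ[ℤ] Λ →ₗ[ℤ] ℤ} {v s : Λ} {m : ℤ}
  {ι : K →+ Λ}

theorem ExtD.m_ne (D : ExtD b v s m ι) : m ≠ 0 := by rcases D.hm with e | e <;> omega

theorem ExtD.cancel (D : ExtD b v s m ι) {x y : Λ} (h : m • x = m • y) : x = y := by
  refine sub_eq_zero.mp (D.nd _ fun z => ?_)
  have := congrArg (fun w => b w z) h
  simp only [map_zsmul, LinearMap.smul_apply, smul_eq_mul] at this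
  rw [map_sub, LinearMap.sub_apply, mul_left_cancel₀ D.m_ne this, sub_self]

theorem ExtD.perp (D : ExtD b v s m ι) (k : K) : b (ι k) v = 0 := (D.rng _).mp ⟨k, rfl⟩

theorem ExtD.dec (D : ExtD b v s m ι) (x : Λ) : ∃ k : K, m • x = ι k + b x v • v := by
  obtain ⟨k, hk⟩ := (D.rng (m • x - b x v • v)).mpr (by
    simp only [map_sub, map_zsmul, LinearMap.sub_apply, LinearMap.smul_apply, smul_eq_mul, D.vv]; ring)
  exact ⟨k, by rw [hk, sub_add_cancel]⟩

theorem ExtD.uniq (D : ExtD b v s m ι) {t : K → K} {T T' : Λ →ₗ[ℤ] Λ} {ε ε' : ℤ} (he : ε = 1 ∨ ε = -1)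
    (he' : ε' = 1 ∨ ε' = -1) (h1 : T v = v) (h1' : T' v = v) (h2 : ∀ k, T (ι k) = ε • ι (t k))
    (h2' : ∀ k, T' (ι k) = ε' • ι (t k)) : ε = ε' ∧ T = T' := by
  have h3 : ε = ε' := by
    by_contra hne
    obtain rfl : ε' = -ε := by omega
    obtain ⟨k, hk⟩ := D.dec s
    have a1 := congrArg T hk
    have a2 := congrArg T' hk
    rw [map_zsmul, map_add, map_zsmul, D.sv] at a1 a2
    rw [h1, h2] at a1
    rw [h1', h2'] at a2
    have a3 : m • (T s + T' s) = (2 : ℤ) • v := by rw [smul_add, a1, a2]; module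
    have a4 := congrArg (b s) a3
    rw [map_zsmul, map_zsmul, D.sv, smul_eq_mul, smul_eq_mul] at a4
    rcases D.hm with rfl | rfl <;> omega
  subst h3
  refine ⟨rfl, LinearMap.ext fun x => D.cancel ?_⟩
  obtain ⟨k, hk⟩ := D.dec x
  rw [← map_zsmul, ← map_zsmul, hk, map_add, map_add, map_zsmul, map_zsmul, h1, h1', h2, h2']

theorem ExtD.one (D : ExtD b v s m ι) (t t' : Module.End ℤ K) (htt : ∀ k, t (t' k) = k)
    (hi : ∀ k k', b (ι (t k)) (ι (t k')) = b (ι k) (ι k')) :
    ∃ ε : ℤ, (ε = 1 ∨ ε = -1) ∧ ∃ T : Λ →ₗ[ℤ] Λ, T v = v ∧ (∀ x y, b (T x) (T y) = b x y) ∧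
      ∀ k, T (ι k) = ε • ι (t k) := by
  have h0 : ∀ x, ∃ k, ι k = x - b x v • s := fun x => (D.rng _).mpr (by
    simp only [map_sub, map_zsmul, LinearMap.sub_apply, LinearMap.smul_apply, smul_eq_mul, D.sv]; ring)
  choose π0 hπ0 using h0
  let π : Λ →+ K := AddMonoidHom.mk' π0 (fun x y => D.inj (by
    rw [map_add, hπ0, hπ0, hπ0, map_add, LinearMap.add_apply, add_smul]; abel))
  have hπ : ∀ x, ι (π x) = x - b x v • s := hπ0
  have hπι : ∀ k, π (ι k) = k := fun k => D.inj (by rw [hπ, D.perp, zero_smul, sub_zero])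
  obtain ⟨w, hw⟩ := D.uni ((b s).toAddMonoidHom.comp (ι.comp (t'.toAddMonoidHom.comp π)))
  have hw' : ∀ k, b w (ι k) = b s (ι (t' k)) := fun k => by
    rw [hw]
    show b s (ι (t' (π (ι k)))) = _
    rw [hπι]
  have hv : ι (π v) = v - m • s := by rw [hπ, D.vv]
  have h1 : m • w + ι (t (π v)) - b w v • v = 0 := by
    have a1 : ∀ k, b (m • w + ι (t (π v)) - b w v • v) (ι k) = 0 := fun k => by
      have a2 := hi (π v) (t' k)
      rw [htt, hv] at a2
      simp only [map_sub, map_add, map_zsmul, LinearMap.sub_apply, LinearMap.add_apply, LinearMap.smul_apply,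
        smul_eq_mul, D.symm v (ι _), D.perp, hw'] at a2 ⊢
      rw [a2]; ring
    have a3 : b (m • w + ι (t (π v)) - b w v • v) v = 0 := by
      simp only [map_sub, map_add, map_zsmul, LinearMap.sub_apply, LinearMap.add_apply, LinearMap.smul_apply,
        smul_eq_mul, D.perp, D.vv]
      ring
    refine D.nd _ fun x => ?_
    obtain ⟨k, hk⟩ := D.dec x
    have a4 := congrArg (b (m • w + ι (t (π v)) - b w v • v)) hk
    rw [map_zsmul, map_add, map_zsmul, a1, a3, smul_zero, add_zero, smul_eq_mul] at a4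
    exact (mul_eq_zero.mp a4).resolve_left D.m_ne
  have h2 : ι (t (π v)) = b w v • v - m • w := by
    rw [eq_sub_iff_add_eq, ← sub_eq_zero, add_comm]; exact h1
  have h3 := hi (π v) (π v)
  rw [h2, hv] at h3
  simp only [map_sub, map_zsmul, LinearMap.sub_apply, LinearMap.smul_apply, smul_eq_mul, D.symm v w, D.symm v s,
    D.vv, D.sv] at h3
  have h4 : m * (b w w - b s s) = b w v * b w v - 1 := by
    apply mul_left_cancel₀ D.m_ne
    linear_combination h3
  obtain ⟨ε, i, he, hj⟩ : ∃ ε i : ℤ, (ε = 1 ∨ ε = -1) ∧ b w v = ε + m * i := by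
    generalize b w v = j at h4
    generalize b w w - b s s = c at h4
    rcases D.hm with rfl | rfl
    · obtain ⟨i, r, hr, h5, h6⟩ : ∃ i r : ℤ, j = r + 4 * i ∧ -1 ≤ r ∧ r ≤ 2 :=
        ⟨(j + 1) / 4, (j + 1) % 4 - 1, by omega, by omega, by omega⟩
      refine ⟨r, i, ?_, hr⟩
      have : 4 * (c - 2 * r * i - 4 * i * i) = r * r - 1 := by rw [hr] at h4; linear_combination h4
      interval_cases r <;> omega
    · obtain ⟨i, r, hr, h5, h6⟩ : ∃ i r : ℤ, j = r + 6 * i ∧ -1 ≤ r ∧ r ≤ 4 :=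
        ⟨(j + 1) / 6, (j + 1) % 6 - 1, by omega, by omega, by omega⟩
      refine ⟨r, i, ?_, hr⟩
      have : 6 * (c - 2 * r * i - 6 * i * i) = r * r - 1 := by rw [hr] at h4; linear_combination h4
      interval_cases r <;> omega
  have hee : ε * ε = 1 := by rcases he with rfl | rfl <;> rfl
  let T : Λ →ₗ[ℤ] Λ := ε • (ι.comp (t.toAddMonoidHom.comp π)).toIntLinearMap +
    (b.flip v).smulRight (ε • (w - i • v))
  have hT : ∀ x, T x = ε • ι (t (π x)) + b x v • ε • (w - i • v) := fun _ => rfl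
  have hTv : T v = v := by
    rw [hT, h2, hj, D.vv]
    calc _ = (ε * ε) • v := by module
      _ = v := by rw [hee, one_smul]
  have hTk : ∀ k, T (ι k) = ε • ι (t k) := fun k => by rw [hT, hπι, D.perp, zero_smul, add_zero]
  refine ⟨ε, he, T, hTv, fun x y => ?_, hTk⟩
  obtain ⟨k, hk⟩ := D.dec x
  obtain ⟨k', hk'⟩ := D.dec y
  have a1 : b (T (m • x)) (T (m • y)) = b (m • x) (m • y) := by
    rw [hk, hk']
    simp only [map_add, map_zsmul, hTv, hTk, LinearMap.add_apply, LinearMap.smul_apply, smul_eq_mul,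
      D.symm v (ι _), D.perp, hi]
    linear_combination (b (ι k) (ι k')) * hee
  simp only [map_zsmul, LinearMap.smul_apply, smul_eq_mul] at a1
  exact mul_left_cancel₀ D.m_ne (mul_left_cancel₀ D.m_ne a1)

end

theorem ext_b : ∃ b : leechLattice →ₗ[ℤ] leechLattice →ₗ[ℤ] ℤ,
    ∀ x y : leechLattice, 8 * b x y = dotInt (x : GolayPt → ℤ) y := by
  have h : ∀ x y : leechLattice, 8 * (dotInt (x : GolayPt → ℤ) y / 8) = dotInt (x : GolayPt → ℤ) y :=
    fun x y => Int.mul_ediv_cancel' (leech_int x.2 y.2)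
  have h8 : (8 : ℤ) ≠ 0 := by norm_num
  refine ⟨LinearMap.mk₂ ℤ (fun x y => dotInt (x : GolayPt → ℤ) y / 8) ?_ ?_ ?_ ?_, h⟩
  · intro x y z
    apply mul_left_cancel₀ h8
    rw [mul_add, h, h, h, AddSubgroup.coe_add, tau_dot_add]
  · intro c x y
    apply mul_left_cancel₀ h8
    rw [smul_eq_mul, mul_left_comm, h, h]
    simp only [dotInt, AddSubgroupClass.coe_zsmul, Pi.smul_apply, smul_eq_mul, Finset.mul_sum, mul_assoc]
  · intro x y z
    apply mul_left_cancel₀ h8
    rw [mul_add, h, h, h, AddSubgroup.coe_add, tau_dot_comm, tau_dot_add, tau_dot_comm, tau_dot_comm (z : GolayPt → ℤ)]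
  · intro c x y
    apply mul_left_cancel₀ h8
    rw [smul_eq_mul, mul_left_comm, h, h]
    simp only [dotInt, AddSubgroupClass.coe_zsmul, Pi.smul_apply, smul_eq_mul, Finset.mul_sum, mul_left_comm]

theorem ext_sq (x : GolayPt → ℤ) : sqNorm x = dotInt x x := by simp only [sqNorm, dotInt, pow_two]

section Ext
variable {G K : Type*} [Group G] [AddCommGroup K]

theorem ext_gen (huni : ∀ φ : leechLattice →+ ℤ, ∃ t : leechLattice, ∀ x : leechLattice,
      dotInt (t : GolayPt → ℤ) x = 8 * φ x) (v s : leechLattice) (m : ℤ) (hm : m = 4 ∨ m = 6)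
    (hv : dotInt (v : GolayPt → ℤ) v = 8 * m) (hs : dotInt (s : GolayPt → ℤ) v = 8)
    (ι : K →+ leechLattice) (hι : Function.Injective ι)
    (hr : ∀ x : leechLattice, x ∈ ι.range ↔ dotInt (x : GolayPt → ℤ) v = 0)
    (act : G →* Module.End ℤ K) (hact : Function.Injective act)
    (hn : ∀ k x, sqNorm (ι (act k x) : GolayPt → ℤ) = sqNorm (ι x : GolayPt → ℤ)) :
    ∃ f : G →* Multiplicative (ZMod 2) × ↥(Co0 ⊓ MulAction.stabilizer (Equiv.Perm leechLattice) v),
      Function.Injective f := by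
  obtain ⟨b, hb⟩ := ext_b
  have D : ExtD b v s m ι := by
    refine ⟨fun x y => ?_, fun x hx => ?_, fun f => ?_, hm, ?_, ?_, hι, fun x => ?_⟩
    · have := hb x y; have := hb y x; have := tau_dot_comm (x : GolayPt → ℤ) y; omega
    · have h1 := hb x x
      rw [hx, mul_zero, dotInt, eq_comm, Finset.sum_eq_zero_iff_of_nonneg (fun _ _ => mul_self_nonneg _)] at h1
      exact Subtype.ext (funext fun p => mul_self_eq_zero.mp (h1 p (Finset.mem_univ p)))
    · obtain ⟨t, ht⟩ := huni f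
      exact ⟨t, fun x => by have := hb t x; have := ht x; omega⟩
    · have := hb v v; omega
    · have := hb s v; omega
    · rw [hr]; have := hb x v; omega
  have hi : ∀ (g : G) k k', b (ι (act g k)) (ι (act g k')) = b (ι k) (ι k') := fun g k k' => by
    have h1 := hn g (k + k')
    rw [map_add, map_add, map_add, AddSubgroup.coe_add, AddSubgroup.coe_add, Leech.sqNorm_add, Leech.sqNorm_add,
      hn, hn, ← hb, ← hb] at h1
    omega
  have hm' : ∀ (g g' : G) k, act (g * g') k = act g (act g' k) := fun g g' k => by rw [map_mul]; rfl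
  have h1' : ∀ k, act 1 k = k := fun k => by rw [map_one]; rfl
  choose ε he T hT1 hT2 hT3 using fun g : G =>
    D.one (act g) (act g⁻¹) (fun k => by rw [← hm', mul_inv_cancel, h1']) (hi g)
  have hmul : ∀ g g', ε (g * g') = ε g * ε g' ∧ T (g * g') = (T g).comp (T g') := fun g g' =>
    D.uniq (t := act (g * g')) (he _) (by rcases he g with e | e <;> rcases he g' with e' | e' <;> simp [e, e'])
      (hT1 _) (by rw [LinearMap.comp_apply, hT1, hT1]) (hT3 _) (fun k => by
        rw [LinearMap.comp_apply, hT3, map_zsmul, hT3, hm', smul_smul, mul_comm])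
  have hone : T 1 = LinearMap.id :=
    (D.uniq (t := act 1) (ε' := 1) (he _) (Or.inl rfl) (hT1 _) rfl (hT3 _) (fun k => by rw [h1', one_smul]; rfl)).2
  have hinv : ∀ g x, T g⁻¹ (T g x) = x := fun g x => by
    rw [← LinearMap.comp_apply, ← (hmul _ _).2, inv_mul_cancel, hone]; rfl
  let E : G → Equiv.Perm leechLattice := fun g =>
    ⟨T g, T g⁻¹, hinv g, fun x => by simpa using hinv g⁻¹ x⟩
  have hE : ∀ g, E g ∈ Co0 ⊓ MulAction.stabilizer (Equiv.Perm leechLattice) v := fun g =>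
    ⟨⟨fun x y => map_add (T g) x y, fun x => by
      show sqNorm (T g x : GolayPt → ℤ) = _
      rw [ext_sq, ext_sq, ← hb, ← hb, hT2]⟩, hT1 g⟩
  refine ⟨MonoidHom.mk' (fun g => (Multiplicative.ofAdd (if ε g = 1 then 0 else 1), ⟨E g, hE g⟩)) fun g g' => ?_,
    (injective_iff_map_eq_one _).mpr fun g hg => hact ?_⟩
  · refine Prod.ext ?_ (Subtype.ext (Equiv.ext fun x => ?_))
    · show Multiplicative.ofAdd (if ε (g * g') = 1 then (0 : ZMod 2) else 1) =
        Multiplicative.ofAdd (if ε g = 1 then (0 : ZMod 2) else 1) *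
          Multiplicative.ofAdd (if ε g' = 1 then (0 : ZMod 2) else 1)
      rw [(hmul g g').1]
      rcases he g with e | e <;> rcases he g' with e' | e' <;> rw [e, e'] <;> decide
    · show T (g * g') x = T g (T g' x)
      rw [(hmul g g').2]; rfl
  · have a1 : Multiplicative.ofAdd (if ε g = 1 then (0 : ZMod 2) else 1) = 1 := congrArg Prod.fst hg
    have a2 : ε g = 1 := by
      by_contra e
      rw [if_neg e] at a1
      exact absurd a1 (by decide)
    rw [map_one]
    refine LinearMap.ext fun k => hι ?_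
    have a3 : T g (ι k) = ι k := congrArg (fun z : Multiplicative (ZMod 2) ×
      ↥(Co0 ⊓ MulAction.stabilizer (Equiv.Perm leechLattice) v) => z.2.1 (ι k)) hg
    rw [hT3, a2, one_smul] at a3
    exact a3

theorem extA (huni : ∀ φ : leechLattice →+ ℤ, ∃ t : leechLattice, ∀ x : leechLattice,
      dotInt (t : GolayPt → ℤ) x = 8 * φ x)
    (ι : K →+ leechLattice) (hι : Function.Injective ι)
    (hr : ∀ x : leechLattice, x ∈ ι.range ↔ dotInt (x : GolayPt → ℤ) vecA = 0)
    (act : G →* Module.End ℤ K) (hact : Function.Injective act)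
    (hn : ∀ k x, sqNorm (ι (act k x) : GolayPt → ℤ) = sqNorm (ι x : GolayPt → ℤ)) :
    ∃ f : G →* Multiplicative (ZMod 2) × Cfsg.Spor.Co2, Function.Injective f := by
  obtain ⟨τ, hτ, hA⟩ := exists_tau
  have hU := hA ⟨vecA, vecA_mem⟩ rfl
  let τ' : leechLattice →+ leechLattice := AddMonoidHom.mk' τ hτ.1
  refine ext_gen huni Cfsg.Spor.leechU (τ ⟨vecB, vecB_mem⟩) 4 (Or.inl rfl) (by decide +kernel)
    (by rw [← hU, Leech.dot_map hτ]; decide +kernel) (τ'.comp ι) (τ.injective.comp hι) (fun x => ?_) act hact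
    (fun k x => ?_)
  · obtain ⟨y, rfl⟩ := τ.surjective x
    rw [← hU, Leech.dot_map hτ, ← hr]
    exact ⟨fun ⟨k, hk⟩ => ⟨k, τ.injective hk⟩, fun ⟨k, hk⟩ => ⟨k, congrArg τ hk⟩⟩
  · show sqNorm (τ (ι _) : GolayPt → ℤ) = sqNorm (τ (ι _) : GolayPt → ℤ)
    rw [hτ.2, hτ.2, hn]

theorem extB (huni : ∀ φ : leechLattice →+ ℤ, ∃ t : leechLattice, ∀ x : leechLattice,
      dotInt (t : GolayPt → ℤ) x = 8 * φ x)
    (ι : K →+ leechLattice) (hι : Function.Injective ι)
    (hr : ∀ x : leechLattice, x ∈ ι.range ↔ dotInt (x : GolayPt → ℤ) vecB = 0)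
    (act : G →* Module.End ℤ K) (hact : Function.Injective act)
    (hn : ∀ k x, sqNorm (ι (act k x) : GolayPt → ℤ) = sqNorm (ι x : GolayPt → ℤ)) :
    ∃ f : G →* Multiplicative (ZMod 2) × Cfsg.Spor.Co3, Function.Injective f := by
  have hV : (Cfsg.Spor.leechV : GolayPt → ℤ) = -vecB := funext (by decide +kernel)
  refine ext_gen huni Cfsg.Spor.leechV (-⟨vecA, vecA_mem⟩) 6 (Or.inr rfl) (by decide +kernel)
    (by decide +kernel) ι hι (fun x => ?_) act hact hn
  rw [hr, hV, tau_dot_comm _ (-vecB), tau_dot_neg, neg_eq_zero, tau_dot_comm]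

end Ext

end Cfsg.Agent.F23
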