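import Cfsg.Agent.F23.Theta

/-! Gluing two lattices of discriminant 23. -/

set_option autoImplicit false
open Module
namespace Cfsg.Agent.F23

theorem gl_dvd_iff (n : ℤ) : ((n : ℤ) : ZMod 23) = 0 ↔ (23 : ℤ) ∣ n := by
  simpa using ZMod.intCast_zmod_eq_zero_iff_dvd n 23

theorem gl_div {Λ : Type*} [AddCommGroup Λ] (s : Λ →ₗ[ℤ] Λ →ₗ[ℤ] ℤ) (h : ∀ x y, (23 : ℤ) ∣ s x y) :
    ∃ b : Λ →ₗ[ℤ] Λ →ₗ[ℤ] ℤ, ∀ x y, 23 * b x y = s x y := by
  have h1 : ∀ x y, 23 * (s x y / 23) = s x y := fun x y => Int.mul_ediv_cancel' (h x y)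
  refine ⟨LinearMap.mk₂ ℤ (fun x y => s x y / 23) ?_ ?_ ?_ ?_, h1⟩
  · intro x x' y
    apply mul_left_cancel₀ (a := (23 : ℤ)) (by norm_num)
    rw [mul_add, h1, h1, h1, map_add, LinearMap.add_apply]
  · intro c x y
    apply mul_left_cancel₀ (a := (23 : ℤ)) (by norm_num)
    rw [smul_eq_mul, mul_left_comm, h1, h1, map_smul, LinearMap.smul_apply, smul_eq_mul]
  · intro x y y'
    apply mul_left_cancel₀ (a := (23 : ℤ)) (by norm_num)
    rw [mul_add, h1, h1, h1, map_add]
  · intro c x y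
    apply mul_left_cancel₀ (a := (23 : ℤ)) (by norm_num)
    rw [smul_eq_mul, mul_left_comm, h1, h1, map_smul, smul_eq_mul]

theorem gl_chi23 {P : Type*} [AddCommGroup P] (χ : P →+ ZMod 23) (y : P) :
    χ ((23 : ℤ) • y) = 0 := by
  rw [map_zsmul, zsmul_eq_mul]
  have : ((23 : ℤ) : ZMod 23) = 0 := by decide
  rw [this, zero_mul]

theorem D23.nonneg {P : Type*} [AddCommGroup P] {β : P →ₗ[ℤ] P →ₗ[ℤ] ℤ} {χ : P →+ ZMod 23}
    {c : ZMod 23} (h : D23 β χ c) (x : P) : 0 ≤ β x x := by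
  by_cases hx : x = 0
  · subst hx; simp
  · exact (h.pos x hx).le

section Glue
variable {P P' : Type*} [AddCommGroup P] [Module.Free ℤ P] [Module.Finite ℤ P]
  [AddCommGroup P'] [Module.Free ℤ P'] [Module.Finite ℤ P']
  {β : P →ₗ[ℤ] P →ₗ[ℤ] ℤ} {χ : P →+ ZMod 23} {c : ZMod 23} {β' : P' →ₗ[ℤ] P' →ₗ[ℤ] ℤ} {χ' : P' →+ ZMod 23}

theorem gl_finrank (χ : P →+ ZMod 23) (χ' : P' →+ ZMod 23) :
    finrank ℤ (gl χ χ') = finrank ℤ P + finrank ℤ P' := by
  rw [← Module.finrank_prod]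
  refine le_antisymm (Submodule.finrank_le _) ?_
  let m : (P × P') →ₗ[ℤ] gl χ χ' :=
    LinearMap.codRestrict _ (LinearMap.lsmul ℤ (P × P') 23) fun p => by
      rw [mem_gl]
      simp only [LinearMap.lsmul_apply, Prod.smul_fst, Prod.smul_snd, gl_chi23]
  refine LinearMap.finrank_le_finrank_of_injective (f := m) fun p q hpq => ?_
  have : (23 : ℤ) • p = (23 : ℤ) • q := congrArg Subtype.val hpq
  exact smul_right_injective _ (by norm_num) this

theorem D23.glue (h : D23 β χ c) (h' : D23 β' χ' (-c)) :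
    finrank ℤ (gl χ χ') = finrank ℤ P + finrank ℤ P' ∧
    ∃ b : gl χ χ' →ₗ[ℤ] gl χ χ' →ₗ[ℤ] ℤ, EU b ∧
      ∀ x y : gl χ χ', 23 * b x y = β x.1.1 y.1.1 + β' x.1.2 y.1.2 := by
  refine ⟨gl_finrank χ χ', ?_⟩
  let p1 : gl χ χ' →ₗ[ℤ] P := (LinearMap.fst ℤ P P').comp (gl χ χ').subtype
  let p2 : gl χ χ' →ₗ[ℤ] P' := (LinearMap.snd ℤ P P').comp (gl χ χ').subtype
  obtain ⟨b, hb⟩ := gl_div (β.compl₁₂ p1 p1 + β'.compl₁₂ p2 p2) (by
    intro x y
    rw [← gl_dvd_iff]
    change ((β x.1.1 y.1.1 + β' x.1.2 y.1.2 : ℤ) : ZMod 23) = 0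
    rw [Int.cast_add, h.cong, h'.cong, mem_gl.mp x.2, mem_gl.mp y.2]
    ring)
  have hb' : ∀ x y : gl χ χ', 23 * b x y = β x.1.1 y.1.1 + β' x.1.2 y.1.2 := hb
  refine ⟨b, ⟨fun x y => ?_, fun x hx => ?_, fun x => ?_, fun f => ?_⟩, hb'⟩
  · have h1 := hb' x y
    have h2 := hb' y x
    rw [h.symm, h'.symm] at h1
    omega
  · have h1 := hb' x x
    have h2 := h.nonneg x.1.1
    have h3 := h'.nonneg x.1.2
    by_cases h4 : x.1.1 = 0
    · have h5 : x.1.2 ≠ 0 := fun h5 => hx (Subtype.ext (Prod.ext h4 h5))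
      have := h'.pos _ h5
      omega
    · have := h.pos _ h4
      omega
  · have h1 := hb' x x
    obtain ⟨k, hk⟩ := h.even x.1.1
    obtain ⟨l, hl⟩ := h'.even x.1.2
    exact ⟨(b x x) / 2, by omega⟩
  · let m1 : P →ₗ[ℤ] gl χ χ' :=
      LinearMap.codRestrict _ ((LinearMap.inl ℤ P P').comp (LinearMap.lsmul ℤ P 23)) fun p => by
        rw [mem_gl]
        simp only [LinearMap.comp_apply, LinearMap.lsmul_apply, LinearMap.inl_apply, gl_chi23,
          map_zero]
    let m2 : P' →ₗ[ℤ] gl χ χ' :=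
      LinearMap.codRestrict _ ((LinearMap.inr ℤ P P').comp (LinearMap.lsmul ℤ P' 23)) fun p => by
        rw [mem_gl]
        simp only [LinearMap.comp_apply, LinearMap.lsmul_apply, LinearMap.inr_apply, gl_chi23,
          map_zero]
    obtain ⟨y0, hy0⟩ := h.unim (f.comp m1) (fun x hx => by
      have : m1 x = (23 : ℤ) • (⟨(x, 0), by rw [mem_gl, hx, map_zero]⟩ : gl χ χ') := by
        apply Subtype.ext
        simp [m1]
      rw [LinearMap.comp_apply, this, map_smul]
      exact Dvd.intro _ rfl)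
    obtain ⟨n0, hn0⟩ := h'.unim (f.comp m2) (fun x hx => by
      have : m2 x = (23 : ℤ) • (⟨(0, x), by rw [mem_gl, hx, map_zero]⟩ : gl χ χ') := by
        apply Subtype.ext
        simp [m2]
      rw [LinearMap.comp_apply, this, map_smul]
      exact Dvd.intro _ rfl)
    have key : ∀ x : gl χ χ', β y0 x.1.1 + β' n0 x.1.2 = 23 * f x := by
      intro x
      rw [hy0, hn0, LinearMap.comp_apply, LinearMap.comp_apply, ← map_add]
      have : m1 x.1.1 + m2 x.1.2 = (23 : ℤ) • x := by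
        apply Subtype.ext
        apply Prod.ext <;> simp [m1, m2]
      rw [this, map_smul, smul_eq_mul]
    obtain ⟨y1, hy1⟩ := h.surj
    obtain ⟨n1, hn1⟩ := h'.surj
    have hmem : (y0, n0) ∈ gl χ χ' := by
      have h1 := key ⟨(y1, n1), by rw [mem_gl, hy1, hn1]⟩
      have h2 : ((β y0 y1 + β' n0 n1 : ℤ) : ZMod 23) = 0 := by
        rw [gl_dvd_iff]; exact Dvd.intro _ h1.symm
      rw [Int.cast_add, h.cong, h'.cong, hy1, hn1] at h2
      rw [mem_gl]
      haveI : Fact (Nat.Prime 23) := ⟨by norm_num⟩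
      apply mul_left_cancel₀ h.cne
      linear_combination h2
    refine ⟨⟨(y0, n0), hmem⟩, fun x => ?_⟩
    have h1 := hb' ⟨(y0, n0), hmem⟩ x
    have h2 := key x
    simp only at h1
    omega

theorem d23N : D23 βN χN 6 where
  symm := fun x y => by simp only [βN_apply]; ring
  pos := fun x hx => by
    rw [βN_apply]
    have : x.1 ≠ 0 ∨ x.2 ≠ 0 := by
      by_contra h
      push Not at h
      exact hx (Prod.ext h.1 h.2)
    rcases this with h | h
    · nlinarith [sq_nonneg (x.1 - x.2), sq_nonneg x.2, sq_pos_of_ne_zero h]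
    · nlinarith [sq_nonneg (x.1 - x.2), sq_nonneg x.1, sq_pos_of_ne_zero h]
  even := fun x => ⟨3 * x.1 * x.1 - x.1 * x.2 + 2 * x.2 * x.2, by rw [βN_apply]; ring⟩
  cne := by decide
  surj := ⟨(1, 0), by decide⟩
  cong := fun x y => by
    rw [βN_apply, χN_apply, χN_apply]
    have : (23 : ZMod 23) = 0 := by decide
    push_cast
    linear_combination (x.1 * y.2 + x.2 * y.1 - 4 * x.2 * y.2 : ZMod 23) * this
  unim := fun f hf => by
    obtain ⟨a, ha⟩ := hf (4, 1) (by decide)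
    obtain ⟨b, hb⟩ := hf (1, 6) (by decide)
    have hx : ∀ x : ℤ × ℤ, f x = x.1 * f (1, 0) + x.2 * f (0, 1) := by
      intro x
      have : x = x.1 • ((1, 0) : ℤ × ℤ) + x.2 • ((0, 1) : ℤ × ℤ) := by simp
      conv_lhs => rw [this]
      rw [map_add, map_smul, map_smul, smul_eq_mul, smul_eq_mul]
    rw [hx] at ha hb
    simp only at ha hb
    refine ⟨(a, b), fun x => ?_⟩
    rw [βN_apply, hx x]
    have h1 : f (1, 0) = 6 * a - b := by omega
    have h2 : f (0, 1) = 4 * b - a := by omega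
    rw [h1, h2]
    ring

omit [Module.Free ℤ P] [Module.Finite ℤ P] in
theorem D23.scale (h : D23 β χ c) {s c' : ZMod 23} (hs : s ≠ 0) (hc : c = c' * s ^ 2) :
    D23 β ((AddMonoidHom.mulLeft s).comp χ) c' := by
  haveI : Fact (Nat.Prime 23) := ⟨by norm_num⟩
  refine ⟨h.symm, h.pos, h.even, ?_, ?_, ?_, ?_⟩
  · rintro rfl
    exact h.cne (by rw [hc, zero_mul])
  · obtain ⟨y, hy⟩ := h.surj
    refine ⟨(s⁻¹).val • y, ?_⟩
    simp only [AddMonoidHom.coe_comp, AddMonoidHom.coe_mulLeft, Function.comp_apply, map_nsmul, hy,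
      nsmul_eq_mul, ZMod.natCast_val, ZMod.cast_id', id_eq, mul_one]
    exact inv_mul_cancel₀ hs
  · intro x y
    rw [h.cong, hc]
    simp only [AddMonoidHom.coe_comp, AddMonoidHom.coe_mulLeft, Function.comp_apply]
    ring
  · intro f hf
    refine h.unim f fun x hx => hf x ?_
    simp only [AddMonoidHom.coe_comp, AddMonoidHom.coe_mulLeft, Function.comp_apply, hx, mul_zero]

/-- 23 times the form on the dual of the root lattice of type `A₂₂`. -/
def glβA : (Fin 22 → ℤ) →ₗ[ℤ] (Fin 22 → ℤ) →ₗ[ℤ] ℤ :=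
  LinearMap.mk₂ ℤ (fun x y => 23 * ∑ i, x i * y i - (∑ i, x i) * ∑ i, y i)
    (fun _ _ _ => by simp only [Pi.add_apply, add_mul, Finset.sum_add_distrib]; ring)
    (fun c x y => by
      simp only [Pi.smul_apply, smul_eq_mul, mul_assoc, ← Finset.mul_sum]; ring)
    (fun _ _ _ => by simp only [Pi.add_apply, mul_add, Finset.sum_add_distrib]; ring)
    (fun c x y => by
      have : ∀ i, x i * (c * y i) = c * (x i * y i) := fun i => by ring
      simp only [Pi.smul_apply, smul_eq_mul, this, ← Finset.mul_sum]; ring)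

theorem glβA_apply (x y : Fin 22 → ℤ) :
    glβA x y = 23 * ∑ i, x i * y i - (∑ i, x i) * ∑ i, y i := rfl

/-- The class map of that dual. -/
def glχA : (Fin 22 → ℤ) →+ ZMod 23 where
  toFun x := ((∑ i, x i : ℤ) : ZMod 23)
  map_zero' := by simp
  map_add' x y := by simp only [Pi.add_apply, Finset.sum_add_distrib, Int.cast_add]

theorem glχA_apply (x : Fin 22 → ℤ) : glχA x = ((∑ i, x i : ℤ) : ZMod 23) := rfl

theorem d23A : D23 glβA glχA (-1) where
  symm := fun x y => by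
    simp only [glβA_apply, mul_comm (x _), mul_comm (∑ i, x i)]
  pos := fun x hx => by
    rw [glβA_apply]
    have h1 := sq_sum_le_card_mul_sum_sq (s := (Finset.univ : Finset (Fin 22))) (f := x)
    simp only [Finset.card_univ, Fintype.card_fin, Nat.cast_ofNat] at h1
    have h2 : 0 < ∑ i, x i ^ 2 := by
      obtain ⟨i, hi⟩ := Function.ne_iff.mp hx
      exact Finset.sum_pos' (fun i _ => sq_nonneg _) ⟨i, Finset.mem_univ _, sq_pos_of_ne_zero hi⟩
    simp only [← sq]
    omega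
  even := fun x => by
    rw [glβA_apply]
    have h1 : Even (∑ i, x i * x i - ∑ i, x i) := by
      rw [← Finset.sum_sub_distrib]
      refine Finset.even_sum _ fun i _ => ?_
      have := Int.even_mul_pred_self (x i)
      rwa [mul_sub, mul_one] at this
    have h2 := Int.even_mul_pred_self (∑ i, x i)
    rw [mul_sub, mul_one] at h2
    obtain ⟨a, ha⟩ := h1
    obtain ⟨b, hb⟩ := h2
    exact ⟨11 * (∑ i, x i * x i) + a - b, by omega⟩
  cne := by decide
  surj := ⟨Pi.single 0 1, by rw [glχA_apply]; simp⟩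
  cong := fun x y => by
    rw [glβA_apply, glχA_apply, glχA_apply]
    have : (23 : ZMod 23) = 0 := by decide
    rw [Int.cast_sub, Int.cast_mul, Int.cast_mul, Int.cast_ofNat, this]
    ring
  unim := fun f hf => by
    have h1 : ∀ i : Fin 22, (23 : ℤ) ∣ f (Pi.single i 1 + 1) := fun i => hf _ (by
      rw [glχA_apply]
      simp only [Pi.add_apply, Finset.sum_add_distrib, Finset.sum_pi_single', Finset.mem_univ,
        if_true, Pi.one_apply, Finset.sum_const, Finset.card_univ, Fintype.card_fin]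
      decide)
    choose y hy using h1
    have hx : ∀ x : Fin 22 → ℤ, f x = ∑ i, x i * f (Pi.single i 1) := by
      intro x
      conv_lhs => rw [← Finset.univ_sum_single x]
      rw [map_sum]
      refine Finset.sum_congr rfl fun i _ => ?_
      rw [← smul_eq_mul, ← map_smul, ← Pi.single_smul, smul_eq_mul, mul_one]
    have h2 : f 1 = ∑ i, y i := by
      have h3 : ∑ i : Fin 22, f (Pi.single i 1 + 1) = 23 * ∑ i, y i := by
        rw [Finset.mul_sum]
        exact Finset.sum_congr rfl fun i _ => hy i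
      simp only [map_add, Finset.sum_add_distrib, Finset.sum_const, Finset.card_univ,
        Fintype.card_fin, nsmul_eq_mul, Nat.cast_ofNat] at h3
      have h4 := hx 1
      simp only [Pi.one_apply, one_mul] at h4
      omega
    refine ⟨y, fun x => ?_⟩
    rw [glβA_apply, hx x, Finset.mul_sum, Finset.mul_sum, ← Finset.sum_sub_distrib]
    refine Finset.sum_congr rfl fun i _ => ?_
    have h5 := hy i
    rw [map_add, h2] at h5
    have : f (Pi.single i 1) = 23 * y i - ∑ i, y i := by omega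
    rw [this]; ring

theorem D23.norm (h : D23 β χ c) (h22 : finrank ℤ P = 22) :
    ∃ s : ZMod 23, s ≠ 0 ∧ c = -6 * s ^ 2 := by
  have hd : ∀ c : ZMod 23, c ≠ 0 →
      (∃ s : ZMod 23, s ≠ 0 ∧ c = -6 * s ^ 2) ∨ ∃ s : ZMod 23, s ≠ 0 ∧ c = 1 * s ^ 2 := by decide
  rcases hd c h.cne with h1 | ⟨s, hs, hc⟩
  · exact h1
  obtain ⟨hr, b, hb, -⟩ := (h.scale hs hc).glue d23A
  exact absurd (by rw [hr, h22]; simp) hb.no44

end Glue

end Cfsg.Agent.F23
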