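import Cfsg.Agent.F23.Defs

/-! Short vectors in the classes modulo 2 of a rootless even unimodular lattice of rank 24. -/

set_option autoImplicit false
set_option linter.unusedSectionVars false

open Module

namespace Cfsg.Agent.F23

variable {Λ : Type*} [AddCommGroup Λ] [Module.Free ℤ Λ] [Module.Finite ℤ Λ] {b : Λ →ₗ[ℤ] Λ →ₗ[ℤ] ℤ}

theorem EU.four_le (h : EU b) (hr : ∀ x, b x x ≠ 2) {x : Λ} (hx : x ≠ 0) : 4 ≤ b x x := by
  have h1 := h.pos x hx
  obtain ⟨k, hk⟩ := h.even x
  have h2 := hr x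
  omega

theorem EU.orth (h : EU b) (hr : ∀ x, b x x ≠ 2) {x y z : Λ} (hx : b x x ≤ 8) (hy : b y y ≤ 8)
    (hz : x - y = (2 : ℤ) • z) (h1 : x ≠ y) (h2 : x ≠ -y) : b x x = 8 ∧ b y y = 8 ∧ b x y = 0 := by
  obtain rfl : x = y + (2 : ℤ) • z := by rw [← hz]; abel
  have a1 := h.four_le hr (x := z) fun e => h1 (by rw [e]; simp)
  have a2 := h.four_le hr (x := y + z) fun e => h2 (by rw [eq_neg_of_add_eq_zero_right e]; module)
  have s := h.symm z y
  simp only [map_add, map_smul, LinearMap.add_apply, LinearMap.smul_apply, smul_eq_mul] at hx a2 ⊢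
  omega

theorem fr_half (S : Finset Λ) (hS : ∀ x ∈ S, ∀ y ∈ S, x = y ∨ x = -y ∨ b x y = 0) :
    ∃ R ⊆ S, (∀ x ∈ R, ∀ y ∈ R, x ≠ y → b x y = 0) ∧ S.card ≤ 2 * R.card := by
  classical
  induction S using Finset.strongInduction with
  | H S ih =>
    rcases S.eq_empty_or_nonempty with rfl | ⟨x, hx⟩
    · exact ⟨∅, by simp⟩
    have s1 : (S.erase x).erase (-x) ⊆ S := (Finset.erase_subset _ _).trans (Finset.erase_subset _ _)
    obtain ⟨R, r1, r2, r3⟩ := ih ((S.erase x).erase (-x))
      (lt_of_le_of_lt (Finset.erase_subset _ _) (Finset.erase_ssubset hx)) fun u hu v hv => hS u (s1 hu) v (s1 hv)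
    have k : ∀ y ∈ R, y ≠ x ∧ y ≠ -x := fun y hy => by
      have := r1 hy
      simp only [Finset.mem_erase] at this
      exact ⟨this.2.1, this.1⟩
    refine ⟨insert x R, Finset.insert_subset hx (r1.trans s1), fun u hu v hv huv => ?_, ?_⟩
    · rw [Finset.mem_insert] at hu hv
      rcases hu with rfl | hu <;> rcases hv with rfl | hv
      · exact absurd rfl huv
      · rcases hS u hx v (s1 (r1 hv)) with e | e | e
        · exact absurd e huv
        · exact absurd (by rw [e, neg_neg]) (k v hv).2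
        · exact e
      · rcases hS u (s1 (r1 hu)) v hx with e | e | e
        · exact absurd e huv
        · exact absurd e (k u hu).2
        · exact e
      · exact r2 u hu v hv huv
    · rw [Finset.card_insert_of_notMem fun e => (k x e).1 rfl]
      have := Finset.pred_card_le_card_erase (s := S.erase x) (a := -x)
      have := Finset.pred_card_le_card_erase (s := S) (a := x)
      omega

theorem fr_indep {ι : Type*} (v : ι → Λ) (h1 : ∀ i, b (v i) (v i) ≠ 0) (h2 : ∀ i j, i ≠ j → b (v i) (v j) = 0) :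
    LinearIndependent ℤ v := by
  classical
  refine linearIndependent_iff'.2 fun s g hg j hj => ?_
  have := congrArg (fun w => b w (v j)) hg
  simp only [map_sum, LinearMap.sum_apply, map_smul, LinearMap.smul_apply, smul_eq_mul, map_zero,
    LinearMap.zero_apply] at this
  rw [Finset.sum_eq_single j (fun i _ hi => by rw [h2 i j hi, mul_zero]) fun e => absurd hj e] at this
  exact (mul_eq_zero.1 this).resolve_right (h1 j)

theorem fr_card (h24 : finrank ℤ Λ = 24) (S : Finset Λ) (h8 : ∀ x ∈ S, b x x = 8)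
    (hS : ∀ x ∈ S, ∀ y ∈ S, x = y ∨ x = -y ∨ b x y = 0) : S.card ≤ 48 := by
  obtain ⟨R, r1, r2, r3⟩ := fr_half S hS
  have := (fr_indep (b := b) (fun x : R => (x : Λ)) (fun i => by rw [h8 _ (r1 i.2)]; norm_num)
    fun i j e => r2 _ i.2 _ j.2 fun c => e (Subtype.ext c)).fintype_card_le_finrank
  rw [Fintype.card_coe] at this
  omega

theorem EU.frame_of (h : EU b) (h24 : finrank ℤ Λ = 24) (hr : ∀ x, b x x ≠ 2)
    (hc : Nat.card {x // b x x = 4} = 196560 ∧ Nat.card {x // b x x = 6} = 16773120 ∧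
      Nat.card {x // b x x = 8} = 398034000) {f : Λ} (hf : b f f = 8) :
    ∃ x z, b x x = 8 ∧ x - f = (2 : ℤ) • z ∧ x ≠ f ∧ x ≠ -f := by
  classical
  by_contra hn
  push Not at hn
  have fin : ∀ (m : ℤ) (N : ℕ), Nat.card {x // b x x = m} = N → N ≠ 0 →
      ∃ T : Finset Λ, T.card = N ∧ ∀ x, x ∈ T ↔ b x x = m := fun m N e e' => by
    have : Finite {x // b x x = m} := Nat.finite_of_card_ne_zero (e ▸ e')
    have hf : {x | b x x = m}.Finite := this
    exact ⟨hf.toFinset, by rw [← Set.ncard_eq_toFinset_card _ hf, ← e]; rfl, fun x => by simp⟩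
  obtain ⟨T4, c4, m4⟩ := fin _ _ hc.1 (by norm_num)
  obtain ⟨T6, c6, m6⟩ := fin _ _ hc.2.1 (by norm_num)
  obtain ⟨T8, c8, m8⟩ := fin _ _ hc.2.2 (by norm_num)
  let B := Module.finBasisOfFinrankEq ℤ Λ h24
  let φ : Λ → Fin 24 → ZMod 2 := fun x i => (B.repr x i : ZMod 2)
  have hφ : ∀ x y, φ x = φ y → ∃ z, x - y = (2 : ℤ) • z := fun x y e => by
    choose k hk using fun i => (ZMod.intCast_eq_intCast_iff_dvd_sub _ _ 2).1 (congrFun e i).symm
    refine ⟨B.equivFun.symm k, B.equivFun.injective ?_⟩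
    ext i
    rw [map_smul, LinearEquiv.apply_symm_apply, map_sub]
    simpa using hk i
  let w : Λ → ℕ := fun x => if b x x = 0 then 48 else if b x x = 8 then 1 else 24
  let T : Finset Λ := insert 0 (T4 ∪ (T6 ∪ T8))
  have mT : ∀ x ∈ T, b x x ≤ 8 := fun x hx => by
    simp only [T, Finset.mem_insert, Finset.mem_union, m4, m6, m8] at hx
    rcases hx with rfl | e | e | e
    · simp
    all_goals omega
  have s1 : ∑ x ∈ T, w x = 48 + (196560 * 24 + (16773120 * 24 + 398034000 * 1)) := by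
    rw [Finset.sum_insert (by simp [m4, m6, m8]), Finset.sum_union, Finset.sum_union,
      Finset.sum_const_nat (m := 24) fun x hx => by simp [w, (m4 x).1 hx],
      Finset.sum_const_nat (m := 24) fun x hx => by simp [w, (m6 x).1 hx],
      Finset.sum_const_nat (m := 1) fun x hx => by simp [w, (m8 x).1 hx], c4, c6, c8]
    · simp [w]
    · exact Finset.disjoint_left.2 fun x h1 h2 => by
        rw [m6] at h1; rw [m8] at h2; omega
    · exact Finset.disjoint_left.2 fun x h1 h2 => by
        rw [Finset.mem_union, m6, m8] at h2; rw [m4] at h1; omega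
  have two : ∀ (x : Λ) (S : Finset Λ), (∀ y ∈ S, y = x ∨ y = -x) → ∑ y ∈ S, w y ≤ 2 * w x := fun x S hS => by
    have e : ∀ y ∈ S, w y = w x := fun y hy => by rcases hS y hy with rfl | rfl <;> simp [w]
    rw [Finset.sum_const_nat e]
    refine Nat.mul_le_mul_right _ ((Finset.card_le_card fun y hy => ?_).trans (Finset.card_le_two (a := x) (b := -x)))
    simpa using hS y hy
  have k : ∀ q, ∑ x ∈ T with φ x = q, w x ≤ 48 := fun q => by
    have o : ∀ x ∈ T.filter (φ · = q), ∀ y ∈ T.filter (φ · = q), x = y ∨ x = -y ∨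
        (b x x = 8 ∧ b y y = 8 ∧ b x y = 0) := fun x hx y hy => by
      obtain ⟨x1, x2⟩ := Finset.mem_filter.1 hx
      obtain ⟨y1, y2⟩ := Finset.mem_filter.1 hy
      obtain ⟨z, hz⟩ := hφ x y (x2.trans y2.symm)
      by_contra hc
      push Not at hc
      obtain ⟨a1, a2, a3⟩ := h.orth hr (mT x x1) (mT y y1) hz hc.1 hc.2.1
      exact hc.2.2 a1 a2 a3
    generalize T.filter (φ · = q) = S at o
    by_cases h8 : ∀ x ∈ S, b x x = 8
    · rw [Finset.sum_const_nat (m := 1) fun x hx => by simp [w, h8 x hx], mul_one]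
      exact fr_card h24 S h8 fun x hx y hy => (o x hx y hy).imp_right (Or.imp_right fun e => e.2.2)
    push Not at h8
    obtain ⟨x, hx, x8⟩ := h8
    have o' : ∀ y ∈ S, y = x ∨ y = -x := fun y hy => (o y hy x hx).imp_right fun e => e.resolve_right fun e => x8 e.2.1
    by_cases x0 : x = 0
    · have : S ⊆ {0} := fun y hy => by simpa [x0] using o' y hy
      exact (Finset.sum_le_sum_of_subset this).trans (by simp [w])
    · refine (two x S o').trans ?_
      simp [w, x8, (h.pos x x0).ne']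
  have kf : ∑ x ∈ T with φ x = φ f, w x ≤ 2 := by
    by_cases e : ∀ y ∈ T.filter (φ · = φ f), y = f ∨ y = -f
    · exact (two f _ e).trans (by simp [w, hf])
    push Not at e
    obtain ⟨y, hy, y1, y2⟩ := e
    obtain ⟨y3, y4⟩ := Finset.mem_filter.1 hy
    obtain ⟨z, hz⟩ := hφ y f y4
    exact absurd (hn y z (h.orth hr (mT y y3) hf.le hz y1 y2).1 hz y1) y2
  have s2 := Finset.sum_fiberwise T φ w
  rw [← Finset.add_sum_erase _ _ (Finset.mem_univ (φ f))] at s2
  have s3 := Finset.sum_le_card_nsmul (Finset.univ.erase (φ f)) _ 48 fun q _ => k q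
  rw [Finset.card_erase_of_mem (Finset.mem_univ _), Finset.card_univ, Fintype.card_fun, ZMod.card,
    Fintype.card_fin, smul_eq_mul] at s3
  omega

end Cfsg.Agent.F23
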