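import Cfsg.Agent.F23.Frame
import Cfsg.Agent.F23.Code

/-! Identification of a rootless even unimodular lattice with an isometry of order 23. -/

set_option autoImplicit false
set_option linter.unusedSectionVars false

open Module

namespace Cfsg.Agent.F23

open Cfsg.Agent.Leech Cfsg.Agent.M11

variable {Λ : Type*} [AddCommGroup Λ] [Module.Free ℤ Λ] [Module.Finite ℤ Λ] {b : Λ →ₗ[ℤ] Λ →ₗ[ℤ] ℤ}

namespace Id

/-- The vectors with inner product divisible by 8. -/
def dv (y : GolayPt → ℤ) : AddSubgroup (GolayPt → ℤ) where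
  carrier := {x | 8 ∣ dotInt x y}
  zero_mem' := by simp [dotInt]
  add_mem' := fun {u v} hu hv => by
    have : dotInt (u + v) y = dotInt u y + dotInt v y := by simp [dotInt, add_mul, Finset.sum_add_distrib]
    exact (dvd_add hu hv).trans this.symm.dvd
  neg_mem' := fun {u} hu => by
    have : dotInt (-u) y = -dotInt u y := by simp [dotInt]
    exact (dvd_neg.2 hu).trans this.symm.dvd

theorem dot_comm (x y : GolayPt → ℤ) : dotInt x y = dotInt y x := by simp [dotInt, mul_comm]

theorem int8 {x y : GolayPt → ℤ} (hx : x ∈ leechLattice) (hy : y ∈ leechLattice) : 8 ∣ dotInt x y := by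
  have h : ∀ i < 37, ∀ j < 37, dotInt (gen i) (gen j) % 8 = 0 := by decide +kernel
  refine le_of_gen (S := dv y) (fun i hi => ?_) hx
  show 8 ∣ dotInt (gen i) y
  rw [dot_comm]
  exact le_of_gen (S := dv (gen i)) (fun j hj => Int.dvd_of_emod_eq_zero (h j hj i hi)) hy

/-- A coordinate frame. -/
structure Fr (b : Λ →ₗ[ℤ] Λ →ₗ[ℤ] ℤ) (f : GolayPt → Λ) : Prop where
  norm : ∀ p, b (f p) (f p) = 8
  orth : ∀ p q, p ≠ q → b (f p) (f q) = 0
  cong : ∀ p, ∃ z, f p - f none = (2 : ℤ) • z

variable {f : GolayPt → Λ}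

theorem Fr.ip (F : Fr b f) (p q : GolayPt) : b (f p) (f q) = if p = q then 8 else 0 := by
  split_ifs with e
  · rw [e, F.norm]
  · exact F.orth p q e

theorem Fr.dot (F : Fr b f) (h : EU b) (h24 : finrank ℤ Λ = 24) (x y : Λ) :
    ∑ p, b x (f p) * b y (f p) = 8 * b x y := by
  have h1 : (8 : ℤ) • x - ∑ p, b x (f p) • f p = 0 := by
    by_contra hn
    have k : ∀ q, b ((8 : ℤ) • x - ∑ p, b x (f p) • f p) (f q) = 0 := fun q => by
      simp only [map_sub, map_smul, map_sum, LinearMap.sub_apply, LinearMap.smul_apply, LinearMap.sum_apply, F.ip,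
        smul_eq_mul, mul_ite, mul_zero, Finset.sum_ite_eq', Finset.mem_univ, if_true]
      ring
    generalize (8 : ℤ) • x - ∑ p, b x (f p) • f p = v at hn k
    have := (fr_indep (b := b) (fun o : Option GolayPt => o.elim v f) (fun o => ?_)
      fun o o' e => ?_).fintype_card_le_finrank
    · rw [h24] at this
      exact absurd this (by decide)
    · cases o with
      | none => exact (h.pos v hn).ne'
      | some p => simp [F.norm]
    · cases o <;> cases o'
      · exact absurd rfl e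
      · exact k _
      · exact (h.symm _ _).trans (k _)
      · exact F.orth _ _ fun c => e (congrArg some c)
  have := congrArg (b y) h1
  simp only [map_sub, map_smul, map_sum, smul_eq_mul, map_zero] at this
  rw [h.symm x y]
  linear_combination -this

theorem Fr.par (F : Fr b f) (x : Λ) (p : GolayPt) : ∃ k, b x (f p) = b x (f none) + 2 * k := by
  obtain ⟨z, hz⟩ := F.cong p
  have := congrArg (b x) hz
  simp only [map_sub, map_smul, smul_eq_mul] at this
  exact ⟨b x z, by linear_combination this⟩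

variable (b f) in
/-- The code of a frame. -/
def cd : AddSubgroup (GolayPt → ZMod 2) where
  carrier := {w | ∃ x, ∀ p, ∃ k : ℤ, b x (f p) = 2 * k ∧ (k : ZMod 2) = w p}
  zero_mem' := ⟨0, fun p => ⟨0, by simp⟩⟩
  add_mem' := by
    rintro u v ⟨x, hx⟩ ⟨y, hy⟩
    refine ⟨x + y, fun p => ?_⟩
    obtain ⟨k, k1, k2⟩ := hx p
    obtain ⟨l, l1, l2⟩ := hy p
    exact ⟨k + l, by simp [k1, l1, mul_add], by simp [k2, l2]⟩
  neg_mem' := by
    rintro u ⟨x, hx⟩
    refine ⟨-x, fun p => ?_⟩
    obtain ⟨k, k1, k2⟩ := hx p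
    exact ⟨-k, by simp [k1], by simp [k2]⟩

theorem sq_mod (k : ℤ) : (4 : ℤ) ∣ k * k - if (k : ZMod 2) ≠ 0 then 1 else 0 := by
  obtain ⟨j, rfl | rfl⟩ := Int.even_or_odd' k
  · rw [if_neg (by simp [show (2 : ZMod 2) = 0 from rfl])]
    exact ⟨j * j, by ring⟩
  · rw [if_pos (by simp [show (2 : ZMod 2) = 0 from rfl])]
    exact ⟨j * j + j, by ring⟩

theorem Fr.de (F : Fr b f) (h : EU b) (h24 : finrank ℤ Λ = 24) {w : GolayPt → ZMod 2} (hw : w ∈ cd b f) :
    4 ∣ (support₂ w).card := by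
  obtain ⟨x, hx⟩ := hw
  choose k k1 k2 using hx
  have h1 := F.dot h h24 x x
  obtain ⟨n, hn⟩ := h.even x
  have h2 : ∑ p, k p * k p = 4 * n := by
    have : ∑ p, b x (f p) * b x (f p) = 4 * ∑ p, k p * k p := by
      rw [Finset.mul_sum]
      exact Finset.sum_congr rfl fun p _ => by rw [k1]; ring
    omega
  have h3 := Finset.dvd_sum (s := Finset.univ) fun p _ => sq_mod (k p)
  rw [Finset.sum_sub_distrib, h2] at h3
  have h4 : ((support₂ w).card : ℤ) = ∑ p, if (k p : ZMod 2) ≠ 0 then 1 else 0 := by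
    simp only [support₂, Finset.card_filter, k2]
    push_cast
    rfl
  omega

theorem sum_vecA (x : GolayPt → ℤ) : ∑ p, x p * vecA p = ∑ p, x p - 4 * x none := by
  simp only [Fintype.sum_option, vecA]
  simp
  ring

theorem Fr.mem (F : Fr b f) (h : EU b) (h24 : finrank ℤ Λ = 24) {a : Λ} (ha : ∀ p, b a (f p) = vecA p)
    (hc : ∀ w ∈ cd b f, w ∈ golayCode) (x : Λ) : (fun p => b x (f p)) ∈ leechLattice := by
  have vA : ∀ p, ∃ t, vecA p = 1 + 4 * t := fun p => by
    unfold vecA
    split_ifs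
    exacts [⟨-1, rfl⟩, ⟨0, rfl⟩]
  choose t ht using vA
  choose k hk using F.par x
  obtain ⟨c, c1, c2⟩ := mem_golay.1 (hc (fun p => ((k p - 2 * (b x (f none) * t p) : ℤ) : ZMod 2))
    ⟨x - b x (f none) • a, fun p => ⟨_, by
      simp only [map_sub, map_smul, LinearMap.sub_apply, LinearMap.smul_apply, smul_eq_mul, ha, ht, hk p]
      ring, rfl⟩⟩)
  refine mem_leech.2 ⟨b x (f none), c, c1, fun p => ?_, ?_⟩
  · have h1 : ((k p - 2 * (b x (f none) * t p) : ℤ) : ZMod 2) = (bit c p : ℤ) := by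
      rw [congrFun c2 p, wOf, bit]
      split_ifs <;> simp
    have h2 := (ZMod.intCast_eq_intCast_iff_dvd_sub _ _ 2).1 h1
    have h3 := hk p
    simp only
    omega
  · have h1 := F.dot h h24 x a
    simp only [ha, sum_vecA] at h1
    simp only
    omega

theorem Fr.fin (F : Fr b f) (h : EU b) (h24 : finrank ℤ Λ = 24) {a : Λ} (ha : ∀ p, b a (f p) = vecA p)
    (hc : ∀ w ∈ cd b f, w ∈ golayCode) :
    ∃ Φ : Λ ≃+ leechLattice, ∀ x p, (Φ x : GolayPt → ℤ) p = b x (f p) := by
  let c : Λ →+ leechLattice :=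
    { toFun := fun x => ⟨_, F.mem h h24 ha hc x⟩
      map_zero' := Subtype.ext (funext fun p => by simp)
      map_add' := fun x y => Subtype.ext (funext fun p => by simp) }
  refine ⟨AddEquiv.ofBijective c ⟨(injective_iff_map_eq_zero c).2 fun x hx => ?_, fun l => ?_⟩, fun _ _ => rfl⟩
  · have h1 : ∀ p, b x (f p) = 0 := fun p => congrFun (congrArg Subtype.val hx) p
    have h2 := F.dot h h24 x x
    simp only [h1, mul_zero, Finset.sum_const_zero] at h2
    by_contra hn
    have := h.pos x hn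
    omega
  · let φ : Λ →+ ℤ :=
      { toFun := fun x => dotInt (c x : GolayPt → ℤ) l / 8
        map_zero' := by simp [dotInt]
        map_add' := fun x y => by
          rw [← Int.add_ediv_of_dvd_left (int8 (c x).2 l.2)]
          simp [dotInt, add_mul, Finset.sum_add_distrib] }
    obtain ⟨x, hx⟩ := h.unim φ.toIntLinearMap
    refine ⟨x, Subtype.ext (funext fun q => (hx (f q)).trans ?_)⟩
    show (∑ p, b (f q) (f p) * (l : GolayPt → ℤ) p) / 8 = _
    simp [F.ip]

/-- The powers of an endomorphism of order 23. -/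
def gp (γ : Module.End ℤ Λ) (j : ZMod 23) : Module.End ℤ Λ := γ ^ j.val

variable {γ : Module.End ℤ Λ}

theorem gp_cast (h23 : γ ^ 23 = 1) (n : ℕ) : gp γ n = γ ^ n := by
  rw [gp, ZMod.val_natCast, ← pow_eq_pow_mod n h23]

theorem gp_add (h23 : γ ^ 23 = 1) (i j : ZMod 23) (x : Λ) : gp γ (i + j) x = gp γ i (gp γ j x) := by
  obtain ⟨m, rfl⟩ := ZMod.natCast_zmod_surjective i
  obtain ⟨n, rfl⟩ := ZMod.natCast_zmod_surjective j
  rw [← Nat.cast_add, gp_cast h23, gp_cast h23, gp_cast h23, pow_add, Module.End.mul_apply]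

theorem gp_fix {x : Λ} (h : γ x = x) (j : ZMod 23) : gp γ j x = x := by
  unfold gp
  induction j.val with
  | zero => rfl
  | succ n ih => rw [pow_succ, Module.End.mul_apply, h, ih]

theorem gp_isom (hγ : ∀ x y, b (γ x) (γ y) = b x y) (j : ZMod 23) (x y : Λ) : b (gp γ j x) (gp γ j y) = b x y := by
  unfold gp
  induction j.val with
  | zero => rfl
  | succ n ih => rw [pow_succ', Module.End.mul_apply, Module.End.mul_apply, hγ, ih]

theorem fix_of_gp (h23 : γ ^ 23 = 1) {x : Λ} {j : ZMod 23} (hj : j ≠ 0) (h : gp γ j x = x) : γ x = x := by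
  have k : ∀ n : ℕ, gp γ (n * j) x = x := fun n => by
    induction n with
    | zero => simp [gp]
    | succ n ih => rw [Nat.cast_succ, add_mul, one_mul, gp_add h23, h, ih]
  haveI : Fact (Nat.Prime 23) := ⟨by norm_num⟩
  obtain ⟨n, hn⟩ := ZMod.natCast_zmod_surjective j⁻¹
  have := k n
  rwa [hn, inv_mul_cancel₀ hj] at this

variable (γ) in
/-- The frame spanned by a fixed vector and an orbit. -/
def fr (v x : Λ) : GolayPt → Λ
  | none => v
  | some j => gp γ j x

theorem fr_Fr (h : EU b) (hr : ∀ x, b x x ≠ 2) (hγ : ∀ x y, b (γ x) (γ y) = b x y) (h23 : γ ^ 23 = 1)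
    {v x z : Λ} (hv : γ v = v) (vv : b v v = 8) (hfix : ∀ x, γ x = x → b x x = 8 → x = v ∨ x = -v)
    (xx : b x x = 8) (hz : x - v = (2 : ℤ) • z) (h1 : x ≠ v) (h2 : x ≠ -v) : Fr b (fr γ v x) := by
  have nf : ∀ j, j ≠ 0 → gp γ j x ≠ x := fun j hj e => (hfix x (fix_of_gp h23 hj e) xx).elim h1 h2
  have cg : ∀ j, gp γ j x - v = (2 : ℤ) • gp γ j z := fun j => by
    rw [← map_smul, ← hz, map_sub, gp_fix hv]
  have o1 : ∀ j, b (gp γ j x) v = 0 := fun j => by
    rw [← gp_fix hv j, gp_isom hγ]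
    exact (h.orth hr xx.le vv.le hz h1 h2).2.2
  refine ⟨fun p => ?_, fun p q e => ?_, fun p => ?_⟩
  · cases p with
    | none => exact vv
    | some j => exact (gp_isom hγ j x x).trans xx
  · cases p with
    | none =>
      cases q with
      | none => exact absurd rfl e
      | some j => exact (h.symm _ _).trans (o1 j)
    | some i =>
      cases q with
      | none => exact o1 i
      | some j =>
        obtain ⟨d, rfl⟩ : ∃ d, i = j + d := ⟨i - j, by ring⟩
        have hd : d ≠ 0 := fun c => e (by rw [c, add_zero])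
        show b (gp γ (j + d) x) (gp γ j x) = 0
        rw [gp_add h23, gp_isom hγ]
        refine (h.orth hr ((gp_isom hγ d x x).trans xx).le xx.le (z := gp γ d z - z) ?_ (nf d hd) fun c => ?_).2.2
        · rw [smul_sub, ← cg, ← hz]; abel
        · refine nf (d + d) (fun c => hd ?_) (by rw [gp_add h23, c, map_neg, c, neg_neg])
          revert c; generalize d = d; revert d; decide
  · cases p with
    | none => exact ⟨0, by simp⟩
    | some j => exact ⟨_, cg j⟩

theorem fr_shift (h23 : γ ^ 23 = 1) {v : Λ} (hv : γ v = v) (x : Λ) (p : GolayPt) :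
    fr γ v x (p.map (· + 1)) = γ (fr γ v x p) := by
  cases p with
  | none => exact hv.symm
  | some j =>
    show gp γ (j + 1) x = γ (gp γ j x)
    rw [add_comm, gp_add h23]
    rfl

end Id

open Id in
theorem EU.ident (h : EU b) (h24 : finrank ℤ Λ = 24) (hr : ∀ x, b x x ≠ 2)
    (γ : Module.End ℤ Λ) (hγ : ∀ x y, b (γ x) (γ y) = b x y) (h23 : γ ^ 23 = 1)
    {a e : Λ} (ha : γ a = a) (he : γ e = e) (haa : b a a = 4) (hee : b e e = 6) (hae : b a e = 1)
    (hfix : ∀ x, γ x = x → b x x = 8 → x = e - a ∨ x = a - e)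
    (hfr : ∃ x z, b x x = 8 ∧ x - (e - a) = (2 : ℤ) • z ∧ x ≠ e - a ∧ x ≠ -(e - a)) :
    ∃ Φ : Λ ≃+ leechLattice, (∀ x y, dotInt (Φ x : GolayPt → ℤ) (Φ y) = 8 * b x y) ∧
      (Φ a : GolayPt → ℤ) = vecA ∧ (Φ e : GolayPt → ℤ) = vecB := by
  have hv : γ (e - a) = e - a := by rw [map_sub, ha, he]
  have hea := h.symm e a
  have vv : b (e - a) (e - a) = 8 := by simp only [map_sub, LinearMap.sub_apply]; omega
  have av : b a (e - a) = -3 := by simp only [map_sub]; omega
  have hfix' : ∀ x, γ x = x → b x x = 8 → x = e - a ∨ x = -(e - a) := by simpa using hfix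
  have ca : ∀ x j, b a (gp γ j x) = b a x := fun x j => by
    rw [← gp_isom hγ j a x, gp_fix ha]
  obtain ⟨x, F, ax⟩ : ∃ x, Fr b (fr γ (e - a) x) ∧ b a x = 1 := by
    obtain ⟨x, z, xx, hz, h1, h2⟩ := hfr
    have F := fr_Fr h hr hγ h23 hv vv hfix' xx hz h1 h2
    have h3 := F.dot h h24 a a
    simp only [Fintype.sum_option, fr, ca, av, haa, Finset.sum_const, Finset.card_univ, ZMod.card] at h3
    have h4 : b a x * b a x = 1 := by
      rw [nsmul_eq_mul] at h3
      omega
    rcases Int.eq_one_or_neg_one_of_mul_eq_one h4 with h5 | h5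
    · exact ⟨x, F, h5⟩
    · refine ⟨-x, fr_Fr h hr hγ h23 hv vv hfix' (by simpa using xx) (z := -z - (e - a)) ?_
        (fun c => h2 (neg_eq_iff_eq_neg.1 c)) (fun c => h1 (neg_injective c)), by simp [h5]⟩
      rw [smul_sub, smul_neg, ← hz]; module
  have key : ∀ f : GolayPt → Λ, Fr b f → f none = e - a → (∀ j, b a (f (some j)) = 1) →
      (∀ w ∈ cd b f, w ∈ golayCode) →
      ∃ Φ : Λ ≃+ leechLattice, (∀ x y, dotInt (Φ x : GolayPt → ℤ) (Φ y) = 8 * b x y) ∧
        (Φ a : GolayPt → ℤ) = vecA ∧ (Φ e : GolayPt → ℤ) = vecB := fun f F f0 f1 hc => by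
    have h1 : ∀ p, b a (f p) = vecA p := fun p => by
      cases p with
      | none => rw [f0, av]; rfl
      | some j => rw [f1]; rfl
    obtain ⟨Φ, hΦ⟩ := F.fin h h24 h1 hc
    refine ⟨Φ, fun x y => ?_, funext fun p => (hΦ a p).trans (h1 p), funext fun p => (hΦ e p).trans ?_⟩
    · simp only [dotInt, hΦ]
      exact F.dot h h24 x y
    · rw [show e = a + f none by rw [f0]; abel, map_add, LinearMap.add_apply, h1, F.ip]
      cases p <;> simp [vecA, vecB]
  rcases code (cd b (fr γ (e - a) x)) (fun w ⟨y, hy⟩ => ⟨(γ ^ 22) y, fun p => by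
    rw [← hγ, ← fr_shift h23 hv, ← Module.End.mul_apply, ← pow_succ', h23]
    exact hy _⟩) (fun w => F.de h h24) with hc | hc
  · exact key _ F rfl (fun j => (ca x j).trans ax) hc
  · refine key (fun p => fr γ (e - a) x (p.map Neg.neg)) ⟨fun p => F.norm _, fun p q e => F.orth _ _ fun c => e ?_,
      fun p => F.cong _⟩ rfl (fun j => (ca x _).trans ax) fun w ⟨y, hy⟩ => ?_
    · rw [← Cd.neg_neg' p, c, Cd.neg_neg']
    · have := hc (fun p => w (p.map Neg.neg)) ⟨y, fun p => by simpa only [Cd.neg_neg'] using hy (p.map Neg.neg)⟩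
      simpa only [Cd.neg_neg'] using this

end Cfsg.Agent.F23
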