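import Cfsg.Agent.F23.PMin
import Cfsg.Agent.F23.Ident
import Cfsg.Agent.F23.Frame

/-! The rank 22 lattice sits in the rank 24 lattice built from the code. -/

set_option autoImplicit false
open Module
namespace Cfsg.Agent.F23

/-- The vector (0, 4, −4, 0²¹). -/
def plW : GolayPt → ℤ := fun p => if p = some 0 then 4 else if p = some 1 then -4 else 0

theorem plW_mem : plW ∈ leechLattice :=
  AddSubgroup.subset_closure
    (Cfsg.Spor.mem_leechSet_of_const_mod_four plW 0 0 (by decide) (by decide) (by decide))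

section PLeech
variable {P : Type*} [AddCommGroup P] [Module.Free ℤ P] [Module.Finite ℤ P]
  {β : P →ₗ[ℤ] P →ₗ[ℤ] ℤ} {χ : P →+ ZMod 23} {γ : Module.End ℤ P}

omit [Module.Free ℤ P] [Module.Finite ℤ P] in
theorem PG.min44 (h : PG β χ (-6) γ) (hr : ∀ y, χ y = 0 → β y y ≠ 46) {y : P} (hy : y ≠ 0) :
    44 ≤ β y y := h.min44' hr hy

theorem PG.leech (h : PG β χ (-6) γ) (h22 : finrank ℤ P = 22) (hr : ∀ y, χ y = 0 → β y y ≠ 46) :
    (∃ y, β y y = 44) ∧ (∃ y, χ y = 0 ∧ β y y = 92) ∧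
    ∃ Φ : gl χ χN ≃+ leechLattice,
      (∀ x y : gl χ χN, 23 * dotInt (Φ x : GolayPt → ℤ) (Φ y) = 8 * (β x.1.1 y.1.1 + βN x.1.2 y.1.2)) ∧
      (∀ x : gl χ χN, dotInt (Φ x : GolayPt → ℤ) vecA = 8 * x.1.2.1) ∧
      (∀ x : gl χ χN, dotInt (Φ x : GolayPt → ℤ) vecB = 8 * x.1.2.2) ∧
      (∀ φ : leechLattice →+ ℤ, ∃ t : leechLattice, ∀ x : leechLattice,
        dotInt (t : GolayPt → ℤ) x = 8 * φ x) := by
  obtain ⟨hrk, b, hb, hbe⟩ := h.toD23.glue (β' := βN) (χ' := χN) (by rw [neg_neg]; exact d23N)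
  have h24 : finrank ℤ (gl χ χN) = 24 := by rw [hrk, h22]; simp
  have hroot : ∀ x, b x x ≠ 2 := by
    intro x hx
    have := hbe x x
    exact h.noroot hr x (by omega)
  let a : gl χ χN := ⟨(0, (4, 1)), by
    rw [mem_gl, map_zero]; exact (by decide : 0 = χN (4, 1))⟩
  let e : gl χ χN := ⟨(0, (1, 6)), by
    rw [mem_gl, map_zero]; exact (by decide : 0 = χN (1, 6))⟩
  let γ' : Module.End ℤ (gl χ χN) :=
    (γ.prodMap (LinearMap.id : (ℤ × ℤ) →ₗ[ℤ] (ℤ × ℤ))).restrict (p := gl χ χN) (q := gl χ χN)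
      fun x hx => by
        rw [mem_gl] at hx ⊢
        simpa only [LinearMap.prodMap_apply, LinearMap.id_apply, h.chi] using hx
  have hγ' : ∀ x : gl χ χN, (γ' x).1 = (γ x.1.1, x.1.2) := fun x => rfl
  have hpow : ∀ (j : ℕ) (x : gl χ χN), ((γ' ^ j) x).1 = ((γ ^ j) x.1.1, x.1.2) := by
    intro j x
    induction j with
    | zero => rfl
    | succ j ih => rw [pow_succ', pow_succ', Module.End.mul_apply, Module.End.mul_apply, hγ', ih]
  have hxa : ∀ x, b x a = x.1.2.1 := by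
    intro x
    have : 23 * b x a = β x.1.1 0 + βN x.1.2 (4, 1) := hbe x a
    simp only [map_zero, zero_add, βN_apply] at this
    omega
  have hxe : ∀ x, b x e = x.1.2.2 := by
    intro x
    have : 23 * b x e = β x.1.1 0 + βN x.1.2 (1, 6) := hbe x e
    simp only [map_zero, zero_add, βN_apply] at this
    omega
  have hf8 : b (e - a) (e - a) = 8 := by
    simp only [map_sub, LinearMap.sub_apply, hxa, hxe, a, e]
    norm_num
  obtain ⟨Φ, hΦ, hΦa, hΦe⟩ := hb.ident h24 hroot γ'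
    (fun x y => by
      have h1 := hbe (γ' x) (γ' y)
      have h2 := hbe x y
      rw [hγ', hγ', h.isom] at h1
      simp only at h1
      omega)
    (by
      ext1 x
      apply Subtype.ext
      rw [hpow, h.pow23]
      rfl)
    (a := a) (e := e)
    (Subtype.ext (by rw [hγ']; simp only [a, map_zero]))
    (Subtype.ext (by rw [hγ']; simp only [e, map_zero]))
    (hxa a) (hxe e) (hxe a)
    (fun x hx h8 => by
      have h1 : γ x.1.1 = x.1.1 := congrArg (fun t : gl χ χN => t.1.1) hx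
      have h2 := h.eq_zero_of_fix h1
      have h3 := mem_gl.mp x.2
      have h4 := hbe x x
      rw [h2, map_zero] at h3 h4
      rcases pm_184 x.1.2 h3.symm (by omega) with h5 | h5
      · left
        apply Subtype.ext
        apply Prod.ext
        · simp [a, e, h2]
        · rw [h5]; simp [a, e]
      · right
        apply Subtype.ext
        apply Prod.ext
        · simp [a, e, h2]
        · rw [h5]; simp [a, e])
    (hb.frame_of h24 hroot (hb.counts h24 hroot) hf8)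
  have r1 : ∀ x y : gl χ χN, 23 * dotInt (Φ x : GolayPt → ℤ) (Φ y) =
      8 * (β x.1.1 y.1.1 + βN x.1.2 y.1.2) := by
    intro x y
    rw [hΦ, ← hbe]; ring
  have r2 : ∀ x : gl χ χN, dotInt (Φ x : GolayPt → ℤ) vecA = 8 * x.1.2.1 := by
    intro x
    rw [← hΦa, hΦ, hxa]
  have r3 : ∀ x : gl χ χN, dotInt (Φ x : GolayPt → ℤ) vecB = 8 * x.1.2.2 := by
    intro x
    rw [← hΦe, hΦ, hxe]
  refine ⟨?_, ?_, Φ, r1, r2, r3, fun φ => ?_⟩
  · obtain ⟨x, hx⟩ := Φ.surjective Cfsg.Spor.leechU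
    have h1 := r1 x x
    have h2 := r2 x
    have h3 := r3 x
    rw [hx] at h1 h2 h3
    have e1 : dotInt (Cfsg.Spor.leechU : GolayPt → ℤ) Cfsg.Spor.leechU = 32 := by
      change dotInt Cfsg.Spor.vecU Cfsg.Spor.vecU = 32
      decide +kernel
    have e2 : dotInt (Cfsg.Spor.leechU : GolayPt → ℤ) vecA = -8 := by
      change dotInt Cfsg.Spor.vecU vecA = -8
      decide +kernel
    have e3 : dotInt (Cfsg.Spor.leechU : GolayPt → ℤ) vecB = 24 := by
      change dotInt Cfsg.Spor.vecU vecB = 24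
      decide +kernel
    have h4 : x.1.2.1 = -1 := by omega
    have h5 : x.1.2.2 = 3 := by omega
    rw [βN_apply, h4, h5] at h1
    exact ⟨x.1.1, by omega⟩
  · obtain ⟨x, hx⟩ := Φ.surjective ⟨plW, plW_mem⟩
    have h1 := r1 x x
    have h2 := r2 x
    have h3 := r3 x
    rw [hx] at h1 h2 h3
    have e1 : dotInt plW plW = 32 := by decide +kernel
    have e2 : dotInt plW vecA = 0 := by decide +kernel
    have e3 : dotInt plW vecB = 0 := by decide +kernel
    simp only at h1 h2 h3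
    have h4 : x.1.2.1 = 0 := by omega
    have h5 : x.1.2.2 = 0 := by omega
    rw [βN_apply, h4, h5] at h1
    refine ⟨x.1.1, ?_, by omega⟩
    rw [mem_gl.mp x.2, χN_apply, h4, h5]
    rfl
  · obtain ⟨x0, hx0⟩ := hb.unim (φ.comp Φ.toAddMonoidHom).toIntLinearMap
    refine ⟨Φ x0, fun x => ?_⟩
    obtain ⟨y, rfl⟩ := Φ.surjective x
    rw [hΦ, hx0]
    rfl

end PLeech

end Cfsg.Agent.F23
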