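import Cfsg.Agent.F23.Basic

/-! The discriminant is 1 or 6. -/

set_option autoImplicit false
open Module
namespace Cfsg.Agent.F23

section Small
variable {G : Type*} [Group G] {σ : G →* Module.End ℚ V} {B : V →ₗ[ℚ] V →ₗ[ℚ] ℚ} {L : Submodule ℤ V}
  {g : G} {u : V} {d : ℕ}

theorem Setup.no2 (S : Setup σ B L g u 2) (hidx : ∀ K : Subgroup G, K.index ≠ 23 ∧ K.index ≠ 24)
    (nr : ∀ x ∈ L, B x u = 0 → B x x ≠ 2)
    (m44 : ∀ x ∈ L, ∀ k : ℤ, B x u = 2 * k → 23 * B x x - 2 * k ^ 2 = 0 ∨ 44 ≤ 23 * B x x - 2 * k ^ 2)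
    (e44 : ∃ x ∈ L, ∃ k : ℤ, B x u = 2 * k ∧ 23 * B x x - 2 * k ^ 2 = 44) : False := by
  obtain ⟨x, hx, k, hk, h44⟩ := e44
  have huu : B u u = 46 := by rw [S.uu]; norm_num
  obtain ⟨t, k0, ht, h1, h2⟩ : ∃ t k0 : ℤ, k = k0 + 23 * t ∧ -11 ≤ k0 ∧ k0 ≤ 11 :=
    ⟨(k + 11) / 23, (k + 11) % 23 - 11, by omega, by omega, by omega⟩
  have hz : x - t • u ∈ L := sub_mem hx (L.smul_mem t S.uL)
  have hzu : B (x - t • u) u = 2 * k0 := by
    rw [map_sub, LinearMap.sub_apply, bz1, hk, huu, ht]; push_cast; ring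
  have hzz : 23 * B (x - t • u) (x - t • u) - 2 * k0 ^ 2 = 44 := by
    simp only [map_sub, LinearMap.sub_apply, bz1, bz2, S.form.symm u x, hk, huu]
    rw [← h44, ht]; push_cast; ring
  generalize x - t • u = z at hz hzu hzz
  obtain ⟨n, hn⟩ := S.lat.int z hz z hz
  have h3 : 23 * n - 2 * k0 ^ 2 = 44 := by rw [hn] at hzz; exact_mod_cast hzz
  have h4 : n = 2 ∧ k0 * k0 = 1 := by interval_cases k0 <;> omega
  obtain ⟨rfl, h4⟩ := h4
  have hz0 : z ≠ 0 := fun e => by rw [e] at hn; simp at hn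
  refine S.hyp.noOrth S.form hidx hz0 fun h => ?_
  have hy := S.lat.inv h z hz
  have hyy : B (σ h z) (σ h z) = 2 := by rw [S.form.inv, hn]; norm_num
  generalize σ h z = y at hy hyy
  obtain ⟨k', hk'⟩ := S.dvd y hy
  push_cast at hk' hn
  have h5 := m44 y hy k' hk'
  rw [hyy] at h5
  have h6 : 46 - 2 * k' ^ 2 = 0 ∨ 44 ≤ 46 - 2 * k' ^ 2 := by
    rcases h5 with h5 | h5
    · left; apply Int.cast_injective (α := ℚ); push_cast; linarith
    · right; have : (44 : ℚ) ≤ ((46 - 2 * k' ^ 2 : ℤ) : ℚ) := by push_cast; linarith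
      exact_mod_cast this
  have h7 : k' ≠ 0 := fun e => nr y hy (by rw [hk', e]; simp) hyy
  have h8 : k' = 1 ∨ k' = -1 := by
    have : -5 ≤ k' := by rcases h6 with h6 | h6 <;> nlinarith
    have : k' ≤ 5 := by rcases h6 with h6 | h6 <;> nlinarith
    interval_cases k' <;> omega
  obtain ⟨p, hp⟩ := S.lat.int y hy z hz
  have h9 : ∀ e : ℤ, e * e = 1 → B (y + e • z) (y + e • z) = ((4 + 2 * e * p : ℤ) : ℚ) := fun e he => by
    simp only [map_add, LinearMap.add_apply, bz1, bz2, S.form.symm z y, hp, hyy, hn]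
    have : (e : ℚ) * e = 1 := by exact_mod_cast he
    push_cast; linear_combination 2 * this
  have h10 : ∀ e : ℤ, B (y + e • z) u = 2 * ((k' + e * k0 : ℤ) : ℚ) := fun e => by
    simp only [map_add, LinearMap.add_apply, bz1, hk', hzu]; push_cast; ring
  have hm : ∀ e : ℤ, y + e • z ∈ L := fun e => add_mem hy (L.smul_mem e hz)
  have he : (k' * k0) * (k' * k0) = 1 := by rcases h8 with rfl | rfl <;> linarith
  have he' : (-(k' * k0)) * (-(k' * k0)) = 1 := by linarith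
  have a1 := m44 _ (hm (k' * k0)) _ (h10 _)
  rw [h9 _ he] at a1
  have a2 := nr _ (hm (-(k' * k0))) (by
    rw [h10, show k' + -(k' * k0) * k0 = 0 by linear_combination (-k') * h4]; simp)
  have a3 := S.form.nonneg (y + (-(k' * k0)) • z)
  have a4 := S.form.eq_zero (x := y + (-(k' * k0)) • z)
  rw [h9 _ he'] at a2 a3 a4
  have a5 : (k' + k' * k0 * k0) ^ 2 = 4 := by
    rw [show k' + k' * k0 * k0 = 2 * k' by linear_combination k' * h4]
    rcases h8 with rfl | rfl <;> norm_num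
  have a1' : 23 * (4 + 2 * (k' * k0) * p) - 2 * (k' + k' * k0 * k0) ^ 2 = 0 ∨
      44 ≤ 23 * (4 + 2 * (k' * k0) * p) - 2 * (k' + k' * k0 * k0) ^ 2 := by exact_mod_cast a1
  rw [a5] at a1'
  have a2' : 4 + 2 * -(k' * k0) * p ≠ 2 := by exact_mod_cast a2
  have a3' : 0 ≤ 4 + 2 * -(k' * k0) * p := by exact_mod_cast a3
  have h11 : k' * k0 = 1 ∨ k' * k0 = -1 := Int.eq_one_or_neg_one_of_mul_eq_one he
  rcases h11 with e | e <;> rw [e] at a1' a2' a3' a4
  · by_cases hp0 : p = 0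
    · right; right; rw [hp, hp0]; simp
    · left
      have := a4 (by exact_mod_cast (by omega : 4 + 2 * -1 * p = 0))
      rw [neg_smul, one_smul] at this
      exact add_neg_eq_zero.mp this
  · by_cases hp0 : p = 0
    · right; right; rw [hp, hp0]; simp
    · right; left
      have := a4 (by exact_mod_cast (by omega : 4 + 2 * - -1 * p = 0))
      rw [neg_neg, one_smul] at this
      exact add_eq_zero_iff_eq_neg.mp this

/-- The images of `u / d` are congruent to multiples of `u / d`. -/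
theorem Setup.orb (S : Setup σ B L g u d) (h : G) (c : ℤ) : ∃ j k n : ℤ, c ≤ j ∧ j < c + d ∧
    ((1 : ℚ) / d) • σ h u - ((j : ℚ) / d) • u ∈ L ∧ B (((1 : ℚ) / d) • σ h u - ((j : ℚ) / d) • u) u = d * k ∧
    B (((1 : ℚ) / d) • σ h u - ((j : ℚ) / d) • u) (((1 : ℚ) / d) • σ h u - ((j : ℚ) / d) • u) = 2 * n + d * k ∧
    d * (2 * n + d * k) = 23 * (1 - j ^ 2) - 2 * d * j * k := by
  have hd := S.d_ne
  have hd' : (0 : ℤ) < d := by exact_mod_cast S.d_pos
  obtain ⟨j, hj⟩ := S.dual (((1 : ℚ) / d) • σ h u) (fun x hx => by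
    obtain ⟨k, hk⟩ := S.dvd _ (S.lat.inv h⁻¹ x hx)
    exact ⟨k, by rw [bq1, S.form.move, S.form.symm, hk]; field_simp⟩)
  have h1 : ((1 : ℚ) / d) • σ h u - ((((j - c) % d + c : ℤ) : ℚ) / d) • u ∈ L := by
    have h2 := add_mem hj (L.smul_mem ((j - c) / d) S.uL)
    have h3 : (j : ℚ) = ((j - c) % d + c : ℤ) + d * ((j - c) / d : ℤ) := by
      have := Int.emod_add_mul_ediv (j - c) d
      exact_mod_cast (by linarith : j = ((j - c) % d + c) + d * ((j - c) / d))
    convert h2 using 1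
    rw [← Int.cast_smul_eq_zsmul ℚ, sub_add, ← sub_smul]
    congr 2
    conv_rhs => rw [h3]
    field_simp
    ring
  have h4 := Int.emod_nonneg (j - c) hd'.ne'
  have h5 := Int.emod_lt_of_pos (j - c) hd'
  generalize (j - c) % d = r at h1 h4 h5
  obtain ⟨k, hk⟩ := S.dvd _ h1
  obtain ⟨n, hn⟩ := S.par h1 hk
  refine ⟨r + c, k, n, by omega, by omega, h1, hk, hn, ?_⟩
  simp only [map_sub, LinearMap.sub_apply, bq1, bq2, S.form.inv, S.form.symm u (σ h u), S.uu] at hk hn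
  apply Int.cast_injective (α := ℚ)
  push_cast at hk hn ⊢
  have h6 : B (σ h u) u = d * (d * k + 23 * (r + c)) := by
    field_simp at hk; linarith
  rw [← hn, h6]
  field_simp
  ring

theorem Setup.no26 (S : Setup σ B L g u 26) (hidx : ∀ K : Subgroup G, K.index ≠ 23 ∧ K.index ≠ 24)
    (m44 : ∀ x ∈ L, ∀ k : ℤ, B x u = 26 * k → 23 * B x x - 26 * k ^ 2 = 0 ∨ 44 ≤ 23 * B x x - 26 * k ^ 2) :
    False := by
  refine S.hyp.noOrth S.form hidx S.u_ne fun h => ?_
  obtain ⟨j, k, n, h1, h2, h3, h4, h5, h6⟩ := S.orb h (-12)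
  push_cast at h2 h3 h4 h5 h6
  have h7 : j = 1 ∨ j = -1 := by interval_cases j <;> omega
  have h8 := m44 _ h3 k h4
  have h9 := S.form.eq_zero (x := ((1 : ℚ) / 26) • σ h u - ((j : ℚ) / 26) • u)
  rw [h5, show (2 : ℚ) * n + 26 * k = ((2 * n + 26 * k : ℤ) : ℚ) by push_cast; ring] at h8 h9
  have h10 : 23 * (2 * n + 26 * k) - 26 * k ^ 2 = 0 ∨ 44 ≤ 23 * (2 * n + 26 * k) - 26 * k ^ 2 := by exact_mod_cast h8
  have h11 : 2 * n + 26 * k = -2 * j * k := by rcases h7 with rfl | rfl <;> omega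
  rw [h11] at h10
  have h12 : k = 0 := by
    have : -2 ≤ k := by rcases h7 with rfl | rfl <;> rcases h10 with h10 | h10 <;> nlinarith
    have : k ≤ 2 := by rcases h7 with rfl | rfl <;> rcases h10 with h10 | h10 <;> nlinarith
    rcases h7 with rfl | rfl <;> interval_cases k <;> omega
  have h13 := h9 (by exact_mod_cast (by rw [h11, h12]; simp : 2 * n + 26 * k = 0))
  have h14 : σ h u = (j : ℚ) • u := by
    have := congrArg ((26 : ℚ) • ·) (sub_eq_zero.mp h13)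
    simp only [smul_smul] at this
    rw [show (26 : ℚ) * (1 / 26) = 1 by norm_num, one_smul, show (26 : ℚ) * (j / 26) = j by ring] at this
    exact this
  rcases h7 with rfl | rfl
  · left; simpa using h14
  · right; left; simpa using h14

theorem Setup.six (S : Setup σ B L g u 3) (h : G) :
    ((1 : ℚ) / 6) • (σ h u - u) ∈ L ∨ ((1 : ℚ) / 6) • (-σ h u - u) ∈ L := by
  obtain ⟨j, k, n, h1, h2, h3, -, -, h6⟩ := S.orb h (-1)
  push_cast at h2 h3 h6
  have h7 : j = 1 ∨ j = -1 := by interval_cases j <;> omega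
  have huu : B u u = 69 := by rw [S.uu]; norm_num
  obtain ⟨i, hi⟩ := S.dual (((1 : ℚ) / 2) • (((1 : ℚ) / 3) • σ h u - ((j : ℚ) / 3) • u)) (fun x hx => by
    obtain ⟨a, ha⟩ := S.lat.int _ h3 x hx
    obtain ⟨k1, hk1⟩ := S.dvd x hx
    obtain ⟨n1, hn1⟩ := S.par hx hk1
    obtain ⟨k2, hk2⟩ := S.dvd _ (S.lat.inv h⁻¹ x hx)
    obtain ⟨n2, hn2⟩ := S.par (S.lat.inv h⁻¹ x hx) hk2
    rw [S.form.inv, hn1] at hn2
    have e1 : 2 * n1 + 3 * k1 = 2 * n2 + 3 * k2 := by exact_mod_cast hn2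
    rw [bq1, map_sub, LinearMap.sub_apply, bq1, bq1, S.form.move, S.form.symm u, S.form.symm u, hk1, hk2]
    rcases h7 with rfl | rfl
    · refine ⟨(k2 - k1) / 2, ?_⟩
      have : ((k2 - k1 : ℤ) : ℚ) = 2 * ((k2 - k1) / 2 : ℤ) := by exact_mod_cast (by omega)
      push_cast at this ⊢; linarith
    · refine ⟨(k2 + k1) / 2, ?_⟩
      have : ((k2 + k1 : ℤ) : ℚ) = 2 * ((k2 + k1) / 2 : ℤ) := by exact_mod_cast (by omega)
      push_cast at this ⊢; linarith)
  generalize hz : ((1 : ℚ) / 3) • σ h u - ((j : ℚ) / 3) • u = z at h3 hi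
  have h8 : (2 * (i : ℚ) / 3) • u ∈ L := by
    have := sub_mem h3 (add_mem hi hi)
    convert this using 1
    push_cast
    module
  obtain ⟨a, ha⟩ := S.dvd _ h8
  rw [bq1, huu] at ha
  have h9 : 46 * i = 3 * a := by apply Int.cast_injective (α := ℚ); push_cast at ha ⊢; linarith
  obtain ⟨t, rfl⟩ : ∃ t, i = 3 * t := ⟨i / 3, by omega⟩
  have h10 : ((1 : ℚ) / 2) • z ∈ L := by
    have := add_mem hi (L.smul_mem t S.uL)
    convert this using 1
    rw [← Int.cast_smul_eq_zsmul ℚ]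
    push_cast
    module
  rw [← hz] at h10
  rcases h7 with rfl | rfl
  · left; convert h10 using 1; push_cast; module
  · right; convert neg_mem h10 using 1; push_cast; module

theorem Setup.no3 (S : Setup σ B L g u 3) (hidx : ∀ K : Subgroup G, K.index ≠ 23 ∧ K.index ≠ 24)
    (m44 : ∀ x ∈ L, ∀ k : ℤ, B x u = 3 * k → 23 * B x x - 3 * k ^ 2 = 0 ∨ 44 ≤ 23 * B x x - 3 * k ^ 2) :
    False := by
  have huu : B u u = 69 := by rw [S.uu]; norm_num
  have h1 : ∀ y, B y y = 69 → ((1 : ℚ) / 6) • (y - u) ∈ L → y = u ∨ B y u = -3 := fun y hy hL => by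
    obtain ⟨k, hk⟩ := S.dvd _ hL
    push_cast at hk
    have h2 := m44 _ hL k hk
    have h3 := S.form.eq_zero (x := ((1 : ℚ) / 6) • (y - u))
    have h4 : B y u = 18 * k + 69 := by
      rw [bq1, map_sub, LinearMap.sub_apply, huu] at hk; linarith
    have h5 : B (((1 : ℚ) / 6) • (y - u)) (((1 : ℚ) / 6) • (y - u)) = -k := by
      simp only [bq1, bq2, map_sub, LinearMap.sub_apply, S.form.symm u y, h4, hy, huu]; ring
    rw [h5] at h2 h3
    have h6 : 23 * -k - 3 * k ^ 2 = 0 ∨ 44 ≤ 23 * -k - 3 * k ^ 2 := by exact_mod_cast h2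
    have h7 : k = 0 ∨ k = -4 := by
      have : -8 ≤ k := by rcases h6 with h6 | h6 <;> nlinarith
      have : k ≤ 0 := by rcases h6 with h6 | h6 <;> nlinarith
      interval_cases k <;> omega
    rcases h7 with rfl | rfl
    · left
      have := h3 (by simp)
      rw [smul_eq_zero] at this
      exact sub_eq_zero.mp (this.resolve_left (by norm_num))
    · right; rw [h4]; norm_num
  refine S.hyp.noSimplex S.form hidx S.u_ne
    {y | (∃ h : G, y = σ h u ∨ y = -σ h u) ∧ ((1 : ℚ) / 6) • (y - u) ∈ L} (fun h => ?_) ?_ ?_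
  · rcases S.six h with e | e
    · exact Or.inl ⟨⟨h, Or.inl rfl⟩, e⟩
    · exact Or.inr ⟨⟨h, Or.inr rfl⟩, e⟩
  · rintro y ⟨⟨h, rfl | rfl⟩, -⟩
    · exact S.form.inv _ _ _
    · simp only [map_neg, LinearMap.neg_apply, neg_neg, S.form.inv]
  · rintro x ⟨hx, hx'⟩ y ⟨⟨h, hy⟩, hy'⟩ hne
    have hxx : B x x = 69 := by
      obtain ⟨h', rfl | rfl⟩ := hx
      · rw [S.form.inv, huu]
      · simp only [map_neg, LinearMap.neg_apply, neg_neg, S.form.inv, huu]
    have h2 := S.lat.inv h⁻¹ _ (sub_mem hx' hy')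
    rw [← smul_sub, sub_sub_sub_cancel_right, map_smul, map_sub] at h2
    rw [huu]
    rcases hy with rfl | rfl
    · rw [act_inv] at h2
      rcases h1 _ (by rw [S.form.inv, hxx]) h2 with e | e
      · exact absurd (by rw [← e, act_inv']) hne
      · rw [S.form.move, inv_inv] at e; rw [e]; norm_num
    · rw [map_neg, act_inv] at h2
      rcases h1 (-σ h⁻¹ x) (by simp only [map_neg, LinearMap.neg_apply, neg_neg, S.form.inv, hxx])
        (by convert neg_mem h2 using 1; module) with e | e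
      · exact absurd (by rw [← e, map_neg, act_inv', neg_neg]) hne
      · rw [map_neg, LinearMap.neg_apply, S.form.move, inv_inv] at e
        rw [map_neg, e]; norm_num

theorem Setup.small (S : Setup σ B L g u d) (hidx : ∀ K : Subgroup G, K.index ≠ 23 ∧ K.index ≠ 24)
    (qr : ∃ s : ZMod 23, (d : ZMod 23) = 6 * s ^ 2) (nr : ∀ x ∈ L, B x u = 0 → B x x ≠ 2)
    (m44 : ∀ x ∈ L, ∀ k : ℤ, B x u = d * k → 23 * B x x - d * k ^ 2 = 0 ∨ 44 ≤ 23 * B x x - d * k ^ 2)
    (e44 : ∃ x ∈ L, ∃ k : ℤ, B x u = d * k ∧ 23 * B x x - d * k ^ 2 = 44)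
    (e92 : ∃ x ∈ L, B x x = 4) : d = 1 ∨ d = 6 := by
  obtain ⟨x, hx, h4⟩ := e92
  obtain ⟨h, hh⟩ := S.hyp.exists_ne S.form (x := x) (fun e => by rw [e] at h4; simp at h4) S.u_ne
  have hy := S.lat.inv h x hx
  have hyy : B (σ h x) (σ h x) = 4 := by rw [S.form.inv, h4]
  obtain ⟨k, hk⟩ := S.dvd _ hy
  obtain ⟨n, hn⟩ := S.par hy hk
  have h1 := m44 _ hy k hk
  rw [hyy] at h1 hn
  have hk0 : k ≠ 0 := fun e => hh (by rw [hk, e]; simp)
  have h2 : 23 * 4 - d * k ^ 2 = 0 ∨ 44 ≤ 23 * 4 - d * k ^ 2 := by exact_mod_cast h1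
  have h3 : 4 = 2 * n + d * k := by exact_mod_cast hn
  have hd := S.d_pos
  have hd' : (1 : ℤ) ≤ d := by exact_mod_cast hd
  have hk1 : 1 ≤ k ^ 2 := by have := sq_pos_of_ne_zero hk0; omega
  have h5 : d ≤ 92 := by
    have : (d : ℤ) ≤ 92 := by rcases h2 with h2 | h2 <;> nlinarith
    exact_mod_cast this
  have h6 : -10 ≤ k := by rcases h2 with h2 | h2 <;> nlinarith
  have h7 : k ≤ 10 := by rcases h2 with h2 | h2 <;> nlinarith
  have hnd := S.nd
  have h8 : (d : ℤ) * k ^ 2 ≤ 48 := by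
    rcases h2 with h2 | h2
    · exfalso; interval_cases k <;> omega
    · omega
  have hs : ¬ 4 ∣ d := fun e => by simpa using S.sq 2 e
  have hs' : ¬ 9 ∣ d := fun e => by simpa using S.sq 3 e
  have hq : d % 23 ∈ [0, 1, 2, 3, 4, 6, 8, 9, 12, 13, 16, 18] := by
    obtain ⟨s, hs⟩ := qr
    have : ∀ s : ZMod 23, (6 * s ^ 2).val ∈ [0, 1, 2, 3, 4, 6, 8, 9, 12, 13, 16, 18] := by decide
    rw [← ZMod.val_natCast, hs]
    exact this s
  simp only [List.mem_cons, List.not_mem_nil, or_false] at hq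
  have h9 : d = 1 ∨ d = 6 ∨ d = 2 ∨ d = 3 ∨ d = 26 := by interval_cases k <;> omega
  rcases h9 with e | e | rfl | rfl | rfl
  · exact Or.inl e
  · exact Or.inr e
  · exact (S.no2 hidx nr (by simpa using m44) (by simpa using e44)).elim
  · exact (S.no3 hidx (by simpa using m44)).elim
  · exact (S.no26 hidx (by simpa using m44)).elim

end Small

end Cfsg.Agent.F23
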