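import Cfsg.Agent.F23.ToP
import Cfsg.Agent.F23.Small
import Cfsg.Agent.F23.Glue
import Cfsg.Agent.F23.PLeech
import Cfsg.Agent.F23.Ext

/-! The embedding into the stabiliser of a vector of the Leech lattice. -/

set_option autoImplicit false
set_option linter.unusedSectionVars false

open Module

namespace Cfsg.Agent.F23

variable {G : Type*} [Group G] {σ : G →* Module.End ℚ V} {B : V →ₗ[ℚ] V →ₗ[ℚ] ℚ} {L : Submodule ℤ V}
  {g : G} {u : V} {d : ℕ}

theorem Setup.fin_act (S : Setup σ B L g u d) (K : Submodule ℤ L) (two : ∀ x : L, (2 : ℤ) • x ∈ K)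
    (inv : ∀ (a : G) (x : L), x ∈ K → (⟨σ a x, S.lat.inv a x x.2⟩ : L) ∈ K) :
    ∃ act : G →* Module.End ℤ K, Function.Injective act ∧ ∀ a x, ((act a x : L) : V) = σ a (x : L) := by
  let act : G →* Module.End ℤ K :=
    { toFun := fun a =>
        { toFun := fun x => ⟨⟨σ a (x : L), S.lat.inv a _ x.1.2⟩, inv a x.1 x.2⟩
          map_add' := fun x y => Subtype.ext (Subtype.ext (by simp))
          map_smul' := fun c x => Subtype.ext (Subtype.ext (map_zsmul (σ a) c _)) }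
      map_one' := LinearMap.ext fun x => Subtype.ext (Subtype.ext (act_one σ _))
      map_mul' := fun a c => LinearMap.ext fun x => Subtype.ext (Subtype.ext (act_mul σ a c _)) }
  refine ⟨act, fun a c e => S.hyp.inj (LinearMap.ext_on S.lat.span fun x hx => ?_), fun _ _ => rfl⟩
  have h1 : σ a ((2 : ℤ) • x) = σ c ((2 : ℤ) • x) :=
    congrArg (fun φ : Module.End ℤ K => ((φ ⟨(2 : ℤ) • ⟨x, hx⟩, two _⟩ : L) : V)) e
  rw [map_zsmul, map_zsmul] at h1
  exact smul_right_injective V two_ne_zero h1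

theorem fin_sq (x : GolayPt → ℤ) : sqNorm x = dotInt x x := by simp [sqNorm, dotInt, sq]

theorem fin_s1 (s : ZMod 23) (hs : -((1 : ℕ) : ZMod 23) = -6 * s ^ 2) :
    ∃ ε : ℤ, ε * ε = 1 ∧ s = 2 * (ε : ZMod 23) := by
  have : s = 2 ∨ s = -2 := by revert s; decide
  rcases this with rfl | rfl
  exacts [⟨1, rfl, by decide⟩, ⟨-1, rfl, by decide⟩]

theorem fin_s6 (s : ZMod 23) (hs : -((6 : ℕ) : ZMod 23) = -6 * s ^ 2) :
    ∃ ε : ℤ, ε * ε = 1 ∧ s = (ε : ZMod 23) := by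
  have : s = 1 ∨ s = -1 := by revert s; decide
  rcases this with rfl | rfl
  exacts [⟨1, rfl, by decide⟩, ⟨-1, rfl, by decide⟩]

theorem Setup.final0 (S : Setup σ B L g u d) (hidx : ∀ K : Subgroup G, K.index ≠ 23 ∧ K.index ≠ 24)
    (hnr : ∀ r ∈ L, B r u = 0 → B r r ≠ 2) :
    (∃ f : G →* Multiplicative (ZMod 2) × Cfsg.Spor.Co2, Function.Injective f) ∨
    (∃ f : G →* Multiplicative (ZMod 2) × Cfsg.Spor.Co3, Function.Injective f) := by
  have : Fact (Nat.Prime 23) := ⟨by norm_num⟩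
  obtain ⟨P, _, _, _, β, χ, γ, π, k, h0, h22, hπ, hk, hχ, hβ⟩ := S.exists_P
  obtain ⟨s, s0, hs⟩ := h0.toD23.norm h22
  have h : PG β ((AddMonoidHom.mulLeft s).comp χ) (-6) γ :=
    ⟨h0.toD23.scale s0 hs, h0.isom, fun x => congrArg (s * ·) (h0.chi x), h0.sum0⟩
  have hχ' : ∀ x, ((AddMonoidHom.mulLeft s).comp χ) (π x) = s * (k x : ZMod 23) := fun x => congrArg (s * ·) (hχ x)
  generalize (AddMonoidHom.mulLeft s).comp χ = χ' at h hχ'
  have kk : ∀ (x : L) (j : ℤ), B x u = d * j → j = k x := fun x j e => by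
    exact_mod_cast mul_left_cancel₀ S.d_ne (e.symm.trans (hk x))
  have ku : k ⟨u, S.uL⟩ = 23 := (kk ⟨u, S.uL⟩ 23 (by rw [S.uu]; push_cast; ring)).symm
  have πu : π ⟨u, S.uL⟩ = 0 := by
    by_contra hn
    have h1 := hβ ⟨u, S.uL⟩ ⟨u, S.uL⟩
    rw [ku, S.uu] at h1
    have h2 : β (π ⟨u, S.uL⟩) (π ⟨u, S.uL⟩) = 0 := by
      have : ((β (π ⟨u, S.uL⟩) (π ⟨u, S.uL⟩) : ℤ) : ℚ) = 0 := by rw [h1]; push_cast; ring
      exact_mod_cast this
    exact (h.pos _ hn).ne' h2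
  have adj : ∀ (y : P) (n : ℤ), χ' y = s * (n : ZMod 23) → ∃ x, π x = y ∧ k x = n := fun y n e => by
    obtain ⟨x, rfl⟩ := hπ y
    obtain ⟨j, hj⟩ := (ZMod.intCast_eq_intCast_iff_dvd_sub _ _ 23).1 (mul_left_cancel₀ s0 ((hχ' x).symm.trans e))
    refine ⟨x + j • ⟨u, S.uL⟩, by rw [map_add, map_smul, πu, smul_zero, add_zero], ?_⟩
    rw [map_add, map_smul, ku, smul_eq_mul]
    push_cast at hj
    linear_combination -hj
  have zero : ∀ y, χ' y = 0 → ∃ x : L, B x u = 0 ∧ ((β y y : ℤ) : ℚ) = 23 * B x x := fun y e => by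
    obtain ⟨x, rfl, hx⟩ := adj y 0 (by simpa using e)
    exact ⟨x, by rw [hk, hx]; simp, by rw [hβ, hx]; simp⟩
  have hr : ∀ y, χ' y = 0 → β y y ≠ 46 := fun y e c => by
    obtain ⟨x, x1, x2⟩ := zero y e
    rw [c] at x2
    exact hnr _ x.2 x1 (by push_cast at x2; linarith)
  obtain ⟨⟨y44, e44⟩, ⟨y92, c92, e92⟩, Φ, Φ1, ΦA, ΦB, huni⟩ := h.leech h22 hr
  have hd : d = 1 ∨ d = 6 := by
    refine S.small hidx ⟨s, by linear_combination -hs⟩ hnr (fun x hx j hj => ?_) ?_ ?_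
    · have e : 23 * B x x - d * (j : ℚ) ^ 2 = (β (π ⟨x, hx⟩) (π ⟨x, hx⟩) : ℤ) := by
        rw [hβ, kk ⟨x, hx⟩ j hj]; ring
      rw [e]
      by_cases c : π ⟨x, hx⟩ = 0
      · left; simp [c]
      · right; exact_mod_cast h.min44 hr c
    · obtain ⟨x, rfl⟩ := hπ y44
      refine ⟨x, x.2, k x, hk x, ?_⟩
      have := hβ x x
      rw [e44] at this
      push_cast at this
      linear_combination -this
    · obtain ⟨x, -, x2⟩ := zero y92 c92
      rw [e92] at x2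
      exact ⟨x, x.2, by push_cast at x2; linarith⟩
  have key : ∀ (K : Submodule ℤ L) (ν : K →ₗ[ℤ] ℤ × ℤ), (∀ x : L, (2 : ℤ) • x ∈ K) →
      (∀ (a : G) (x : L), x ∈ K → (⟨σ a x, S.lat.inv a x x.2⟩ : L) ∈ K) →
      (∀ x : K, s * (k x : ZMod 23) = χN (ν x)) → (∀ x : K, βN (ν x) (ν x) = d * k x * k x) →
      ∃ ι : K →+ leechLattice, Function.Injective ι ∧
        (∀ p : gl χ' χN, (∃ x : K, π x = p.1.1 ∧ ν x = p.1.2) ↔ Φ p ∈ ι.range) ∧
        ∃ act : G →* Module.End ℤ K, Function.Injective act ∧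
          ∀ a x, sqNorm (ι (act a x) : GolayPt → ℤ) = sqNorm (ι x : GolayPt → ℤ) := fun K ν two inv n1 n2 => by
    let ι0 : K →+ gl χ' χN :=
      { toFun := fun x => ⟨(π x, ν x), mem_gl.2 ((hχ' x).trans (n1 x))⟩
        map_zero' := Subtype.ext (by simp)
        map_add' := fun x y => Subtype.ext (by simp) }
    have nn : ∀ x : K, ((sqNorm (Φ (ι0 x) : GolayPt → ℤ) : ℤ) : ℚ) = 8 * B (x : L) (x : L) := fun x => by
      have h1 : 23 * dotInt (Φ (ι0 x) : GolayPt → ℤ) (Φ (ι0 x)) = 8 * (β (π x) (π x) + βN (ν x) (ν x)) := Φ1 _ _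
      have h2 := congrArg (Int.cast : ℤ → ℚ) h1
      rw [n2] at h2
      push_cast at h2
      rw [hβ] at h2
      rw [fin_sq]
      linarith
    obtain ⟨act, a1, a2⟩ := S.fin_act K two inv
    refine ⟨Φ.toAddMonoidHom.comp ι0, (injective_iff_map_eq_zero _).2 fun x hx => ?_, fun p => ⟨?_, ?_⟩, act, a1,
      fun a x => ?_⟩
    · have h1 := nn x
      rw [show Φ (ι0 x) = 0 from hx] at h1
      simp only [sqNorm, ZeroMemClass.coe_zero, Pi.zero_apply] at h1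
      exact Subtype.ext (Subtype.ext (S.form.eq_zero (by simpa using h1)))
    · rintro ⟨x, x1, x2⟩
      exact ⟨x, congrArg Φ (Subtype.ext (Prod.ext x1 x2))⟩
    · rintro ⟨x, hx⟩
      obtain rfl : ι0 x = p := Φ.injective hx
      exact ⟨x, rfl, rfl⟩
    · have h1 := nn (act a x)
      rw [a2, S.form.inv, ← nn] at h1
      exact_mod_cast h1
  rcases hd with rfl | rfl
  · obtain ⟨ε, e1, rfl⟩ := fin_s1 s hs
    let K : Submodule ℤ L := Submodule.comap k (Ideal.span {(2 : ℤ)} : Submodule ℤ ℤ)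
    have mK : ∀ x : L, x ∈ K ↔ 2 ∣ k x := fun x => Ideal.mem_span_singleton
    obtain ⟨ψ, hψ⟩ := top_div (k.comp K.subtype) two_ne_zero fun x => (mK x).1 x.2
    have hψ' : ∀ x : K, k x = 2 * ψ x := hψ
    have q1 : ∀ (a : G) (x : L), x ∈ K → (⟨σ a x, S.lat.inv a x x.2⟩ : L) ∈ K := fun a x hx => by
      obtain ⟨n, hn⟩ := S.par x.2 (hk x)
      obtain ⟨m, hm⟩ := S.par (S.lat.inv a x x.2) (hk ⟨_, S.lat.inv a x x.2⟩)
      rw [S.form.inv, hn] at hm
      have h1 : 2 * n + k x = 2 * m + k ⟨_, S.lat.inv a x x.2⟩ := by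
        simp only [Nat.cast_one, one_mul] at hm
        exact_mod_cast hm
      rw [mK] at hx ⊢
      omega
    have q2 : ∀ x : K, 2 * (ε : ZMod 23) * (k x : ZMod 23) = χN (0, -ε * ψ x) := fun x => by
      rw [χN_apply, hψ']
      push_cast
      ring
    have q3 : ∀ x : K, βN (0, -ε * ψ x) (0, -ε * ψ x) = ((1 : ℕ) : ℤ) * k x * k x := fun x => by
      rw [βN_apply, hψ']
      push_cast
      linear_combination 4 * ψ x * ψ x * e1
    obtain ⟨ι, i1, i2, act, a1, a2⟩ := key K (LinearMap.prod 0 ((-ε) • ψ)) (fun x => by simp [mK]) q1 q2 q3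
    refine Or.inl (extA huni ι i1 (fun w => ?_) act a1 a2)
    obtain ⟨p, rfl⟩ := Φ.surjective w
    rw [← i2, ΦA]
    refine ⟨fun ⟨x, _, x2⟩ => by rw [← x2]; simp, fun e => ?_⟩
    have p1 : p.1.2.1 = 0 := by omega
    obtain ⟨x, x1, x2⟩ := adj p.1.1 (2 * (-ε * p.1.2.2)) (by
      rw [mem_gl.1 p.2, χN_apply, p1]
      have := congrArg (Int.cast : ℤ → ZMod 23) e1
      push_cast at this ⊢
      linear_combination 4 * (p.1.2.2 : ZMod 23) * this)
    have x3 : x ∈ K := (mK x).2 ⟨_, x2⟩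
    refine ⟨⟨x, x3⟩, x1, Prod.ext p1.symm ?_⟩
    have h1 : ψ ⟨x, x3⟩ = -ε * p.1.2.2 := mul_left_cancel₀ two_ne_zero ((hψ' ⟨x, x3⟩).symm.trans x2)
    show -ε * ψ ⟨x, x3⟩ = _
    rw [h1]
    linear_combination p.1.2.2 * e1
  · obtain ⟨ε, e1, rfl⟩ := fin_s6 s hs
    have q2 : ∀ x : L, (ε : ZMod 23) * (k x : ZMod 23) = χN (ε * k x, 0) := fun x => by
      rw [χN_apply]
      push_cast
      simp
    have q3 : ∀ x : L, βN (ε * k x, 0) (ε * k x, 0) = ((6 : ℕ) : ℤ) * k x * k x := fun x => by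
      rw [βN_apply]
      push_cast
      linear_combination 6 * k x * k x * e1
    obtain ⟨ι, i1, i2, act, a1, a2⟩ := key ⊤ (LinearMap.prod (ε • k.comp (Submodule.subtype ⊤)) 0) (fun _ => trivial)
      (fun _ _ _ => trivial) (fun x => q2 x) fun x => q3 x
    refine Or.inr (extB huni ι i1 (fun w => ?_) act a1 a2)
    obtain ⟨p, rfl⟩ := Φ.surjective w
    rw [← i2, ΦB]
    refine ⟨fun ⟨x, _, x2⟩ => by rw [← x2]; simp, fun e => ?_⟩
    have p1 : p.1.2.2 = 0 := by omega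
    obtain ⟨x, x1, x2⟩ := adj p.1.1 (ε * p.1.2.1) (by
      rw [mem_gl.1 p.2, χN_apply, p1]
      have := congrArg (Int.cast : ℤ → ZMod 23) e1
      push_cast at this ⊢
      linear_combination -(p.1.2.1 : ZMod 23) * this)
    refine ⟨⟨x, trivial⟩, x1, Prod.ext ?_ p1.symm⟩
    show ε * k x = _
    rw [x2]
    linear_combination p.1.2.1 * e1

end Cfsg.Agent.F23
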