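import Cfsg.Agent.F23.Defs

/-! An isometry of order 23 acts trivially on a small discriminant group. -/

set_option autoImplicit false
open Module Matrix
namespace Cfsg.Agent.F23

theorem fpf_skew (M : Matrix (Fin 11) (Fin 11) ℤ) (h : ∀ i j, M j i = -M i j) : M.det = 0 := by
  have h1 : Mᵀ = -M := by ext i j; simp only [Matrix.transpose_apply, Matrix.neg_apply, h i j]
  have h2 := Matrix.det_transpose M
  rw [h1, Matrix.det_neg, Fintype.card_fin] at h2
  norm_num at h2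
  omega

theorem fpf_num0 : ∀ l : ℕ, l < 23 → ∀ r : ℕ, r < 12 → ∀ r0 : ℕ, r0 < 12 → l = 0 ∨ l = 1 ∨ l = 22 ∨ r < r0 ∨
    l ^ r % 23 ≠ l ^ r0 % 23 ∨ r = r0 ∨ (r = 11 ∧ r0 = 0) := by
  intro l hl
  interval_cases l <;> decide +kernel

theorem fpf_num (l : ℕ) (h : l < 23) (h0 : l ≠ 0) (h1 : l ≠ 1) (h22 : l ≠ 22) (r : ℕ)
    (hr : r ≤ 11) (r0 : ℕ) (hr0 : r0 ≤ r) (he : l ^ r % 23 = l ^ r0 % 23) :
    r = r0 ∨ (r = 11 ∧ r0 = 0) := by
  have := fpf_num0 l h r (by omega) r0 (by omega)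
  omega

theorem fpf_core {ℓ : ℕ} [Fact ℓ.Prime] (h23 : ℓ < 23) {Q : Type*} [AddCommGroup Q]
    {A : Type*} [AddCommGroup A] [Module (ZMod ℓ) A] [Finite A] (π : Q →+ A)
    (hπ : Function.Surjective π)
    (β : Q →ₗ[ℤ] Q →ₗ[ℤ] ℤ) (hs : ∀ x y, β x y = β y x)
    (hN : ∀ x, π x = 0 ↔ ∀ y, (ℓ : ℤ) ∣ β x y)
    (h11 : Nat.card A ^ 2 ≤ ℓ ^ 23) (γ : Module.End ℤ Q)
    (hγ : ∀ x y, β (γ x) (γ y) = β x y) (h1 : γ ^ 23 = 1) (g : Module.End (ZMod ℓ) A)
    (hg : ∀ x, g (π x) = π (γ x)) (x : Q) : π (γ x) = π x := by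
  classical
  have hℓ : ℓ.Prime := Fact.out
  have : Fact (Nat.Prime 23) := ⟨by norm_num⟩
  have hpow : ∀ (j : ℕ) x y, β ((γ ^ j) x) ((γ ^ j) y) = β x y := by
    intro j x y
    induction j with
    | zero => rfl
    | succ j ih => rw [pow_succ', Module.End.mul_apply, Module.End.mul_apply, hγ, ih]
  have hmove : ∀ x y, β (γ x) y = β x ((γ ^ 22) y) := by
    intro x y
    rw [← hpow 22, ← Module.End.mul_apply, ← pow_succ, h1, Module.End.one_apply]
  let _ : Fintype A := Fintype.ofFinite _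
  have hgp : ∀ (j : ℕ) (x : Q), (g ^ j) (π x) = π ((γ ^ j) x) := by
    intro j x
    induction j with
    | zero => rfl
    | succ j ih => rw [pow_succ', pow_succ', Module.End.mul_apply, Module.End.mul_apply, ih, hg]
  have hg23 : g ^ 23 = 1 := by
    ext1 a
    obtain ⟨x, rfl⟩ := hπ a
    rw [hgp, h1]; rfl
  let K : Submodule (ZMod ℓ) A := LinearMap.ker (g - 1)
  have hK : ∀ a, a ∈ K ↔ g a = a := by
    intro a
    simp only [K, LinearMap.mem_ker, LinearMap.sub_apply, Module.End.one_apply, sub_eq_zero]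
  have c1 : Nat.card A = ℓ ^ finrank (ZMod ℓ) A := by
    rw [Module.natCard_eq_pow_finrank (K := ZMod ℓ), Nat.card_zmod]
  have c2 : Nat.card K = ℓ ^ finrank (ZMod ℓ) K := by
    rw [Module.natCard_eq_pow_finrank (K := ZMod ℓ), Nat.card_zmod]
  have c3 : finrank (ZMod ℓ) A ≤ 11 := by
    rw [c1, ← pow_mul] at h11
    have := (Nat.pow_le_pow_iff_right hℓ.one_lt).mp h11
    omega
  have c4 : Nat.card A ≡ Nat.card K [MOD 23] := by
    have hf : (show Function.End A from fun a => g a) ^ 23 ^ 1 = 1 := by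
      funext a
      rw [pow_one]
      have h2 : ∀ j : ℕ, ((show Function.End A from fun a => g a) ^ j) a = (g ^ j) a := by
        intro j
        induction j with
        | zero => rfl
        | succ j ih =>
          rw [pow_succ', pow_succ', Module.End.mul_apply, ← ih]; rfl
      rw [h2, hg23]; rfl
    have := Equiv.Perm.card_fixedPoints_modEq hf
    rw [← Nat.card_eq_fintype_card, ← Nat.card_eq_fintype_card] at this
    convert this using 1
    exact Nat.card_congr (Equiv.subtypeEquivRight fun a => hK a)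
  rw [c1, c2] at c4
  have h22 : ℓ ≠ 22 := by rintro rfl; norm_num at hℓ
  rcases fpf_num ℓ h23 hℓ.ne_zero hℓ.ne_one h22 _ c3 _ (Submodule.finrank_le K) c4 with hr | ⟨hr, hr0⟩
  · have hKt : K = ⊤ := Submodule.eq_top_of_finrank_eq hr.symm
    have := (hK (π x)).mp (hKt ▸ Submodule.mem_top)
    rwa [hg] at this
  exfalso
  have hKb : K = ⊥ := Submodule.finrank_eq_zero.mp hr0
  let e : Basis (Fin 11) (ZMod ℓ) A := Module.finBasisOfFinrankEq _ _ hr
  choose q hq using fun i => hπ (e i)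
  let M : Matrix (Fin 11) (Fin 11) ℤ := fun i j => β (γ (q i) - (γ ^ 22) (q i)) (q j)
  have hM : M.det = 0 := fpf_skew M fun i j => by
    simp only [M, map_sub, LinearMap.sub_apply]
    rw [hmove (q j), hmove (q i), hs ((γ ^ 22) (q j)), hs ((γ ^ 22) (q i))]
    ring
  have hM' : (M.map (Int.castRingHom (ZMod ℓ))).det = 0 := by
    rw [← RingHom.mapMatrix_apply, ← RingHom.map_det, hM, map_zero]
  obtain ⟨v, hv0, hv⟩ := Matrix.exists_vecMul_eq_zero_iff.mpr hM'
  have hlift : ∀ c : Fin 11 → ZMod ℓ,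
      π (∑ i, (c i).val • q i) = ∑ i, c i • e i := by
    intro c
    rw [map_sum]
    refine Finset.sum_congr rfl fun i _ => ?_
    rw [map_nsmul, hq, ← Nat.cast_smul_eq_nsmul (ZMod ℓ), ZMod.natCast_zmod_val]
  set z : Q := ∑ i, (v i).val • q i with hz
  have hzq : ∀ j, (ℓ : ℤ) ∣ β (γ z - (γ ^ 22) z) (q j) := by
    intro j
    rw [← ZMod.intCast_zmod_eq_zero_iff_dvd]
    have h2 := congrFun hv j
    simp only [Matrix.vecMul, dotProduct, Matrix.map_apply, Pi.zero_apply, eq_intCast] at h2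
    rw [← h2, hz, map_sum, map_sum, ← Finset.sum_sub_distrib, map_sum, LinearMap.sum_apply,
      Int.cast_sum]
    refine Finset.sum_congr rfl fun i _ => ?_
    rw [map_nsmul, map_nsmul, ← smul_sub, map_nsmul, LinearMap.smul_apply, nsmul_eq_mul,
      Int.cast_mul, Int.cast_natCast, ZMod.natCast_zmod_val]
  have hzN : π (γ z - (γ ^ 22) z) = 0 := by
    rw [hN]
    intro y
    have h2 : π (y - ∑ i, (e.repr (π y) i).val • q i) = 0 := by
      rw [map_sub, hlift, e.sum_repr, sub_self]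
    have h3 := (hN _).mp h2 (γ z - (γ ^ 22) z)
    rw [hs, map_sub (β (γ z - (γ ^ 22) z)), map_sum (β (γ z - (γ ^ 22) z))] at h3
    have h4 : (ℓ : ℤ) ∣ ∑ i, β (γ z - (γ ^ 22) z) ((e.repr (π y) i).val • q i) :=
      Finset.dvd_sum fun i _ => by
        rw [map_nsmul, nsmul_eq_mul]
        exact (hzq i).mul_left _
    have h5 := h3.add h4
    rwa [sub_add_cancel] at h5
  rw [map_sub, sub_eq_zero, ← hg, ← hgp] at hzN
  have h2 : (g ^ 2) (π z) = π z := by
    rw [sq, Module.End.mul_apply, hzN, ← Module.End.mul_apply, ← pow_succ', hg23]; rfl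
  have h3 : ∀ j : ℕ, ((g ^ 2) ^ j) (π z) = π z := by
    intro j
    induction j with
    | zero => rfl
    | succ j ih => rw [pow_succ, Module.End.mul_apply, h2, ih]
  have h4 := h3 12
  rw [← pow_mul, show 2 * 12 = 23 + 1 from rfl, pow_succ, hg23, one_mul, ← hK, hKb,
    Submodule.mem_bot, hz, hlift] at h4
  exact hv0 (funext fun i => Fintype.linearIndependent_iff.mp e.linearIndependent v h4 i)

theorem fpf {ℓ : ℕ} (hℓ : ℓ.Prime) (h23 : ℓ < 23) {Q : Type*} [AddCommGroup Q] (N : AddSubgroup Q)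
    (β : Q →ₗ[ℤ] Q →ₗ[ℤ] ℤ) (hs : ∀ x y, β x y = β y x) (hN : ∀ x, x ∈ N ↔ ∀ y, (ℓ : ℤ) ∣ β x y)
    (h0 : N.index ≠ 0) (h11 : N.index ^ 2 ≤ ℓ ^ 23) (γ : Module.End ℤ Q)
    (hγ : ∀ x y, β (γ x) (γ y) = β x y) (h1 : γ ^ 23 = 1) (x : Q) : γ x - x ∈ N := by
  classical
  have : Fact ℓ.Prime := ⟨hℓ⟩
  have : Fact (Nat.Prime 23) := ⟨by norm_num⟩
  have hpow : ∀ (j : ℕ) x y, β ((γ ^ j) x) ((γ ^ j) y) = β x y := by
    intro j x y
    induction j with
    | zero => rfl
    | succ j ih => rw [pow_succ', Module.End.mul_apply, Module.End.mul_apply, hγ, ih]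
  have hmove : ∀ x y, β (γ x) y = β x ((γ ^ 22) y) := by
    intro x y
    rw [← hpow 22, ← Module.End.mul_apply, ← pow_succ, h1, Module.End.one_apply]
  have hℓN : ∀ x : Q, ℓ • x ∈ N := by
    intro x
    rw [hN]
    intro y
    rw [map_nsmul, LinearMap.smul_apply, nsmul_eq_mul]
    exact Dvd.intro _ rfl
  have hγN : N ≤ N.comap γ.toAddMonoidHom := by
    intro x hx
    rw [AddSubgroup.mem_comap, hN]
    intro y
    rw [LinearMap.toAddMonoidHom_coe, hmove]
    exact (hN x).mp hx _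
  let _ : Module (ZMod ℓ) (Q ⧸ N) := QuotientAddGroup.zmodModule hℓN
  have : Finite (Q ⧸ N) := Nat.finite_of_card_ne_zero h0
  have := fpf_core h23 (QuotientAddGroup.mk' N) (QuotientAddGroup.mk'_surjective N) β hs
    (fun x => by rw [← hN, QuotientAddGroup.mk'_apply, QuotientAddGroup.eq_zero_iff]) h11 γ hγ h1
    ((QuotientAddGroup.map N N γ.toAddMonoidHom hγN).toZModLinearMap ℓ) (fun x => rfl) x
  exact QuotientAddGroup.eq_iff_sub_mem.mp this

end Cfsg.Agent.F23
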