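import Cfsg.Agent.F23.Dual

/-! An invariant lattice of least discriminant. -/

set_option autoImplicit false

open Module

namespace Cfsg.Agent.F23

variable {G : Type*} [Group G] {σ : G →* Module.End ℚ V} {B : V →ₗ[ℚ] V →ₗ[ℚ] ℚ} {L : Submodule ℤ V}

theorem min_exists_form [Finite G] (σ : G →* Module.End ℚ V) : ∃ B, Form σ B := by
  have := Fintype.ofFinite G
  refine ⟨∑ k : G, (dotProductBilin ℚ ℚ).compl₁₂ (σ k) (σ k), ?_, ?_, ?_⟩
  · intro x y
    simp only [LinearMap.sum_apply, LinearMap.compl₁₂_apply, dotProductBilin_apply_apply]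
    exact Finset.sum_congr rfl fun k _ => dotProduct_comm _ _
  · intro x hx
    simp only [LinearMap.sum_apply, LinearMap.compl₁₂_apply, dotProductBilin_apply_apply]
    refine Finset.sum_pos' (fun k _ => Finset.sum_nonneg fun i _ => mul_self_nonneg _) ⟨1, Finset.mem_univ _, ?_⟩
    rw [map_one, Module.End.one_apply]
    obtain ⟨i, hi⟩ := Function.ne_iff.mp hx
    exact Finset.sum_pos' (fun i _ => mul_self_nonneg _) ⟨i, Finset.mem_univ _, mul_self_pos.mpr hi⟩
  · intro g x y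
    simp only [LinearMap.sum_apply, LinearMap.compl₁₂_apply, dotProductBilin_apply_apply]
    refine Fintype.sum_equiv (Equiv.mulRight g) _ _ fun k => ?_
    simp only [Equiv.coe_mulRight, map_mul, Module.End.mul_apply]

theorem Form.smul (hB : Form σ B) {c : ℚ} (hc : 0 < c) : Form σ (c • B) :=
  ⟨fun x y => by simp only [LinearMap.smul_apply, hB.symm x y],
    fun x hx => by simpa only [LinearMap.smul_apply, smul_eq_mul] using mul_pos hc (hB.pos x hx),
    fun g x y => by simp only [LinearMap.smul_apply, hB.inv]⟩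

theorem gram_smul (B : V →ₗ[ℚ] V →ₗ[ℚ] ℚ) (c : ℚ) (b : Basis (Fin 23) ℚ V) :
    (Matrix.of fun i j => (c • B) (b i) (b j)).det = c ^ 23 * (Matrix.of fun i j => B (b i) (b j)).det := by
  have e : (Matrix.of fun i j => (c • B) (b i) (b j)) = c • Matrix.of fun i j => B (b i) (b j) := by
    ext i j; simp
  rw [e, Matrix.det_smul, Fintype.card_fin]

theorem int_of_span (B : V →ₗ[ℚ] V →ₗ[ℚ] ℚ) {s : Set V} (h : ∀ x ∈ s, ∀ y ∈ s, ∃ n : ℤ, B x y = n) :
    ∀ x ∈ Submodule.span ℤ s, ∀ y ∈ Submodule.span ℤ s, ∃ n : ℤ, B x y = n := by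
  refine fun x hx => (Submodule.span_le (p := dual B (Submodule.span ℤ s))).mpr (fun x hx => ?_) hx
  exact fun y hy => (Submodule.span_le (p := dual B.flip (Submodule.span ℤ {x}))).mpr
    (fun y hy z hz => by
      obtain ⟨a, rfl⟩ := Submodule.mem_span_singleton.mp hz
      obtain ⟨n, hn⟩ := h x hx y hy
      exact ⟨a * n, by rw [map_zsmul, LinearMap.flip_apply, hn, zsmul_eq_mul, Int.cast_mul]⟩)
    hy x (Submodule.mem_span_singleton_self x)

theorem exists_lat [Finite G] (σ : G →* Module.End ℚ V) : ∃ B L, Form σ B ∧ Lat σ B L := by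
  classical
  have := Fintype.ofFinite G
  obtain ⟨B, hB⟩ := min_exists_form σ
  let s : Finset V := Finset.univ.image fun p : G × Fin 23 => σ p.1 (Pi.single p.2 1)
  let N : ℕ := ∏ p ∈ s ×ˢ s, (B p.1 p.2).den
  refine ⟨(N : ℚ) • B, Submodule.span ℤ s, hB.smul (Nat.cast_pos.mpr (Finset.prod_pos fun p _ => Rat.den_pos _)),
    ⟨s, rfl⟩, ?_, ?_, int_of_span _ fun x hx y hy => ?_⟩
  · rw [eq_top_iff, ← (Pi.basisFun ℚ (Fin 23)).span_eq, Submodule.span_le]
    rintro _ ⟨i, rfl⟩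
    refine Submodule.subset_span (Submodule.subset_span ?_)
    exact Finset.mem_image.mpr ⟨(1, i), Finset.mem_univ _, by simp⟩
  · intro g x hx
    induction hx using Submodule.span_induction with
    | mem x hx =>
      obtain ⟨p, -, rfl⟩ := Finset.mem_image.mp hx
      exact Submodule.subset_span (Finset.mem_image.mpr ⟨(g * p.1, p.2), Finset.mem_univ _, by simp⟩)
    | zero => simp
    | add x y _ _ hx hy => rw [map_add]; exact add_mem hx hy
    | smul a x _ hx => rw [map_zsmul]; exact Submodule.smul_mem _ _ hx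
  · obtain ⟨m, hm⟩ : (B x y).den ∣ N :=
      Finset.dvd_prod_of_mem (fun p : V × V => (B p.1 p.2).den) (Finset.mk_mem_product hx hy)
    refine ⟨m * (B x y).num, ?_⟩
    rw [hm, LinearMap.smul_apply, LinearMap.smul_apply, smul_eq_mul]
    push_cast
    rw [← Rat.mul_den_eq_num]
    ring

theorem Lat.gram_nat (hL : Lat σ B L) (hB : Form σ B) {b : Basis (Fin 23) ℚ V}
    (hb : L = Submodule.span ℤ (Set.range b)) : ∃ m : ℕ, (Matrix.of fun i j => B (b i) (b j)).det = m := by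
  have h1 : ∀ i, b i ∈ L := fun i => hb ▸ Submodule.subset_span ⟨i, rfl⟩
  choose f hf using fun i j => hL.int _ (h1 i) _ (h1 j)
  have e : (Matrix.of fun i j => B (b i) (b j)).det = ((Matrix.of f).det : ℚ) := by
    rw [Int.cast_det]; congr 1; ext i j; simp [hf]
  have h2 := hB.gram_pos b
  rw [e] at h2 ⊢
  obtain ⟨m, hm⟩ := Int.eq_ofNat_of_zero_le (Int.cast_pos.mp h2).le
  exact ⟨m, by rw [hm, Int.cast_natCast]⟩

theorem Lat.le_dual (hL : Lat σ B L) : L ≤ dual B L := fun x hx y hy => hL.int x hx y hy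

theorem Lat.le_part (hL : Lat σ B L) (ℓ : ℕ) : L ≤ part B L ℓ :=
  fun _ hx => mem_part.mpr ⟨hL.le_dual hx, L.smul_mem _ hx⟩

theorem Lat.span_of_le (hL : Lat σ B L) {M : Submodule ℤ V} (h : L ≤ M) : Submodule.span ℚ (M : Set V) = ⊤ :=
  eq_top_iff.mpr (hL.span.ge.trans (Submodule.span_mono h))

theorem Lat.part_lat (hL : Lat σ B L) (hB : Form σ B) (ℓ : ℕ) : Lat σ ((ℓ : ℚ) • B) (part B L ℓ) := by
  refine ⟨?_, hL.span_of_le (hL.le_part ℓ), fun g x hx => ?_, fun x hx y hy => ?_⟩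
  · have := isNoetherian_of_fg_of_noetherian _ (hL.dual_fg hB)
    exact isNoetherian_submodule.mp this _ inf_le_left
  · refine mem_part.mpr ⟨hL.dual_inv hB g hx.1, ?_⟩
    rw [← map_zsmul]
    exact hL.inv g _ (mem_part.mp hx).2
  · obtain ⟨n, hn⟩ := hx.1 _ (mem_part.mp hy).2
    exact ⟨n, by rw [← hn, map_zsmul]; simp⟩

theorem exists_min {G : Type*} [Group G] [Finite G] (σ : G →* Module.End ℚ V) :
    ∃ B L n, MinLat σ B L n := by
  classical
  have hex : ∃ m : ℕ, ∃ B L, ∃ b : Basis (Fin 23) ℚ V, Form σ B ∧ Lat σ B L ∧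
      L = Submodule.span ℤ (Set.range b) ∧ (Matrix.of fun i j => B (b i) (b j)).det = m := by
    obtain ⟨B, L, hB, hL⟩ := exists_lat σ
    obtain ⟨b, hb⟩ := exists_basis hL.fg hL.span
    obtain ⟨m, hm⟩ := hL.gram_nat hB hb
    exact ⟨m, B, L, b, hB, hL, hb, hm⟩
  obtain ⟨B, L, b, hB, hL, hb, hm⟩ := Nat.find_spec hex
  have hmin : ∀ B' L' (b' : Basis (Fin 23) ℚ V), Form σ B' → Lat σ B' L' → L' = Submodule.span ℤ (Set.range b') →
      (Matrix.of fun i j => B (b i) (b j)).det ≤ (Matrix.of fun i j => B' (b' i) (b' j)).det := by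
    intro B' L' b' hB' hL' hb'
    obtain ⟨m, hm'⟩ := hL'.gram_nat hB' hb'
    rw [hm, hm', Nat.cast_le]
    exact Nat.find_min' hex ⟨B', L', b', hB', hL', hb', hm'⟩
  have hk := hL.exists_kill hB
  obtain ⟨hn0, hn⟩ := Nat.find_spec hk
  have hnm : ∀ m ℓ, ℓ.Prime → Nat.find hk = ℓ * m → ¬ ∀ z ∈ dual B L, (m : ℤ) • z ∈ L := fun m ℓ hℓ e h => by
    have h0 : 0 < m := Nat.pos_of_mul_pos_left (e ▸ hn0)
    exact Nat.find_min hk (e ▸ lt_mul_of_one_lt_left h0 hℓ.one_lt) ⟨h0, h⟩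
  refine ⟨B, L, Nat.find hk, hB, hL, Nat.squarefree_iff_prime_squarefree.mpr fun ℓ hℓ ⟨m, e⟩ => ?_, hn,
    fun ℓ hℓ ⟨m, e⟩ => ?_, fun ℓ hℓ => ?_, fun ℓ hℓ => ?_⟩
  · rw [mul_assoc] at e
    let L' : Submodule ℤ V := L ⊔ (dual B L).map (LinearMap.lsmul ℤ V ((ℓ * m : ℕ) : ℤ))
    have hL' : Lat σ B L' := by
      refine ⟨hL.fg.sup ((hL.dual_fg hB).map _), hL.span_of_le le_sup_left, fun g x' hx' => ?_, fun x' hx' y' hy' => ?_⟩
      · obtain ⟨x, hx, _, ⟨z, hz, rfl⟩, rfl⟩ := Submodule.mem_sup.mp hx'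
        rw [map_add]
        refine Submodule.add_mem_sup (hL.inv g x hx) ⟨σ g z, hL.dual_inv hB g hz, ?_⟩
        simp only [LinearMap.lsmul_apply, map_zsmul]
      · obtain ⟨x, hx, _, ⟨z, hz, rfl⟩, rfl⟩ := Submodule.mem_sup.mp hx'
        obtain ⟨y, hy, _, ⟨w, hw, rfl⟩, rfl⟩ := Submodule.mem_sup.mp hy'
        obtain ⟨n1, h1⟩ := hL.int x hx y hy
        obtain ⟨n2, h2⟩ := hw x hx
        obtain ⟨n3, h3⟩ := hz y hy
        obtain ⟨n4, h4⟩ := hz _ (hn w hw)
        rw [e, map_zsmul, zsmul_eq_mul] at h4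
        refine ⟨n1 + ℓ * m * n2 + ℓ * m * n3 + m * n4, ?_⟩
        simp only [LinearMap.lsmul_apply, map_add, map_zsmul, LinearMap.add_apply, LinearMap.smul_apply]
        rw [h1, hB.symm x w, h2, h3]
        simp only [zsmul_eq_mul]
        push_cast at h4 ⊢
        rw [← h4]
        ring
    obtain ⟨b', hb'⟩ := exists_basis hL'.fg hL'.span
    obtain ⟨h1, h2⟩ := gram_index B b b' (by rw [← hb, ← hb']; exact le_sup_left)
    have h3 := hmin B L' b' hB hL' hb'
    rw [h2, ← hb, ← hb'] at h3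
    rw [← hb, ← hb'] at h1
    have h4 : L.toAddSubgroup.relIndex L'.toAddSubgroup = 1 := by
      have h5 := (mul_le_iff_le_one_left (hB.gram_pos b')).mp h3
      have h6 : L.toAddSubgroup.relIndex L'.toAddSubgroup ^ 2 ≤ 1 := by exact_mod_cast h5
      by_contra h7
      have : 2 ≤ L.toAddSubgroup.relIndex L'.toAddSubgroup := by omega
      nlinarith
    exact hnm (ℓ * m) ℓ hℓ e fun z hz =>
      AddSubgroup.relIndex_eq_one.mp h4 (Submodule.mem_sup_right ⟨z, hz, rfl⟩ : _ ∈ L')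
  · by_contra hc
    push Not at hc
    refine hnm m ℓ hℓ e fun z hz => hc _ (mem_part.mpr ⟨Submodule.smul_mem _ _ hz, ?_⟩)
    rw [← mul_smul, ← Nat.cast_mul, ← e]
    exact hn z hz
  · have hL' := hL.part_lat hB ℓ
    obtain ⟨b', hb'⟩ := exists_basis hL'.fg hL'.span
    obtain ⟨h1, h2⟩ := gram_index B b b' (by rw [← hb, ← hb']; exact hL.le_part ℓ)
    have h3 := hmin _ _ b' (hB.smul (Nat.cast_pos.mpr hℓ.pos)) hL' hb'
    rw [h2, gram_smul, ← hb, ← hb'] at h3
    rw [← hb, ← hb'] at h1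
    exact ⟨h1, by exact_mod_cast le_of_mul_le_mul_right h3 (hB.gram_pos b')⟩
  · by_contra hc
    push Not at hc
    have h0 : (1 : ℚ) < ℓ := Nat.one_lt_cast.mpr hℓ.one_lt
    have h3 := hmin ((ℓ : ℚ)⁻¹ • B) L b (hB.smul (by positivity)) ⟨hL.fg, hL.span, hL.inv, fun x hx y hy => by
      obtain ⟨m, hm⟩ := hc x hx y hy
      exact ⟨m, by rw [LinearMap.smul_apply, LinearMap.smul_apply, hm, smul_eq_mul]; field_simp⟩⟩ hb
    rw [gram_smul] at h3
    exact absurd ((le_mul_iff_one_le_left (hB.gram_pos b)).mp h3)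
      (not_le.mpr (pow_lt_one₀ (by positivity) (inv_lt_one_of_one_lt₀ h0) (by norm_num)))

end Cfsg.Agent.F23
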