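import Cfsg.Agent.F23.Basic
import Cfsg.Agent.F23.Cyc

/-! A root orthogonal to the fixed vector gives the weights of `A₂₂`. -/

set_option autoImplicit false

namespace Cfsg.Agent.F23

open Finset

variable {G : Type*} [Group G] {σ : G →* Module.End ℚ V} {B : V →ₗ[ℚ] V →ₗ[ℚ] ℚ} {L : Submodule ℤ V}
  {g : G} {u : V} {d : ℕ}

def omA (t : ZMod 23) : ℤ := if t = 0 then 2 else if t = 1 ∨ t = -1 then -1 else 0

def omC (i m : ZMod 23) : ℤ := -(m.val : ℤ) - if m.val < i.val then 23 else 0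

def omD (i n : ZMod 23) : ℤ := (if i = n then 1 else 0) - if i = n + 1 then 1 else 0

theorem om_CA : ∀ i n : ZMod 23, ∑ m, omC i m * omA (m - n) = 23 * omD i n := by decide +kernel

theorem om_CD : ∀ i j : ZMod 23, ∑ n, omC j n * omD i n = (if i = j then 23 else 0) - 1 := by
  decide +kernel

theorem om_two : ¬ (2 : ZMod 23) = 0 := by decide

theorem om_CC (i j m : ZMod 23) : ∃ e : ℤ, omC i m - omC j m = 23 * e := by
  unfold omC
  split_ifs
  exacts [⟨0, by ring⟩, ⟨-1, by ring⟩, ⟨1, by ring⟩, ⟨0, by ring⟩]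

theorem Setup.om_mod (S : Setup σ B L g u d) (n : ℕ) : σ (g ^ (n % 23)) = σ (g ^ n) := by
  conv_rhs => rw [← Nat.mod_add_div n 23, pow_add, pow_mul, map_mul, map_pow σ (g ^ 23), S.pow23,
    one_pow, mul_one]

theorem Setup.om_roots (S : Setup σ B L g u d) {r : V} (hr : r ∈ L) (hu : B r u = 0) (h2 : B r r = 2) :
    ∃ ρ : ZMod 23 → V, (∀ i, ρ i ∈ L) ∧ (∀ i, B (ρ i) u = 0) ∧
      ∀ i j, B (ρ i) (ρ j) = omA (i - j) := by
  have : Fact (Nat.Prime 23) := ⟨by norm_num⟩
  set ρ : ZMod 23 → V := fun j => σ (g ^ j.val) r with hρ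
  have hadd : ∀ i j, ρ (i + j) = σ (g ^ i.val) (ρ j) := fun i j => by
    simp only [hρ]
    rw [ZMod.val_add, S.om_mod, pow_add, act_mul]
  have h0 : ρ 0 = r := by simp [hρ]
  have hL : ∀ i, ρ i ∈ L := fun i => S.lat.inv _ _ hr
  have hU : ∀ i, B (ρ i) u = 0 := fun i => by
    simp only [hρ]
    rw [← S.gpow i.val, S.form.inv, hu]
  choose a ha using fun i => S.lat.int _ (hL i) _ hr
  have hB : ∀ i j, B (ρ i) (ρ j) = a (i - j) := fun i j => by
    have h1 := hadd j (i - j)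
    have h3 := hadd j 0
    rw [add_sub_cancel] at h1
    rw [add_zero, h0] at h3
    rw [h1, h3, S.form.inv, ha]
  have hsum : ∑ j, ρ j = 0 := by
    rw [← S.sum0 r hu, sum_range]
    rfl
  have a0 : a 0 = 2 := by exact_mod_cast (ha 0).symm.trans (show _ = (2 : ℚ) by rw [h0, h2])
  have hne : ∀ j, j ≠ 0 → ρ j ≠ r := fun j hj e => by
    have h1 : ∀ n : ℕ, ρ (n * j) = r := fun n => by
      induction n with
      | zero => simpa using h0
      | succ n ih => rw [Nat.cast_succ, add_mul, one_mul, add_comm, hadd, ih]; exact e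
    have h3 : ∀ i, ρ i = r := fun i => by
      rw [← h1 (i * j⁻¹).val, ZMod.natCast_zmod_val, mul_assoc, inv_mul_cancel₀ hj, mul_one]
    have h4 := congrArg (B r) hsum
    rw [map_sum, sum_congr rfl fun i _ => by rw [h3 i, h2], map_zero] at h4
    simp at h4
  have hs : ∀ j, a (-j) = a j := fun j => by
    have h1 := hB 0 j
    rw [S.form.symm, hB, sub_zero, zero_sub] at h1
    exact_mod_cast h1.symm
  refine (cyc a a0 hs (fun j hj => ?_) ?_ (fun v => ?_)).elim fun s ⟨hs0, hs1⟩ => ?_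
  rotate_right
  · refine ⟨fun i => ρ (s * i), fun i => hL _, fun i => hU _, fun i j => ?_⟩
    rw [hB, ← mul_sub]
    congr 1
    unfold omA
    by_cases h : i - j = 0
    · rw [h, mul_zero, a0, if_pos rfl]
    · rw [hs1 _ (mul_ne_zero hs0 h), if_neg h]
      refine if_congr (or_congr ?_ ?_) rfl rfl
      · exact mul_eq_left₀ hs0
      · rw [← neg_eq_iff_eq_neg, ← neg_eq_iff_eq_neg (a := i - j), ← mul_neg]
        exact mul_eq_left₀ hs0
  · have h1 := S.form.pos (ρ j - r) (sub_ne_zero.2 (hne j hj))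
    have h3 := S.form.pos (ρ j + r) fun e => hne (j + j) (fun e' => hj (by
      rw [← two_mul] at e'
      exact (mul_eq_zero.1 e').resolve_left om_two)) (by
      rw [hadd, eq_neg_of_add_eq_zero_left e, map_neg]
      exact neg_eq_iff_eq_neg.2 (eq_neg_of_add_eq_zero_left e))
    have h4 := hB j j
    rw [sub_self, a0] at h4
    simp only [map_sub, map_add, LinearMap.sub_apply, LinearMap.add_apply, S.form.symm r (ρ j), h4, h2,
      ha] at h1 h3
    have h5 : (a j : ℚ) < 2 := by push_cast at h1; linarith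
    have h6 : (-2 : ℚ) < a j := by push_cast at h3; linarith
    have h7 : a j < 2 := by exact_mod_cast h5
    have h8 : -2 < a j := by exact_mod_cast h6
    omega
  · have h4 := congrArg (fun x => B x r) hsum
    simp only [map_sum, LinearMap.sum_apply, ha, map_zero, LinearMap.zero_apply] at h4
    exact_mod_cast h4
  · have h4 := S.form.nonneg (∑ i, v i • ρ i)
    simp only [map_sum, LinearMap.sum_apply, bz1, bz2, hB] at h4
    rw [sum_comm] at h4
    have h5 : (0 : ℚ) ≤ ((∑ i, ∑ j, v i * v j * a (i - j) : ℤ) : ℚ) := by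
      push_cast
      refine h4.trans_eq (sum_congr rfl fun i _ => sum_congr rfl fun j _ => by ring)
    exact_mod_cast h5

theorem Setup.om_weights (S : Setup σ B L g u d) {r : V} (hr : r ∈ L) (hu : B r u = 0) (h2 : B r r = 2) :
    ∃ ω : ZMod 23 → V, (∀ i, B (ω i) u = 0) ∧ (∀ i j, B (ω i) (ω j) = (if i = j then 1 else 0) - 1 / 23) ∧
      (∀ i j, ω i - ω j ∈ L) ∧ (∀ i, (23 : ℤ) • ω i ∈ L) := by
  obtain ⟨ρ, hL, hU, hB⟩ := S.om_roots hr hu h2
  have h1 : ∀ i n, B ((1 / 23 : ℚ) • ∑ m, omC i m • ρ m) (ρ n) = omD i n := fun i n => by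
    have h3 : ((∑ m, omC i m * omA (m - n) : ℤ) : ℚ) = (23 * omD i n : ℤ) := by rw [om_CA]
    simp only [bq1, map_sum, LinearMap.sum_apply, bz1, hB]
    push_cast at h3
    rw [h3]
    ring
  refine ⟨fun i => (1 / 23 : ℚ) • ∑ m, omC i m • ρ m, fun i => ?_, fun i j => ?_, fun i j => ?_,
    fun i => ?_⟩
  · simp only [bq1, map_sum, LinearMap.sum_apply, bz1, hU, mul_zero, sum_const_zero]
  · have h3 : ((∑ n, omC j n * omD i n : ℤ) : ℚ) = ((if i = j then 23 else 0) - 1 : ℤ) := by rw [om_CD]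
    rw [bq2, map_sum, sum_congr rfl fun n _ => by rw [bz2, h1]]
    push_cast at h3
    rw [h3]
    split_ifs <;> norm_num
  · choose e he using om_CC i j
    rw [← smul_sub, ← sum_sub_distrib, smul_sum]
    refine L.sum_mem fun m _ => ?_
    rw [← sub_smul, he, mul_smul, ← Int.cast_smul_eq_zsmul ℚ 23, smul_smul]
    norm_num
    exact L.smul_mem _ (hL m)
  · rw [← Int.cast_smul_eq_zsmul ℚ 23, smul_smul]
    norm_num
    exact L.sum_mem fun m _ => L.smul_mem _ (hL m)

theorem om_int (n : ZMod 23 → ℤ) (h1 : -11 ≤ ∑ i, n i) (h2 : ∑ i, n i ≤ 11)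
    (h : 23 * ∑ i, n i * n i - (∑ i, n i) * ∑ i, n i < 46) :
    (∀ i, n i = 0) ∨ (∃ i, (n i = 1 ∨ n i = -1) ∧ ∀ j, j ≠ i → n j = 0) ∨
      (∑ i, n i * n i = 2 ∧ (∑ i, n i = 2 ∨ ∑ i, n i = -2)) := by
  have h3 : ∑ i, n i ≤ ∑ i, n i * n i := sum_le_sum fun i _ => by nlinarith [sq_nonneg (2 * n i - 1), show n i ≤ 0 ∨ 1 ≤ n i by omega, Int.le_self_sq (n i)]
  have h4 : -∑ i, n i ≤ ∑ i, n i * n i := by
    rw [← sum_neg_distrib]
    exact sum_le_sum fun i _ => by nlinarith [Int.le_self_sq (-n i)]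
  obtain ⟨c, hc⟩ : 2 ∣ ∑ i, n i * n i + ∑ i, n i := by
    rw [← sum_add_distrib]
    exact dvd_sum fun i _ => by
      have := (Int.even_mul_succ_self (n i)).two_dvd
      rwa [mul_add_one] at this
  have h5 : ∀ i, 0 ≤ n i * n i := fun i => mul_self_nonneg _
  have h6 : ∑ i, n i * n i = 0 ∨ ∑ i, n i * n i = 1 ∨
      (∑ i, n i * n i = 2 ∧ (∑ i, n i = 2 ∨ ∑ i, n i = -2)) := by
    generalize ∑ i, n i = N at *
    generalize ∑ i, n i * n i = Q at *
    interval_cases N <;> omega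
  rcases h6 with h6 | h6 | h6
  · exact Or.inl fun i => mul_self_eq_zero.1 ((sum_eq_zero_iff_of_nonneg fun i _ => h5 i).1 h6 i (mem_univ _))
  · refine Or.inr (Or.inl ?_)
    obtain ⟨i, -, hi⟩ := exists_ne_zero_of_sum_ne_zero (h6.trans_ne one_ne_zero)
    rw [← add_sum_erase _ _ (mem_univ i)] at h6
    have h7 := sum_nonneg (s := univ.erase i) fun j _ => h5 j
    have h8 := h5 i
    exact ⟨i, mul_self_eq_one_iff.1 (by omega), fun j hj => mul_self_eq_zero.1
      ((sum_eq_zero_iff_of_nonneg fun j _ => h5 j).1 (by omega) j (mem_erase.2 ⟨hj, mem_univ _⟩))⟩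
  · exact Or.inr (Or.inr h6)

theorem Setup.omega (S : Setup σ B L g u d) {r : V} (hr : r ∈ L) (hu : B r u = 0) (h2 : B r r = 2) :
    ∃ ω : ZMod 23 → V, (∀ i, B (ω i) u = 0) ∧ (∀ i j, B (ω i) (ω j) = (if i = j then 1 else 0) - 1 / 23) ∧
      (∀ i j, ω i - ω j ∈ L) ∧ (∀ i, (23 : ℤ) • ω i ∈ L) ∧
      ∀ y : V, B y u = 0 → (∀ i j, ∃ n : ℤ, B y (ω i - ω j) = n) → B y y < 2 →
        y = 0 ∨ (∃ i, y = ω i ∨ y = -ω i) ∨
          (23 * B y y = 42 ∧ (y - (2 : ℤ) • ω 0 ∈ L ∨ y + (2 : ℤ) • ω 0 ∈ L)) := by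
  obtain ⟨ω, hU, hB, hL, h23⟩ := S.om_weights hr hu h2
  refine ⟨ω, hU, hB, hL, h23, fun y hy hi hn => ?_⟩
  have hc : ∀ (c : ZMod 23 → ℚ) (j : ZMod 23), B (∑ i, c i • ω i) (ω j) = c j - (∑ i, c i) / 23 :=
    fun c j => by
      simp only [map_sum, LinearMap.sum_apply, bq1, hB, mul_sub, sum_sub_distrib, mul_ite, mul_one,
        mul_zero, sum_ite_eq', mem_univ, if_true, ← sum_mul]
      ring
  have hli : LinearIndependent ℚ fun i => ω i + u := by
    refine Fintype.linearIndependent_iff.2 fun c h j => ?_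
    simp only [smul_add, sum_add_distrib, ← sum_smul] at h
    have h1 := congrArg (fun x => B x u) h
    have h3 := congrArg (fun x => B x (ω j)) h
    simp only [map_add, LinearMap.add_apply, hc, bq1, map_zero, LinearMap.zero_apply,
      S.form.symm u (ω j), hU] at h3
    simp only [map_add, LinearMap.add_apply, map_sum, LinearMap.sum_apply, bq1, map_zero,
      LinearMap.zero_apply, hU, S.uu, mul_zero, sum_const_zero, zero_add] at h1
    have h4 : ∑ i, c i = 0 := (mul_eq_zero.1 h1).resolve_right (mul_ne_zero (by norm_num) S.d_ne)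
    rw [h4] at h3
    linarith
  have hz : ∀ z, B z u = 0 → (∀ j, B z (ω j) = 0) → z = 0 := fun z h1 h3 => by
    have h4 : B z = 0 := (basisOfLinearIndependentOfCardEqFinrank hli (by simp)).ext fun j => by
      simp [h1, h3]
    exact S.form.eq_zero (by rw [h4, LinearMap.zero_apply])
  have hcu : ∀ c : ZMod 23 → ℚ, B (∑ i, c i • ω i) u = 0 := fun c => by
    simp only [map_sum, LinearMap.sum_apply, bq1, hU, mul_zero, sum_const_zero]
  have hs : ∑ i, ω i = 0 := by
    have := hz _ (hcu fun _ => 1) fun j => by rw [hc]; simp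
    simpa using this
  choose m hm using fun i => hi i 0
  obtain ⟨n, hn1, hn2, ht⟩ : ∃ n : ZMod 23 → ℤ, -11 ≤ ∑ i, n i ∧ ∑ i, n i ≤ 11 ∧
      ∀ i, B y (ω i) = n i - (∑ i, (n i : ℚ)) / 23 := by
    have h1 : ∑ i, (m i - (∑ i, m i + 11) / 23) = ∑ i, m i - 23 * ((∑ i, m i + 11) / 23) := by
      rw [sum_sub_distrib, sum_const, card_univ, ZMod.card, nsmul_eq_mul]
      rfl
    refine ⟨fun i => m i - (∑ i, m i + 11) / 23, by rw [h1]; omega, by rw [h1]; omega, fun i => ?_⟩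
    have h3 := congrArg (B y) hs
    have h4 : ∀ i, B y (ω i) = m i + B y (ω 0) := fun i => by rw [← hm, map_sub]; ring
    rw [map_sum, map_zero, sum_congr rfl fun i _ => h4 i, sum_add_distrib, sum_const, card_univ,
      ZMod.card, nsmul_eq_mul] at h3
    rw [← Int.cast_sum, h1, h4]
    generalize (∑ i, m i + 11) / 23 = c
    push_cast at h3 ⊢
    linarith
  have hyn : y = ∑ i, (n i : ℚ) • ω i := sub_eq_zero.1 (hz _ (by
    rw [map_sub, LinearMap.sub_apply, hy, hcu, sub_zero]) fun j => by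
    rw [map_sub, LinearMap.sub_apply, hc, ht, sub_self])
  have hyy : 23 * B y y = ((23 * ∑ i, n i * n i - (∑ i, n i) * ∑ i, n i : ℤ) : ℚ) := by
    conv_lhs => rw [show B y y = B y (∑ i, (n i : ℚ) • ω i) by rw [← hyn]]
    simp only [map_sum, bq2, ht, mul_sub, sum_sub_distrib, ← sum_mul]
    push_cast
    ring
  have hlt : 23 * ∑ i, n i * n i - (∑ i, n i) * ∑ i, n i < 46 := by
    have : ((23 * ∑ i, n i * n i - (∑ i, n i) * ∑ i, n i : ℤ) : ℚ) < 46 := by rw [← hyy]; linarith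
    exact_mod_cast this
  rcases om_int n hn1 hn2 hlt with h | ⟨i, h, h'⟩ | ⟨h, h'⟩
  · exact Or.inl (by rw [hyn]; simp [h])
  · refine Or.inr (Or.inl ⟨i, ?_⟩)
    rw [sum_eq_single i (fun j _ hj => by simp [h' j hj]) (by simp)] at hyn
    rcases h with h | h <;> simp [hyn, h]
  · have h1 : y - (∑ i, n i) • ω 0 ∈ L := by
      rw [hyn, sum_smul, ← sum_sub_distrib]
      exact L.sum_mem fun i _ => by
        rw [Int.cast_smul_eq_zsmul, ← smul_sub]
        exact L.smul_mem _ (hL i 0)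
    refine Or.inr (Or.inr ⟨?_, ?_⟩)
    · rcases h' with h' | h' <;> rw [hyy, h, h'] <;> norm_num
    · rcases h' with h' | h' <;> rw [h'] at h1
      · exact Or.inl h1
      · exact Or.inr (by rwa [neg_smul, sub_neg_eq_add] at h1)

end Cfsg.Agent.F23
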