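import Cfsg.Agent.F23.Schur

/-! Orders of elements in rational representations of degree 23. -/

set_option autoImplicit false
open Module Polynomial

namespace Cfsg.Agent.F23

theorem ord_cyc_dvd (a : Module.End ℚ V) {p k : ℕ} (hp : p.Prime) (h1 : a ^ p ^ (k + 1) = 1)
    (h2 : a ^ p ^ k ≠ 1) : cyclotomic (p ^ (k + 1)) ℚ ∣ a.charpoly := by
  haveI := Fact.mk hp
  refine Dvd.dvd.trans ?_ (LinearMap.minpoly_dvd_charpoly a)
  by_contra hn
  have hirr : Irreducible (cyclotomic (p ^ (k + 1)) ℚ) :=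
    cyclotomic.irreducible_rat (pow_pos hp.pos _)
  have hcop : IsCoprime (minpoly ℚ a) (cyclotomic (p ^ (k + 1)) ℚ) :=
    ((hirr.coprime_iff_not_dvd).2 hn).symm
  have hd : minpoly ℚ a ∣ cyclotomic (p ^ (k + 1)) ℚ * (X ^ p ^ k - 1) := by
    rw [cyclotomic_prime_pow_mul_X_pow_sub_one]
    apply minpoly.dvd
    simp [h1]
  have hd2 := hcop.dvd_of_dvd_mul_left hd
  have h3 : aeval a (X ^ p ^ k - 1 : ℚ[X]) = 0 := by
    obtain ⟨q, hq⟩ := hd2
    rw [hq, map_mul, minpoly.aeval, zero_mul]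
  apply h2
  simpa [sub_eq_zero] using h3

theorem ord_deg (a : Module.End ℚ V) : a.charpoly.natDegree = 23 := by
  rw [LinearMap.charpoly_natDegree]
  simp

theorem ord_totient_le (a : Module.End ℚ V) {p k : ℕ} (hp : p.Prime) (h1 : a ^ p ^ (k + 1) = 1)
    (h2 : a ^ p ^ k ≠ 1) : p ^ k * (p - 1) ≤ 23 := by
  have h := natDegree_le_of_dvd (ord_cyc_dvd a hp h1 h2) a.charpoly_monic.ne_zero
  rwa [natDegree_cyclotomic, ord_deg, Nat.totient_prime_pow_succ hp] at h

section Ord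
variable {G : Type*} [Group G] {σ : G →* Module.End ℚ V} {B : V →ₗ[ℚ] V →ₗ[ℚ] ℚ}

theorem Hyp.ord_pow_iff (H : Hyp σ) (g : G) (n : ℕ) : σ g ^ n = 1 ↔ g ^ n = 1 := by
  rw [← map_pow, ← map_one σ]
  exact H.inj.eq_iff

theorem Hyp.prime_le [Finite G] (H : Hyp σ) {ℓ : ℕ} (hℓ : ℓ.Prime) (h : ℓ ∣ Nat.card G) : ℓ ≤ 23 := by
  haveI := Fact.mk hℓ
  obtain ⟨g, hg⟩ := exists_prime_orderOf_dvd_card' ℓ h
  have h1 : σ g ^ ℓ ^ (0 + 1) = 1 := by
    rw [H.ord_pow_iff, zero_add, pow_one, ← hg, pow_orderOf_eq_one]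
  have h2 : σ g ^ ℓ ^ 0 ≠ 1 := by
    rw [Ne, H.ord_pow_iff, pow_zero, pow_one]
    rintro rfl
    rw [orderOf_one] at hg
    exact hℓ.one_lt.ne hg
  have h3 := ord_totient_le _ hℓ h1 h2
  rw [pow_zero, one_mul] at h3
  have h4 : ℓ ≠ 24 := by
    rintro rfl
    norm_num at hℓ
  omega

theorem Hyp.fix (H : Hyp σ) (hB : Form σ B) {g : G} (hg : orderOf g = 23) :
    ∃ u : V, u ≠ 0 ∧ σ g u = u ∧ ∀ v, σ g v = v → ∃ t : ℚ, v = t • u := by
  have hp : Nat.Prime 23 := by norm_num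
  haveI := Fact.mk hp
  have hg23 : g ^ 23 = 1 := by rw [← hg, pow_orderOf_eq_one]
  obtain ⟨u, hu, hu0⟩ := hB.skew (σ g - σ g⁻¹) (fun x y => by
    simp only [LinearMap.sub_apply, map_sub]
    rw [hB.schur_adj g, hB.schur_adj g⁻¹, inv_inv]
    ring)
  have h2 : σ (g ^ 2) u = u := by
    rw [LinearMap.sub_apply, sub_eq_zero] at hu0
    rw [pow_two, map_mul, Module.End.mul_apply, hu0, schur_mul_inv]
  have h24 : ∀ n : ℕ, σ ((g ^ 2) ^ n) u = u := by
    intro n
    induction n with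
    | zero => simp
    | succ n ih => rw [pow_succ, map_mul, Module.End.mul_apply, h2, ih]
  have hgu : σ g u = u := by
    have := h24 12
    rwa [← pow_mul, show 2 * 12 = 23 + 1 from rfl, pow_succ, hg23, one_mul] at this
  refine ⟨u, hu, hgu, fun v hv => ?_⟩
  have h1 : σ g ^ 23 ^ (0 + 1) = 1 := by
    rw [H.ord_pow_iff, zero_add, pow_one, hg23]
  have h1' : σ g ^ 23 ^ 0 ≠ 1 := by
    rw [Ne, H.ord_pow_iff, pow_zero, pow_one]
    rintro rfl
    rw [orderOf_one] at hg
    omega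
  obtain ⟨q, hq⟩ := ord_cyc_dvd _ hp h1 h1'
  rw [zero_add, pow_one] at hq
  have hne : cyclotomic 23 ℚ * q ≠ 0 := hq ▸ (σ g).charpoly_monic.ne_zero
  have hq0 : q ≠ 0 := right_ne_zero_of_mul hne
  have hqd : q.natDegree = 1 := by
    have := ord_deg (σ g)
    rw [hq, natDegree_mul (cyclotomic_ne_zero _ _) hq0, natDegree_cyclotomic,
      Nat.totient_prime hp] at this
    omega
  have hrm : (σ g).charpoly.rootMultiplicity 1 ≤ 1 := by
    rw [hq, rootMultiplicity_mul hne, rootMultiplicity_eq_zero, zero_add, ← count_roots]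
    · exact (Multiset.count_le_card _ _).trans ((card_roots' q).trans hqd.le)
    · rw [IsRoot.def, eval_one_cyclotomic_prime]
      norm_num
  have hle := (LinearMap.finrank_eigenspace_le (σ g) 1).trans hrm
  have hum : u ∈ (σ g).eigenspace 1 := by
    rw [Module.End.mem_eigenspace_iff, one_smul, hgu]
  have hvm : v ∈ (σ g).eigenspace 1 := by
    rw [Module.End.mem_eigenspace_iff, one_smul, hv]
  have hu' : (⟨u, hum⟩ : (σ g).eigenspace 1) ≠ 0 := fun h0 => hu (congrArg Subtype.val h0)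
  have hpos : 0 < finrank ℚ ((σ g).eigenspace 1) :=
    finrank_pos_iff_exists_ne_zero.2 ⟨_, hu'⟩
  obtain ⟨t, ht⟩ := (finrank_eq_one_iff_of_nonzero' _ hu').1 (le_antisymm hle hpos) ⟨v, hvm⟩
  exact ⟨t, (congrArg Subtype.val ht).symm⟩

theorem ord_fix_pow (σ : G →* Module.End ℚ V) {x : G} {u : V} {t : ℚ} (h : σ x u = t • u) (n : ℕ) :
    σ (x ^ n) u = t ^ n • u := by
  induction n with
  | zero => simp
  | succ n ih => rw [pow_succ, map_mul, Module.End.mul_apply, h, map_smul, ih, smul_smul, pow_succ']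

theorem Hyp.not_sq [Finite G] (H : Hyp σ) (hB : Form σ B) : ¬ 23 ^ 2 ∣ Nat.card G := by
  classical
  intro hd
  have hp : Nat.Prime 23 := by norm_num
  haveI := Fact.mk hp
  obtain ⟨P, hP⟩ := Sylow.exists_subgroup_card_pow_prime 23 hd
  have hcomm : ∀ x ∈ P, ∀ y ∈ P, x * y = y * x := by
    intro x hx y hy
    have := (IsPGroup.isMulCommutative_of_card_eq_prime_sq hP).is_comm.comm ⟨x, hx⟩ ⟨y, hy⟩
    exact congrArg Subtype.val this
  have hexp : ∀ x ∈ P, x ^ 23 = 1 := by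
    intro x hx
    by_contra hne
    have h1 : x ^ 23 ^ (1 + 1) = 1 := by
      have := pow_card_eq_one' (x := (⟨x, hx⟩ : P))
      rw [hP] at this
      exact congrArg Subtype.val this
    have h2 := ord_totient_le (σ x) hp ((H.ord_pow_iff _ _).2 h1)
      (by rw [Ne, H.ord_pow_iff, pow_one]; exact hne)
    norm_num at h2
  have hord : ∀ x ∈ P, x ≠ 1 → orderOf x = 23 := fun x hx h1 =>
    orderOf_eq_prime (hexp x hx) h1
  have hnt : Nontrivial P := by
    rw [← Finite.one_lt_card_iff_nontrivial, hP]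
    norm_num
  obtain ⟨⟨h, hh⟩, hh1⟩ := exists_ne (1 : P)
  have hh1' : h ≠ 1 := fun h0 => hh1 (Subtype.ext h0)
  obtain ⟨g, hg, hgh⟩ : ∃ g ∈ P, g ∉ Subgroup.zpowers h := by
    by_contra hcon
    push Not at hcon
    have := Subgroup.card_le_of_le (show P ≤ Subgroup.zpowers h from hcon)
    rw [Nat.card_zpowers, hord h hh hh1', hP] at this
    norm_num at this
  obtain ⟨u, hu, hhu, hfix⟩ := H.fix hB (hord h hh hh1')
  have hPu : ∀ x ∈ P, σ x u = u := by
    intro x hx
    obtain ⟨t, ht⟩ := hfix (σ x u) (by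
      rw [← Module.End.mul_apply, ← map_mul, hcomm h hh x hx, map_mul, Module.End.mul_apply, hhu])
    have h1 := ord_fix_pow σ ht 23
    rw [hexp x hx, map_one, Module.End.one_apply] at h1
    have h2 : t ^ 23 = 1 := by
      have : (t ^ 23 - 1) • u = 0 := by rw [sub_smul, one_smul, ← h1, sub_self]
      exact sub_eq_zero.1 ((smul_eq_zero.1 this).resolve_right hu)
    have h3 : t = 1 := by
      have h4 : Odd 23 := by decide
      exact h4.pow_injective (show t ^ 23 = 1 ^ 23 by rw [h2, one_pow])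
    rw [ht, h3, one_smul]
  set W : Submodule ℚ V := Submodule.span ℚ {u} with hW
  have hN : ∀ x ∈ P, x ≠ 1 → ∀ w, ∑ j ∈ Finset.range 23, σ (x ^ j) w ∈ W := by
    intro x hx hx1 w
    obtain ⟨ux, hux, -, hfx⟩ := H.fix hB (hord x hx hx1)
    obtain ⟨s, hs⟩ := hfx u (hPu x hx)
    have hs0 : s ≠ 0 := by
      rintro rfl
      exact hu (by rw [hs, zero_smul])
    obtain ⟨t, ht⟩ := hfx (∑ j ∈ Finset.range 23, σ (x ^ j) w) (by
      have h1 := mul_geom_sum (σ x) 23
      rw [(H.ord_pow_iff _ _).2 (hexp x hx), sub_self] at h1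
      have h2 := LinearMap.congr_fun h1 w
      simp only [Module.End.mul_apply, LinearMap.sub_apply, Module.End.one_apply, LinearMap.zero_apply,
        LinearMap.sum_apply, sub_eq_zero] at h2
      simpa only [map_pow] using h2)
    rw [ht, hW, Submodule.mem_span_singleton]
    exact ⟨t / s, by rw [hs, smul_smul, div_mul_cancel₀ _ hs0]⟩
  have hWinv : ∀ x ∈ P, ∀ w ∈ W, σ x w ∈ W := by
    intro x hx w hw
    obtain ⟨c, rfl⟩ := Submodule.mem_span_singleton.1 hw
    rw [map_smul, hPu x hx]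
    exact hw
  have hall : ∀ w, w ∈ W := by
    intro w
    have h1 : ∑ i ∈ Finset.range 23, ∑ j ∈ Finset.range 23, σ ((g * h ^ i) ^ j) w ∈ W := by
      refine W.sum_mem fun i _ => hN _ (P.mul_mem hg (P.pow_mem hh i)) ?_ w
      intro h0
      apply hgh
      rw [eq_inv_of_mul_eq_one_left h0]
      exact Subgroup.inv_mem _ (Subgroup.pow_mem _ (Subgroup.mem_zpowers h) i)
    rw [Finset.sum_comm, Finset.sum_range_succ'] at h1
    have h2 : ∑ j ∈ Finset.range 22, ∑ i ∈ Finset.range 23, σ ((g * h ^ i) ^ (j + 1)) w ∈ W := by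
      refine W.sum_mem fun j hj => ?_
      have hj' : j < 22 := Finset.mem_range.1 hj
      have hne : h ^ (j + 1) ≠ 1 := by
        intro h0
        have := orderOf_dvd_of_pow_eq_one h0
        rw [hord h hh hh1'] at this
        have := Nat.le_of_dvd (by omega) this
        omega
      have h3 := hWinv _ (P.pow_mem hg (j + 1)) _ (hN _ (P.pow_mem hh (j + 1)) hne w)
      rw [map_sum] at h3
      convert h3 using 2 with i
      rw [← Module.End.mul_apply, ← map_mul, Commute.mul_pow (hcomm g hg _ (P.pow_mem hh i)),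
        ← pow_mul, ← pow_mul, mul_comm i]
    have h3 := W.sub_mem h1 h2
    rw [add_sub_cancel_left] at h3
    simp only [pow_zero, map_one, Module.End.one_apply, Finset.sum_const, Finset.card_range] at h3
    have h4 := W.smul_mem (1 / 23 : ℚ) h3
    rwa [← Nat.cast_smul_eq_nsmul ℚ, smul_smul, show (1 / 23 : ℚ) * (23 : ℕ) = 1 by norm_num,
      one_smul] at h4
  have htop : W = ⊤ := eq_top_iff.2 fun w _ => hall w
  have h4 := finrank_span_singleton (K := ℚ) hu
  rw [← hW, htop, finrank_top] at h4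
  simp at h4

end Ord

end Cfsg.Agent.F23
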