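import Cfsg.Agent.F23.Glue

/-! The minimum of the rank 22 lattice and the absence of roots in the glued lattice. -/

set_option autoImplicit false
open Module
namespace Cfsg.Agent.F23

section PMin
variable {P : Type*} [AddCommGroup P]
  {β : P →ₗ[ℤ] P →ₗ[ℤ] ℤ} {χ : P →+ ZMod 23} {γ : Module.End ℤ P} {c : ZMod 23}

theorem PG.pow23 (h : PG β χ c γ) : γ ^ 23 = 1 := by
  ext y
  have h1 := h.sum0 y
  have h2 := h.sum0 (γ y)
  have h3 : ∑ j ∈ Finset.range 24, (γ ^ j) y = (γ ^ 23) y := by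
    rw [Finset.sum_range_succ, h1, zero_add]
  rw [Finset.sum_range_succ'] at h3
  simp only [pow_succ, Module.End.mul_apply] at h3 h2
  rw [h2, zero_add] at h3
  simp only [pow_succ, Module.End.mul_apply]
  exact h3.symm

theorem PG.isom_pow (h : PG β χ c γ) (j : ℕ) (x y : P) : β ((γ ^ j) x) ((γ ^ j) y) = β x y := by
  induction j with
  | zero => rfl
  | succ j ih => rw [pow_succ', Module.End.mul_apply, Module.End.mul_apply, h.isom, ih]

theorem PG.chi_pow (h : PG β χ c γ) (j : ℕ) (x : P) : χ ((γ ^ j) x) = χ x := by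
  induction j with
  | zero => rfl
  | succ j ih => rw [pow_succ', Module.End.mul_apply, h.chi, ih]

theorem pm_pow_fix {φ : Module.End ℤ P} {y : P} (h : φ y = y) (k : ℕ) : (φ ^ k) y = y := by
  induction k with
  | zero => rfl
  | succ k ih => rw [pow_succ, Module.End.mul_apply, h, ih]

theorem PG.eq_zero_of_fix (h : PG β χ c γ) {y : P} (hy : γ y = y) : y = 0 := by
  have h1 := h.sum0 y
  simp only [pm_pow_fix hy, Finset.sum_const, Finset.card_range] at h1
  by_contra h0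
  have h2 := h.pos y h0
  have h3 : β y (23 • y) = 0 := by rw [h1, map_zero]
  rw [map_nsmul, nsmul_eq_mul] at h3
  simp only [Nat.cast_ofNat] at h3
  omega

theorem PG.eq_zero_of_fix_pow (h : PG β χ c γ) {y : P} {j : ℕ} (hj : j < 23) (hj0 : j ≠ 0)
    (hy : (γ ^ j) y = y) : y = 0 := by
  have hd : ∀ j < 23, j ≠ 0 → ∃ k < 23, ∃ m < 23, j * k = 23 * m + 1 := by decide
  obtain ⟨k, -, m, -, hk⟩ := hd j hj hj0
  have h1 := pm_pow_fix hy k
  rw [← pow_mul, hk, pow_succ, pow_mul, h.pow23, one_pow, one_mul] at h1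
  exact h.eq_zero_of_fix h1

theorem D23.ker92 (h : D23 β χ c) (hr : ∀ y, χ y = 0 → β y y ≠ 46) {y : P} (hy : y ≠ 0)
    (h0 : χ y = 0) : 92 ≤ β y y := by
  have h1 : (23 : ℤ) ∣ β y y := by
    rw [← gl_dvd_iff, h.cong, h0, mul_zero]
  obtain ⟨k, hk⟩ := h.even y
  have h2 := h.pos y hy
  have h3 := hr y h0
  omega

theorem PG.min44' (h : PG β χ c γ) (hr : ∀ y, χ y = 0 → β y y ≠ 46) {y : P} (hy : y ≠ 0) :
    44 ≤ β y y := by
  have h1 : ∀ j ∈ Finset.range 22, β y ((γ ^ (j + 1)) y) ≤ β y y - 46 := by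
    intro j hj
    rw [Finset.mem_range] at hj
    have h2 := h.toD23.ker92 hr (y := y - (γ ^ (j + 1)) y)
      (fun h0 => hy (h.eq_zero_of_fix_pow (j := j + 1) (by omega) (by omega)
        (sub_eq_zero.mp h0).symm))
      (by rw [map_sub, h.chi_pow, sub_self])
    simp only [map_sub, LinearMap.sub_apply] at h2
    rw [h.isom_pow, h.symm ((γ ^ (j + 1)) y) y] at h2
    omega
  have h2 := Finset.sum_le_sum h1
  have h3 : β y (∑ j ∈ Finset.range 23, (γ ^ j) y) = 0 := by rw [h.sum0, map_zero]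
  rw [map_sum, Finset.sum_range_succ'] at h3
  simp only [Finset.sum_const, Finset.card_range, nsmul_eq_mul, Nat.cast_ofNat, pow_zero,
    Module.End.one_apply] at h2 h3
  omega

theorem pm_bound (n : ℤ × ℤ) {m : ℤ} (hm : m ≤ 184) (h : βN n n = m) :
    -6 ≤ n.1 ∧ n.1 ≤ 6 ∧ -7 ≤ n.2 ∧ n.2 ≤ 7 := by
  rw [βN_apply] at h
  refine ⟨?_, ?_, ?_, ?_⟩ <;> nlinarith [sq_nonneg (n.1 - n.2), sq_nonneg n.1, sq_nonneg n.2]

theorem pm_small (n : ℤ × ℤ) (h : βN n n ≤ 2) : n = 0 := by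
  obtain ⟨h1, h2, h3, h4⟩ := pm_bound n (by omega) rfl
  obtain ⟨a, b⟩ := n
  rw [βN_apply] at h
  simp only at h h1 h2 h3 h4
  interval_cases a <;> interval_cases b <;> first | rfl | omega

theorem pm_46 (n : ℤ × ℤ) (h0 : χN n = 0) : βN n n ≠ 46 := by
  intro h
  obtain ⟨h1, h2, h3, h4⟩ := pm_bound n (by omega) h
  obtain ⟨a, b⟩ := n
  rw [χN_apply, gl_dvd_iff] at h0
  rw [βN_apply] at h
  simp only at h h0 h1 h2 h3 h4
  interval_cases a <;> interval_cases b <;> omega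

theorem pm_184 (n : ℤ × ℤ) (h0 : χN n = 0) (h : βN n n = 184) : n = (-3, 5) ∨ n = (3, -5) := by
  obtain ⟨h1, h2, h3, h4⟩ := pm_bound n (by omega) h
  obtain ⟨a, b⟩ := n
  rw [χN_apply, gl_dvd_iff] at h0
  rw [βN_apply] at h
  simp only at h h0 h1 h2 h3 h4
  interval_cases a <;> interval_cases b <;> first | omega | simp

theorem PG.noroot (h : PG β χ c γ) (hr : ∀ y, χ y = 0 → β y y ≠ 46) (x : gl χ χN) :
    β x.1.1 x.1.1 + βN x.1.2 x.1.2 ≠ 46 := by
  intro h46
  have hx := mem_gl.mp x.2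
  by_cases hy : x.1.1 = 0
  · rw [hy, map_zero] at hx
    rw [hy, map_zero, zero_add] at h46
    exact pm_46 _ hx.symm h46
  · have h1 := h.min44' hr hy
    have h2 := pm_small x.1.2 (by omega)
    rw [h2, map_zero] at hx
    rw [h2, map_zero, add_zero] at h46
    exact hr _ hx h46

end PMin

end Cfsg.Agent.F23
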