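import Cfsg.Agent.F23.Omega

/-! The lattice orthogonal to the fixed vector has no roots. -/

set_option autoImplicit false
open Module
namespace Cfsg.Agent.F23

variable {G : Type*} [Group G] {σ : G →* Module.End ℚ V} {B : V →ₗ[ℚ] V →ₗ[ℚ] ℚ} {L : Submodule ℤ V}
  {g : G} {u : V} {d : ℕ}

theorem rt_num {d : ℕ} (hsq : Squarefree d) (hnd : ¬ 23 ∣ d) {k : ℤ} {m : ℤ}
    (hm : m = 46 ∨ m = 24 ∨ m = 4) (h : (d : ℤ) * k ^ 2 = m) :
    (m = 24 ∧ d = 6 ∧ (k = 2 ∨ k = -2)) ∨ (m = 4 ∧ d = 1 ∧ (k = 2 ∨ k = -2)) := by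
  have h4 : ¬ 4 ∣ d := fun h4 => by
    have := hsq 2 h4
    simp at this
  have hd : d ≠ 0 := hsq.ne_zero
  have hd1 : (1 : ℤ) ≤ d := by omega
  have hm' : m ≤ 46 := by omega
  have hk : k ^ 2 ≤ 46 := by nlinarith [sq_nonneg k]
  have hk1 : -7 < k := by nlinarith
  have hk2 : k < 7 := by nlinarith
  interval_cases k <;> omega

theorem rt_proj (S : Setup σ B L g u d) (x : V) (t : ℚ) (ht : B x u = 23 * d * t) :
    B (x - t • u) u = 0 ∧ B (x - t • u) (x - t • u) = B x x - 23 * d * t ^ 2 := by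
  simp only [map_sub, LinearMap.sub_apply, bq1, bq2, S.uu, S.form.symm u x, ht]
  constructor <;> ring

theorem rt_norm_one (S : Setup σ B L g u d) (hidx : ∀ K : Subgroup G, K.index ≠ 23 ∧ K.index ≠ 24)
    {z : V} (hz : z ∈ L) (h1 : B z z = 1) : False := by
  refine S.hyp.noOrth S.form hidx (z := z) (fun h => by simp [h] at h1) fun k => ?_
  obtain ⟨n, hn⟩ := S.lat.int _ (S.lat.inv k z hz) z hz
  have e1 : B (σ k z - z) (σ k z - z) = 2 - 2 * n := by
    simp only [map_sub, LinearMap.sub_apply, S.form.inv, h1, S.form.symm z (σ k z), hn]; ring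
  have e2 : B (σ k z + z) (σ k z + z) = 2 + 2 * n := by
    simp only [map_add, LinearMap.add_apply, S.form.inv, h1, S.form.symm z (σ k z), hn]; ring
  have p1 := S.form.nonneg (σ k z - z)
  have p2 := S.form.nonneg (σ k z + z)
  rw [e1] at p1
  rw [e2] at p2
  have q1 : n ≤ 1 := by
    have : (n : ℚ) ≤ 1 := by linarith
    exact_mod_cast this
  have q2 : -1 ≤ n := by
    have : (-1 : ℚ) ≤ n := by linarith
    exact_mod_cast this
  interval_cases n
  · right; left
    exact eq_neg_of_add_eq_zero_left (S.form.eq_zero (by rw [e2]; norm_num))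
  · right; right
    simpa using hn
  · left
    exact sub_eq_zero.mp (S.form.eq_zero (by rw [e1]; norm_num))

theorem Setup.noRoot (S : Setup σ B L g u d) (hidx : ∀ K : Subgroup G, K.index ≠ 23 ∧ K.index ≠ 24)
    {r : V} (hr : r ∈ L) (hu : B r u = 0) : B r r ≠ 2 := by
  intro h2
  obtain ⟨ω, w0, wB, wL, w23, wc⟩ := S.omega hr hu h2
  have wd : ∀ i j, B (ω i - ω j) u = 0 := fun i j => by
    rw [map_sub, LinearMap.sub_apply, w0, w0, sub_self]
  have hdpos : (0 : ℚ) < d := by exact_mod_cast S.d_pos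
  -- roots not orthogonal to `u`
  have key : ∀ x ∈ L, B x x = 2 → ∀ k : ℤ, B x u = d * k → k ≠ 0 →
      (d = 6 ∧ (k = 2 ∨ k = -2) ∧ ∃ i, x - ((k : ℚ) / 23) • u = ω i ∨
        x - ((k : ℚ) / 23) • u = -ω i) ∨
      (d = 1 ∧ (k = 2 ∨ k = -2) ∧ (x - ((k : ℚ) / 23) • u - (2 : ℤ) • ω 0 ∈ L ∨
        x - ((k : ℚ) / 23) • u + (2 : ℤ) • ω 0 ∈ L)) := by
    intro x hx hx2 k hk hk0
    obtain ⟨p1, p2⟩ := rt_proj S x ((k : ℚ) / 23) (by rw [hk]; ring)
    have p3 : 23 * B (x - ((k : ℚ) / 23) • u) (x - ((k : ℚ) / 23) • u) = 46 - d * k ^ 2 := by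
      rw [p2, hx2]; ring
    have hkq : (0 : ℚ) < (k : ℚ) ^ 2 := sq_pos_of_ne_zero (by exact_mod_cast hk0)
    have hc := wc _ p1 (fun i j => by
      obtain ⟨n, hn⟩ := S.lat.int x hx _ (wL i j)
      refine ⟨n, ?_⟩
      rw [map_sub B, LinearMap.sub_apply, bq1, S.form.symm u, wd, hn]; ring)
      (by nlinarith [mul_pos hdpos hkq])
    rcases hc with hc | ⟨i, hc⟩ | ⟨hc, hc'⟩
    · rw [hc] at p3
      simp only [map_zero, mul_zero] at p3
      have : (d : ℤ) * k ^ 2 = 46 := by
        have : (d : ℚ) * k ^ 2 = 46 := by linarith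
        exact_mod_cast this
      rcases rt_num S.sq S.nd (Or.inl rfl) this with h | h <;> omega
    · have p4 : B (x - ((k : ℚ) / 23) • u) (x - ((k : ℚ) / 23) • u) = 22 / 23 := by
        rcases hc with hc | hc <;> rw [hc]
        · rw [wB, if_pos rfl]; norm_num
        · simp only [map_neg, LinearMap.neg_apply, neg_neg]
          rw [wB, if_pos rfl]; norm_num
      have : (d : ℤ) * k ^ 2 = 24 := by
        have : (d : ℚ) * k ^ 2 = 24 := by linarith
        exact_mod_cast this
      rcases rt_num S.sq S.nd (Or.inr (Or.inl rfl)) this with h | h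
      · exact Or.inl ⟨h.2.1, h.2.2, i, hc⟩
      · omega
    · have : (d : ℤ) * k ^ 2 = 4 := by
        have : (d : ℚ) * k ^ 2 = 4 := by linarith
        exact_mod_cast this
      rcases rt_num S.sq S.nd (Or.inr (Or.inr rfl)) this with h | h
      · omega
      · exact Or.inr ⟨h.2.1, h.2.2, hc'⟩
  obtain ⟨h, hh⟩ := S.hyp.exists_ne S.form (x := r) (v := u) (fun h => by simp [h] at h2) S.u_ne
  have hx : σ h r ∈ L := S.lat.inv h r hr
  have hx2 : B (σ h r) (σ h r) = 2 := by rw [S.form.inv, h2]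
  obtain ⟨k0, hk0⟩ := S.dvd _ hx
  generalize σ h r = x at hh hx hx2 hk0
  have hk00 : k0 ≠ 0 := by
    rintro rfl
    simp [hk0] at hh
  rcases key x hx hx2 k0 hk0 hk00 with ⟨hd, hk, i0, hi0⟩ | ⟨hd, hk, hL⟩
  · -- d = 6
    have huu : B u u = 138 := by rw [S.uu, hd]; norm_num
    have hint : ∀ ρ ∈ L, B ρ ρ = 2 → ∀ k : G, ∃ n : ℤ, B (σ k ((1 / 12 : ℚ) • u)) ρ = n := by
      intro ρ hρ hρ2 k
      rw [S.form.move, bq1, S.form.symm u]
      have h1 := S.lat.inv k⁻¹ ρ hρ
      obtain ⟨j, hj⟩ := S.dvd _ h1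
      by_cases hj0 : j = 0
      · exact ⟨0, by rw [hj, hj0]; simp⟩
      rcases key _ h1 (by rw [S.form.inv, hρ2]) j hj hj0 with ⟨-, hj2, -⟩ | ⟨hd', -⟩
      · rw [hj, hd]
        rcases hj2 with rfl | rfl
        · exact ⟨1, by norm_num⟩
        · exact ⟨-1, by norm_num⟩
      · omega
    obtain ⟨ε, hε, hxε⟩ : ∃ ε : ℚ, (ε = 1 ∨ ε = -1) ∧ x = ε • ω i0 + ((k0 : ℚ) / 23) • u := by
      rcases hi0 with h1 | h1
      · exact ⟨1, Or.inl rfl, by rw [one_smul, ← h1, sub_add_cancel]⟩
      · exact ⟨-1, Or.inr rfl, by rw [neg_one_smul, ← h1, sub_add_cancel]⟩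
    refine S.hyp.noSmall hidx (z := (1 / 12 : ℚ) • u) (smul_ne_zero (by norm_num) S.u_ne)
      (insert ((1 / 12 : ℚ) • u)
        (Finset.univ.image fun i => ω i + (ε * k0 / 552) • u)) ?_ fun k => ?_
    · refine (Finset.card_insert_le _ _).trans ?_
      have := Finset.card_image_le (s := Finset.univ) (f := fun i => ω i + (ε * k0 / 552) • u)
      rw [Finset.card_univ, ZMod.card] at this
      omega
    have hwn : B (σ k ((1 / 12 : ℚ) • u)) (σ k ((1 / 12 : ℚ) • u)) = 23 / 24 := by
      rw [S.form.inv, bq1, bq2, huu]; norm_num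
    have hi1 := fun ρ h1 h2 => hint ρ h1 h2 k
    generalize σ k ((1 / 12 : ℚ) • u) = w at hwn hi1
    set t : ℚ := B w u / 138 with ht
    obtain ⟨p1, p2⟩ := rt_proj S w t (by rw [ht, hd]; push_cast; ring)
    rw [hwn, hd] at p2
    have hc := wc _ p1 (fun i j => by
      by_cases hij : i = j
      · exact ⟨0, by rw [hij, sub_self]; simp⟩
      obtain ⟨n, hn⟩ := hi1 _ (wL i j) (by
        simp only [map_sub, LinearMap.sub_apply, wB, if_pos, if_neg hij, if_neg (Ne.symm hij)]
        ring)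
      refine ⟨n, ?_⟩
      rw [map_sub B, LinearMap.sub_apply, bq1, S.form.symm u, wd, hn]; ring)
      (by rw [p2]; push_cast; nlinarith [sq_nonneg t])
    simp only [Finset.mem_insert, Finset.mem_image, Finset.mem_univ, true_and]
    rcases hc with hc | ⟨i, hc⟩ | ⟨hc, -⟩
    · rw [hc] at p2
      simp only [map_zero] at p2
      have h3 : (t - 1 / 12) * (t + 1 / 12) = 0 := by push_cast at p2; linarith
      have h4 : w = t • u := sub_eq_zero.mp hc
      rcases mul_eq_zero.mp h3 with h5 | h5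
      · left; left
        rw [h4, show t = 1 / 12 by linarith]
      · right; left
        rw [h4, show t = -(1 / 12) by linarith, neg_smul, neg_neg]
    · obtain ⟨η, hη, hwη⟩ : ∃ η : ℚ, (η = 1 ∨ η = -1) ∧ w - t • u = η • ω i := by
        rcases hc with h1 | h1
        · exact ⟨1, Or.inl rfl, by rw [one_smul, h1]⟩
        · exact ⟨-1, Or.inr rfl, by rw [neg_one_smul, h1]⟩
      have hη2 : η * η = 1 := by rcases hη with rfl | rfl <;> norm_num
      rw [hwη, bq1, bq2, wB, if_pos rfl, ← mul_assoc, hη2] at p2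
      have h3 : (t - 1 / 276) * (t + 1 / 276) = 0 := by push_cast at p2; linarith
      have h4 : w = η • ω i + t • u := by rw [← hwη, sub_add_cancel]
      obtain ⟨n, hn⟩ := hi1 x hx hx2
      rw [h4, hxε] at hn
      simp only [map_add, LinearMap.add_apply, bq1, bq2, w0, S.form.symm u (ω _), huu, wB] at hn
      have h5 : t = η * (ε * k0 / 552) := by
        have h6 : ∀ (a : ℤ), (23 : ℚ) * n ≠ 23 * a + 2 ∧ (23 : ℚ) * n ≠ 23 * a - 2 := by
          intro a
          constructor <;> intro h7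
          · have : 23 * n = 23 * a + 2 := by exact_mod_cast h7
            omega
          · have : 23 * n = 23 * a - 2 := by exact_mod_cast h7
            omega
        have h8 : t = 1 / 276 ∨ t = -(1 / 276) := by
          rcases mul_eq_zero.mp h3 with h5 | h5
          · left; linarith
          · right; linarith
        obtain ⟨a1, a2⟩ := h6 0
        obtain ⟨a3, a4⟩ := h6 1
        obtain ⟨a5, a6⟩ := h6 (-1)
        clear_value t
        rcases h8 with rfl | rfl <;> rcases hη with rfl | rfl <;> rcases hε with rfl | rfl <;>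
          rcases hk with rfl | rfl <;> first
          | (norm_num; done)
          | (exfalso
             push_cast at hn a1 a2 a3 a4 a5 a6
             split_ifs at hn <;> first
               | exact a1 (by linarith) | exact a2 (by linarith) | exact a3 (by linarith)
               | exact a4 (by linarith) | exact a5 (by linarith) | exact a6 (by linarith))
      rcases hη with rfl | rfl
      · left; right
        exact ⟨i, by rw [h4, h5, one_smul, one_mul]⟩
      · right; right
        exact ⟨i, by rw [h4, h5, neg_one_smul, neg_one_mul, neg_smul, neg_add, neg_neg, neg_neg]⟩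
    · exfalso
      rw [p2] at hc
      push_cast at hc
      nlinarith [sq_nonneg t]
  · -- d = 1
    have huu : B u u = 23 := by rw [S.uu, hd]; norm_num
    obtain ⟨ε, hε, hε2⟩ : ∃ ε : ℤ, (ε = 1 ∨ ε = -1) ∧
        ((k0 : ℚ) / 23) • u + (2 * ε) • ω 0 ∈ L := by
      rcases hL with h1 | h1
      · refine ⟨1, Or.inl rfl, ?_⟩
        have := L.sub_mem hx h1
        convert this using 1
        rw [mul_one]; abel
      · refine ⟨-1, Or.inr rfl, ?_⟩
        have := L.sub_mem hx h1
        convert this using 1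
        rw [mul_neg_one, neg_smul]; abel
    obtain ⟨κ, hκ, rfl⟩ : ∃ κ : ℤ, (κ = 1 ∨ κ = -1) ∧ k0 = 2 * κ := by
      rcases hk with rfl | rfl
      · exact ⟨1, Or.inl rfl, rfl⟩
      · exact ⟨-1, Or.inr rfl, rfl⟩
    have hz : ((κ : ℚ) / 23) • u + ε • ω 0 ∈ L := by
      have := L.sub_mem (L.smul_mem 12 hε2)
        (L.add_mem (L.smul_mem κ S.uL) (L.smul_mem ε (w23 0)))
      convert this using 1
      simp only [← Int.cast_smul_eq_zsmul ℚ]
      push_cast
      module
    refine rt_norm_one S hidx hz ?_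
    simp only [map_add, LinearMap.add_apply, bq1, bq2, bz1, bz2, w0, S.form.symm u (ω _), huu, wB,
      if_pos]
    rcases hκ with rfl | rfl <;> rcases hε with rfl | rfl <;> norm_num

end Cfsg.Agent.F23
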