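import Cfsg.Agent.F23.Defs

/-! Schur's lemma for rational representations of degree 23. -/

set_option autoImplicit false
open Module

namespace Cfsg.Agent.F23

section Schur
variable {G : Type*} [Group G] {σ : G →* Module.End ℚ V} {B : V →ₗ[ℚ] V →ₗ[ℚ] ℚ}

theorem schur_mul_inv (σ : G →* Module.End ℚ V) (k : G) (x : V) : σ k (σ k⁻¹ x) = x := by
  rw [← Module.End.mul_apply, ← map_mul, mul_inv_cancel, map_one, Module.End.one_apply]

theorem schur_inv_mul (σ : G →* Module.End ℚ V) (k : G) (x : V) : σ k⁻¹ (σ k x) = x := by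
  rw [← Module.End.mul_apply, ← map_mul, inv_mul_cancel, map_one, Module.End.one_apply]

theorem exists_form [Finite G] (σ : G →* Module.End ℚ V) : ∃ B, Form σ B := by
  classical
  have := Fintype.ofFinite G
  refine ⟨LinearMap.mk₂ ℚ (fun x y => ∑ k : G, σ k x ⬝ᵥ σ k y) ?_ ?_ ?_ ?_, ?_, ?_, ?_⟩
  · intro x x' y
    simp only [map_add, add_dotProduct, Finset.sum_add_distrib]
  · intro c x y
    simp only [map_smul, smul_dotProduct, Finset.smul_sum]
  · intro x y y'
    simp only [map_add, dotProduct_add, Finset.sum_add_distrib]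
  · intro c x y
    simp only [map_smul, dotProduct_smul, Finset.smul_sum]
  · intro x y
    simp only [LinearMap.mk₂_apply]
    exact Finset.sum_congr rfl fun k _ => dotProduct_comm _ _
  · intro x hx
    simp only [LinearMap.mk₂_apply]
    refine Finset.sum_pos' (fun k _ => ?_) ⟨1, Finset.mem_univ _, ?_⟩
    · exact Finset.sum_nonneg fun i _ => mul_self_nonneg _
    · rw [map_one, Module.End.one_apply]
      obtain ⟨i, hi⟩ := Function.ne_iff.1 hx
      exact Finset.sum_pos' (fun i _ => mul_self_nonneg _) ⟨i, Finset.mem_univ _, mul_self_pos.2 hi⟩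
  · intro g x y
    simp only [LinearMap.mk₂_apply]
    refine Fintype.sum_equiv (Equiv.mulRight g) _ _ fun k => ?_
    simp only [Equiv.coe_mulRight, map_mul, Module.End.mul_apply]

theorem Form.schur_eq_zero (hB : Form σ B) {x : V} (h : B x x = 0) : x = 0 := by
  by_contra hx
  exact (hB.pos x hx).ne' h

theorem Form.schur_ext (hB : Form σ B) {x y : V} (h : ∀ z, B x z = B y z) : x = y := by
  have : B (x - y) (x - y) = 0 := by
    rw [map_sub B, LinearMap.sub_apply, h, sub_self]
  exact sub_eq_zero.1 (hB.schur_eq_zero this)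

theorem Form.schur_adj (hB : Form σ B) (k : G) (x y : V) : B (σ k x) y = B x (σ k⁻¹ y) := by
  rw [← hB.inv k x (σ k⁻¹ y), schur_mul_inv]

theorem Form.skew (hB : Form σ B) (φ : Module.End ℚ V) (h : ∀ x y, B (φ x) y = -B x (φ y)) :
    ∃ v, v ≠ 0 ∧ φ v = 0 := by
  classical
  set M : Matrix (Fin 23) (Fin 23) ℚ :=
    Matrix.of fun i j => B (φ (Pi.single i 1)) (Pi.single j 1) with hM
  have hT : M.transpose = -M := by
    ext i j
    simp only [hM, Matrix.transpose_apply, Matrix.of_apply, Matrix.neg_apply]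
    rw [h, hB.symm]
  have hdet : M.det = 0 := by
    have h1 : M.det = (-1) ^ 23 * M.det := by
      conv_lhs => rw [← Matrix.det_transpose, hT, Matrix.det_neg]
      simp
    norm_num at h1
    linarith
  obtain ⟨v, hv, hvM⟩ := Matrix.exists_vecMul_eq_zero_iff.2 hdet
  refine ⟨v, hv, ?_⟩
  have hexp : ∀ w : V, w = ∑ i, w i • (Pi.single i 1 : V) := by
    intro w
    ext j
    simp [Finset.sum_apply, Pi.single_apply]
  have h2 : ∀ j, B (φ v) (Pi.single j 1) = 0 := by
    intro j
    have := congrFun hvM j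
    simp only [Matrix.vecMul, dotProduct, hM, Matrix.of_apply, Pi.zero_apply] at this
    rw [hexp v]
    simp only [map_sum, map_smul, LinearMap.sum_apply, LinearMap.smul_apply, smul_eq_mul]
    exact this
  apply hB.schur_eq_zero
  conv_lhs => arg 2; rw [hexp (φ v)]
  simp only [map_sum, map_smul, h2, smul_zero, Finset.sum_const_zero]

theorem Hyp.schur_inj (H : Hyp σ) (φ : Module.End ℚ V) (h : ∀ k : G, φ * σ k = σ k * φ) :
    φ = 0 ∨ Function.Injective φ := by
  rcases H.irr (LinearMap.ker φ) (fun g w hw => by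
    rw [LinearMap.mem_ker] at hw ⊢
    rw [← Module.End.mul_apply, h, Module.End.mul_apply, hw, map_zero]) with h1 | h1
  · exact Or.inr (LinearMap.ker_eq_bot.1 h1)
  · exact Or.inl (LinearMap.ker_eq_top.1 h1)

theorem Form.schur_exists_adj (hB : Form σ B) (φ : Module.End ℚ V) :
    ∃ ψ : Module.End ℚ V, ∀ x y, B (ψ y) x = B y (φ x) := by
  have hinj : Function.Injective B := by
    intro x y hxy
    exact hB.schur_ext fun z => by rw [hxy]
  have hsurj : Function.Surjective B :=
    (LinearMap.injective_iff_surjective_of_finrank_eq_finrank (by simp)).1 hinj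
  let e := LinearEquiv.ofBijective B ⟨hinj, hsurj⟩
  refine ⟨e.symm.toLinearMap ∘ₗ φ.dualMap ∘ₗ B, fun x y => ?_⟩
  have : B (e.symm (φ.dualMap (B y))) = φ.dualMap (B y) := e.apply_symm_apply _
  simp only [LinearMap.comp_apply, LinearEquiv.coe_coe]
  rw [this, LinearMap.dualMap_apply]

theorem Hyp.schur_self (H : Hyp σ) (hB : Form σ B) (φ : Module.End ℚ V)
    (h : ∀ k : G, φ * σ k = σ k * φ) (x y : V) : B (φ x) y = B x (φ y) := by
  obtain ⟨ψ, hψ⟩ := hB.schur_exists_adj φ
  have hc : ∀ k : G, ψ * σ k = σ k * ψ := by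
    intro k
    refine LinearMap.ext fun y => hB.schur_ext fun z => ?_
    rw [Module.End.mul_apply, Module.End.mul_apply, hψ, hB.schur_adj, hB.schur_adj, hψ,
      ← Module.End.mul_apply φ, h, Module.End.mul_apply]
  have hc' : ∀ k : G, (φ - ψ) * σ k = σ k * (φ - ψ) := by
    intro k
    rw [sub_mul, mul_sub, h, hc]
  obtain ⟨v, hv, hv0⟩ := hB.skew (φ - ψ) (fun x y => by
    simp only [LinearMap.sub_apply, map_sub]
    rw [hψ y x, hB.symm x (ψ y), hψ x y, hB.symm y (φ x)]
    ring)
  rcases H.schur_inj _ hc' with h0 | h0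
  · rw [sub_eq_zero.1 h0, hψ, ← sub_eq_zero.1 h0]
  · exact absurd (h0 (hv0.trans (map_zero _).symm)) hv

theorem Hyp.scalar (H : Hyp σ) (hB : Form σ B) (φ : Module.End ℚ V) (h : ∀ k : G, φ * σ k = σ k * φ) :
    ∃ c : ℚ, φ = c • (1 : Module.End ℚ V) := by
  classical
  let E : Subalgebra ℚ (Module.End ℚ V) := Subalgebra.centralizer ℚ (Set.range σ)
  have hE : ∀ a : Module.End ℚ V, a ∈ E ↔ ∀ k : G, a * σ k = σ k * a := by
    intro a
    simp only [E, Subalgebra.mem_centralizer_iff, Set.forall_mem_range]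
    exact forall_congr' fun k => eq_comm
  have hunit : ∀ a : E, IsUnit a ∨ a = 0 := by
    intro a
    rcases H.schur_inj a.1 ((hE _).1 a.2) with h0 | h0
    · exact Or.inr (Subtype.ext h0)
    · left
      have hu : IsUnit a.1 := (LinearMap.isUnit_iff_ker_eq_bot _).2 (LinearMap.ker_eq_bot.2 h0)
      obtain ⟨w, hw⟩ := hu
      have hmem : (w⁻¹ : (Module.End ℚ V)ˣ).1 ∈ E := by
        rw [hE]
        intro k
        have h1 := (hE _).1 a.2 k
        rw [← hw] at h1
        calc (w⁻¹ : (Module.End ℚ V)ˣ).1 * σ k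
            = (w⁻¹ : (Module.End ℚ V)ˣ).1 * (σ k * w.1) * (w⁻¹ : (Module.End ℚ V)ˣ).1 := by
              rw [mul_assoc, mul_assoc, Units.mul_inv, mul_one]
          _ = σ k * (w⁻¹ : (Module.End ℚ V)ˣ).1 := by
              rw [← h1, ← mul_assoc, Units.inv_mul, one_mul]
      refine ⟨⟨a, ⟨_, hmem⟩, Subtype.ext ?_, Subtype.ext ?_⟩, rfl⟩
      · change a.1 * _ = 1
        rw [← hw, Units.mul_inv]
      · change _ * a.1 = 1
        rw [← hw, Units.inv_mul]
  have hcomm : ∀ a b : Module.End ℚ V, a ∈ E → b ∈ E → a * b = b * a := by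
    intro a b ha hb
    refine LinearMap.ext fun x => hB.schur_ext fun y => ?_
    rw [H.schur_self hB (b * a) ((hE _).1 (E.mul_mem hb ha)), Module.End.mul_apply, Module.End.mul_apply,
      H.schur_self hB a ((hE _).1 ha), H.schur_self hB b ((hE _).1 hb)]
  have hnt : Nontrivial E := inferInstance
  letI : DivisionRing E := DivisionRing.ofIsUnitOrEqZero hunit
  have hmul : finrank ℚ E * finrank E V = 23 := by
    rw [Module.finrank_mul_finrank]
    simp
  have hdv : finrank ℚ E ∣ 23 := ⟨_, hmul.symm⟩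
  rcases (Nat.dvd_prime (by norm_num)).1 hdv with h1 | h1
  · have hb : E = ⊥ := Subalgebra.eq_bot_of_finrank_one h1
    have hφ : φ ∈ E := (hE _).2 h
    rw [hb, Algebra.mem_bot] at hφ
    obtain ⟨c, hc⟩ := hφ
    exact ⟨c, by rw [← hc, Algebra.algebraMap_eq_smul_one]⟩
  · exfalso
    rw [h1] at hmul
    have h2 : finrank E V = 1 := by omega
    have hv : (Pi.single 0 1 : V) ≠ 0 := by
      intro h0
      simpa using congrFun h0 0
    set v : V := Pi.single 0 1 with hvdef
    have hgen := (finrank_eq_one_iff_of_nonzero' v hv).1 h2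
    have hσ : ∀ k : G, σ k ∈ E := by
      intro k
      obtain ⟨e, he⟩ := hgen (σ k v)
      have : σ k = e.1 := by
        refine LinearMap.ext fun w => ?_
        obtain ⟨a, ha⟩ := hgen w
        have ha' : a.1 v = w := ha
        have he' : e.1 v = σ k v := he
        rw [← ha', ← Module.End.mul_apply, ← (hE _).1 a.2 k, Module.End.mul_apply, ← he',
          ← Module.End.mul_apply, hcomm _ _ a.2 e.2, Module.End.mul_apply]
      rw [this]
      exact e.2
    have hpm : ∀ k : G, σ k v = v ∨ σ k v = -v := by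
      intro k
      have hsq : ∀ x, σ k (σ k x) = x := fun x => hB.schur_ext fun y => by
        rw [H.schur_self hB (σ k) ((hE _).1 (hσ k)), hB.inv]
      rcases H.schur_inj (σ k - 1) ((hE _).1 (E.sub_mem (hσ k) E.one_mem)) with h0 | h0
      · left
        rw [sub_eq_zero.1 h0, Module.End.one_apply]
      · right
        have : (σ k - 1) (σ k v + v) = (σ k - 1) 0 := by
          simp only [LinearMap.sub_apply, map_add, hsq, Module.End.one_apply, map_zero]
          abel
        exact eq_neg_of_add_eq_zero_left (h0 this)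
    rcases H.irr (Submodule.span ℚ {v}) (fun g w hw => by
      obtain ⟨c, rfl⟩ := Submodule.mem_span_singleton.1 hw
      rw [map_smul]
      refine Submodule.smul_mem _ _ ?_
      rcases hpm g with h3 | h3 <;> rw [h3]
      · exact Submodule.mem_span_singleton_self v
      · exact Submodule.neg_mem _ (Submodule.mem_span_singleton_self v)) with h3 | h3
    · exact hv (Submodule.span_singleton_eq_bot.1 h3)
    · have h4 := finrank_span_singleton (K := ℚ) hv
      rw [h3, finrank_top] at h4
      simp at h4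

theorem Hyp.star [Fintype G] (H : Hyp σ) (hB : Form σ B) (x z v : V) :
    ∑ k : G, B x (σ k z) • σ k v = ((Nat.card G : ℚ) / 23 * B v z) • x := by
  let T : Module.End ℚ V := ∑ k : G, (B.flip (σ k z)).smulRight (σ k v)
  have hT : ∀ y, T y = ∑ k : G, B y (σ k z) • σ k v := by
    intro y
    simp only [T, LinearMap.sum_apply, LinearMap.smulRight_apply, LinearMap.flip_apply]
  obtain ⟨c, hc⟩ := H.scalar hB T (fun h => LinearMap.ext fun y => by
    rw [Module.End.mul_apply, Module.End.mul_apply, hT, hT, map_sum]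
    symm
    refine Fintype.sum_equiv (Equiv.mulLeft h) _ _ fun k => ?_
    simp only [Equiv.coe_mulLeft, map_mul, Module.End.mul_apply, map_smul, hB.inv])
  have htr : LinearMap.trace ℚ V T = (Nat.card G : ℚ) * B v z := by
    simp only [T, map_sum, LinearMap.trace_smulRight, LinearMap.flip_apply, hB.inv]
    rw [Finset.sum_const, Finset.card_univ, nsmul_eq_mul, Nat.card_eq_fintype_card]
  have htr' : LinearMap.trace ℚ V T = c * 23 := by
    rw [hc, map_smul, LinearMap.trace_one]
    simp
  rw [← hT, hc, LinearMap.smul_apply, Module.End.one_apply]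
  congr 1
  rw [htr'] at htr
  linarith

end Schur

end Cfsg.Agent.F23
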