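import Cfsg.Agent.F23.Basic
import Cfsg.Agent.F23.Schur
import Cfsg.Agent.F23.Ord
import Cfsg.Agent.F23.Fpf
import Cfsg.Agent.F23.Min

/-! The lattice, the element of order 23 and its fixed vector. -/

set_option autoImplicit false

open Module

namespace Cfsg.Agent.F23

variable {G : Type*} [Group G] {σ : G →* Module.End ℚ V} {B : V →ₗ[ℚ] V →ₗ[ℚ] ℚ} {L : Submodule ℤ V}

theorem setup_dvd_sum [Fintype G] {g : G} (F : G → ℤ) (h : ∀ k, F (k * g) = F k) :
    (orderOf g : ℤ) ∣ ∑ k, F k := by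
  classical
  have h1 : ∀ (j : ℕ) k, F (k * g ^ j) = F k := fun j k => by
    induction j with
    | zero => simp
    | succ j ih => rw [pow_succ, ← mul_assoc, h, ih]
  have h2 : Function.Bijective fun p : (G ⧸ Subgroup.zpowers g) × Subgroup.zpowers g => p.1.out * p.2 := by
    refine ⟨fun p q e => ?_, fun k => ?_⟩
    · have e1 : p.1 = q.1 := by
        have := congrArg (QuotientGroup.mk : G → G ⧸ Subgroup.zpowers g) e
        simpa [QuotientGroup.mk_mul_of_mem] using this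
      refine Prod.ext e1 (Subtype.ext ?_)
      simpa [e1] using e
    · obtain ⟨a, ha⟩ := QuotientGroup.mk_out_eq_mul (Subgroup.zpowers g) k
      exact ⟨(QuotientGroup.mk k, a⁻¹), by simp [ha]⟩
  rw [← h2.sum_comp, Fintype.sum_prod_type]
  refine Finset.dvd_sum fun q _ => ⟨F q.out, ?_⟩
  rw [Finset.sum_congr rfl (g := fun _ => F q.out) fun a _ => by
    obtain ⟨j, hj⟩ := (Submonoid.mem_powers_iff _ _).mp (mem_powers_iff_mem_zpowers.mpr a.2)
    rw [← hj, h1]]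
  simp [Fintype.card_zpowers]

theorem setup_coprime {y : V} {a b : ℕ} (h : a.Coprime b) (ha : (a : ℤ) • y ∈ L) (hb : (b : ℤ) • y ∈ L) :
    y ∈ L := by
  obtain ⟨r, s, e⟩ := Nat.isCoprime_iff_coprime.mpr h
  have := add_mem (L.smul_mem r ha) (L.smul_mem s hb)
  rwa [smul_smul, smul_smul, ← add_smul, e, one_smul] at this

theorem setup_sqfree {y : V} {n : ℕ} (hn : Squarefree n) (h0 : (n : ℤ) • y ∈ L)
    (h : ∀ ℓ m : ℕ, ℓ.Prime → n = ℓ * m → (m : ℤ) • y ∈ L) : y ∈ L := by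
  have key : ∀ m : ℕ, (m : ℤ) • y ∈ L ↔ addOrderOf (L.mkQ y) ∣ m := fun m => by
    rw [addOrderOf_dvd_iff_nsmul_eq_zero, ← map_nsmul, Submodule.mkQ_apply, Submodule.Quotient.mk_eq_zero,
      natCast_zsmul]
  by_contra hy
  obtain ⟨ℓ, hℓ, h1⟩ := Nat.exists_prime_and_dvd (n := addOrderOf (L.mkQ y)) fun e =>
    hy (by simpa using (key 1).mpr e.dvd)
  obtain ⟨m, rfl⟩ := h1.trans ((key n).mp h0)
  exact Nat.squarefree_iff_prime_squarefree.mp hn ℓ hℓ
    (Nat.mul_dvd_mul_left ℓ (h1.trans ((key m).mp (h ℓ m hℓ rfl))))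

theorem setup_fixed {g : G} (hg : g ^ 23 = 1) (w : V) :
    σ g (∑ j ∈ Finset.range 23, σ (g ^ j) w) = ∑ j ∈ Finset.range 23, σ (g ^ j) w := by
  have h1 := Finset.sum_range_succ' (fun j => σ (g ^ j) w) 23
  rw [Finset.sum_range_succ, hg, pow_zero, add_left_inj] at h1
  rw [map_sum, h1]
  exact Finset.sum_congr rfl fun j _ => by rw [pow_succ', act_mul]

theorem Hyp.star_mem [Finite G] (H : Hyp σ) (hB : Form σ B) (hL : Lat σ B L) {M : Submodule ℤ V} {x z v : V}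
    (hx : x ∈ L) (hz : z ∈ dual B L) (hv : ∀ k, σ k v ∈ M) : ((Nat.card G : ℚ) / 23 * B v z) • x ∈ M := by
  have := Fintype.ofFinite G
  rw [← H.star hB]
  refine sum_mem fun k _ => ?_
  obtain ⟨n, hn⟩ := hL.dual_inv hB k hz x hx
  rw [hB.symm, hn, Int.cast_smul_eq_zsmul]
  exact M.smul_mem _ (hv k)

theorem Hyp.card_eq [Finite G] (H : Hyp σ) (hB : Form σ B) (hL : Lat σ B L) : 23 ∣ Nat.card G := by
  obtain ⟨x, hx, z, hz, h⟩ := hL.exists_one hB
  obtain ⟨n, hn⟩ := hz _ (H.star_mem hB hL hx hz fun k => hL.inv k x hx)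
  rw [bq2, hB.symm z, h] at hn
  have : (Nat.card G : ℤ) = 23 * n := by
    have : (Nat.card G : ℚ) = 23 * n := by rw [← hn]; ring
    exact_mod_cast this
  exact Int.natCast_dvd_natCast.mp ⟨n, this⟩

theorem MinLat.prime_lt [Finite G] {n : ℕ} (M : MinLat σ B L n) (H : Hyp σ) {ℓ : ℕ} (hℓ : ℓ.Prime)
    (h : ℓ ∣ n) : ℓ < 23 := by
  have hB := M.form
  have hL := M.lat
  obtain ⟨c, hc⟩ := H.card_eq hB hL
  obtain ⟨z, hz, hz'⟩ := M.need ℓ hℓ h
  obtain ⟨w, hw, hw'⟩ : ∃ w ∈ dual B L, ¬ ∃ n : ℤ, B z w = n := by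
    by_contra hn
    push Not at hn
    exact hz' (hL.dual_dual hB hn)
  obtain ⟨a, ha⟩ := hw _ (mem_part.mp hz).2
  rw [bz2, hB.symm] at ha
  obtain ⟨x, hx, y, hy, hxy⟩ := M.prim ℓ hℓ
  obtain ⟨b, hb⟩ := hL.int x hx y hy
  obtain ⟨e, he⟩ := H.star_mem hB hL hx hw (fun k => hL.dual_inv hB k hz.1) y hy
  have h0 : (ℓ : ℚ) ≠ 0 := Nat.cast_ne_zero.mpr hℓ.ne_zero
  have h1 : (c : ℤ) * a * b = ℓ * e := by
    have : (c : ℚ) * a * b = ℓ * e := by
      rw [← he, bq1, hb, hc, ← ha]; push_cast; ring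
    exact_mod_cast this
  have hp : Prime (ℓ : ℤ) := Nat.prime_iff_prime_int.mp hℓ
  have h2 : ℓ ∣ c := by
    rcases hp.dvd_or_dvd ⟨e, h1⟩ with h2 | ⟨m, hm⟩
    · rcases hp.dvd_or_dvd h2 with h3 | ⟨m, hm⟩
      · exact Int.natCast_dvd_natCast.mp h3
      · refine (hw' ⟨m, mul_left_cancel₀ h0 ?_⟩).elim
        rw [hm] at ha
        exact_mod_cast ha
    · exact (hxy ⟨m, by rw [hb, hm]; push_cast; ring⟩).elim
  refine lt_of_le_of_ne (H.prime_le hℓ (hc ▸ h2.mul_left 23)) ?_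
  rintro rfl
  exact H.not_sq hB (hc ▸ Nat.mul_dvd_mul_left 23 h2)

theorem MinLat.act_sub [Finite G] {n : ℕ} (M : MinLat σ B L n) (H : Hyp σ) {g : G} (hg : g ^ 23 = 1) {w : V}
    (hw : w ∈ dual B L) : σ g w - w ∈ L := by
  have hB := M.form
  have hL := M.lat
  refine setup_sqfree M.sq (M.kill _ (sub_mem (hL.dual_inv hB g hw) hw)) fun ℓ m hℓ e => ?_
  have hP := hL.part_lat hB ℓ
  have hm : ∀ z ∈ dual B L, (m : ℤ) • z ∈ part B L ℓ := fun z hz =>
    mem_part.mpr ⟨Submodule.smul_mem _ _ hz, by rw [← mul_smul, ← Nat.cast_mul, ← e]; exact M.kill z hz⟩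
  obtain ⟨β, hβ⟩ := intForm B ℓ (part B L ℓ) hP.int
  let γ : Module.End ℤ (part B L ℓ) := ((σ g).restrictScalars ℤ).restrict (hP.inv g)
  have hγ : ∀ y, (γ y : V) = σ g y := fun y => rfl
  have hγ' : ∀ (j : ℕ) y, ((γ ^ j) y : V) = σ (g ^ j) y := fun j y => by
    induction j with
    | zero => simp
    | succ j ih => rw [pow_succ', pow_succ', Module.End.mul_apply, hγ, ih, act_mul]
  have h0 : (ℓ : ℚ) ≠ 0 := Nat.cast_ne_zero.mpr hℓ.ne_zero
  have := fpf hℓ (M.prime_lt H hℓ ⟨m, e⟩) (Q := part B L ℓ)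
    (L.toAddSubgroup.addSubgroupOf (part B L ℓ).toAddSubgroup) β
    (fun x y => by exact_mod_cast (hβ x y).trans ((congrArg _ (hB.symm _ _)).trans (hβ y x).symm))
    (fun x => ⟨fun hx y => ?_, fun hx => ?_⟩) (M.idx ℓ hℓ).1 (M.idx ℓ hℓ).2 γ
    (fun x y => by exact_mod_cast (hβ (γ x) (γ y)).trans ((congrArg _ (hB.inv g _ _)).trans (hβ x y).symm))
    (LinearMap.ext fun y => Subtype.ext (by rw [hγ', hg, act_one]; rfl)) ⟨_, hm w hw⟩
  · rw [smul_sub, ← map_zsmul]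
    exact this
  · obtain ⟨a, ha⟩ := y.2.1 x hx
    refine ⟨a, ?_⟩
    have := hβ x y
    rw [hB.symm, ha] at this
    exact_mod_cast this
  · change (x : V) ∈ L
    refine hL.dual_dual hB fun z hz => ?_
    obtain ⟨r, s, e'⟩ := Nat.isCoprime_iff_coprime.mpr (Nat.coprime_of_squarefree_mul (e ▸ M.sq))
    obtain ⟨a, ha⟩ := hz _ (mem_part.mp x.2).2
    obtain ⟨b, hb⟩ := hx ⟨_, hm z hz⟩
    have h1 := hβ x ⟨_, hm z hz⟩
    rw [hb, bz2] at h1
    rw [bz2, hB.symm] at ha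
    push_cast at h1 ha
    have h2 := mul_left_cancel₀ h0 h1
    have h3 : (r : ℚ) * ℓ + s * m = 1 := by exact_mod_cast e'
    exact ⟨r * a + s * b, by push_cast; rw [← ha, h2]; linear_combination (-(B x) z) * h3⟩

theorem Hyp.exists_prim (H : Hyp σ) (hB : Form σ B) (hL : Lat σ B L) {g : G} (hg : orderOf g = 23) :
    ∃ u ∈ L, u ≠ 0 ∧ σ g u = u ∧ (∀ v, σ g v = v → ∃ t : ℚ, v = t • u) ∧ ∀ t : ℚ, t • u ∈ L → ∃ j : ℤ, t = j := by
  classical
  obtain ⟨u0, h0, h1, h2⟩ := H.fix hB hg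
  have key : ∀ u ∈ L, u ≠ 0 → ∃ m : ℕ, B u u = m := fun u hu hu' => by
    obtain ⟨a, ha⟩ := hL.int u hu u hu
    obtain ⟨m, hm⟩ := Int.eq_ofNat_of_zero_le (Int.cast_nonneg_iff.mp (ha ▸ hB.nonneg u))
    exact ⟨m, by rw [ha, hm, Int.cast_natCast]⟩
  have hex : ∃ m : ℕ, ∃ u ∈ L, u ≠ 0 ∧ σ g u = u ∧ B u u = m := by
    obtain ⟨b, hb⟩ := exists_basis hL.fg hL.span
    obtain ⟨m, hm, hm'⟩ := exists_mul_mem_span b u0
    have h3 : (m : ℤ) • u0 ≠ 0 := smul_ne_zero (Int.natCast_ne_zero.mpr hm.ne') h0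
    obtain ⟨a, ha⟩ := key _ (hb ▸ hm') h3
    exact ⟨a, _, hb ▸ hm', h3, by rw [map_zsmul, h1], ha⟩
  obtain ⟨u, hu, h3, h4, h5⟩ := Nat.find_spec hex
  refine ⟨u, hu, h3, h4, fun v hv => ?_, fun t ht => ⟨⌊t⌋, ?_⟩⟩
  · obtain ⟨s, hs⟩ := h2 u h4
    obtain ⟨t, rfl⟩ := h2 v hv
    have : s ≠ 0 := by rintro rfl; exact h3 (by rw [hs, zero_smul])
    exact ⟨t / s, by rw [hs, smul_smul, div_mul_cancel₀ _ this]⟩
  · by_contra hn
    have h6 : Int.fract t • u ∈ L := by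
      rw [Int.fract, sub_smul, Int.cast_smul_eq_zsmul]
      exact sub_mem ht (L.smul_mem _ hu)
    have h7 : Int.fract t ≠ 0 := fun e => hn (sub_eq_zero.mp e)
    obtain ⟨m, hm⟩ := key _ h6 (smul_ne_zero h7 h3)
    have h8 : (Nat.find hex : ℚ) ≤ m :=
      Nat.cast_le.mpr (Nat.find_min' hex ⟨_, h6, smul_ne_zero h7 h3, by rw [map_smul, h4], hm⟩)
    rw [← hm, ← h5, bq1, bq2] at h8
    have h9 := hB.pos u h3
    have h10 := Int.fract_lt_one t
    have h11 := Int.fract_nonneg t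
    have : Int.fract t * Int.fract t < 1 := by nlinarith
    nlinarith

theorem Lat.exists_d (hL : Lat σ B L) {u : V} (hu : u ∈ L) :
    ∃ d : ℕ, (∀ x ∈ L, ∃ k : ℤ, B x u = d * k) ∧ ∃ x ∈ L, B x u = d := by
  obtain ⟨β, hβ⟩ := intForm B 1 L (by simpa using hL.int)
  obtain ⟨a, ha⟩ := (IsPrincipalIdealRing.principal (LinearMap.range (β.flip ⟨u, hu⟩))).principal
  refine ⟨a.natAbs, fun x hx => ?_, ?_⟩
  · obtain ⟨k, hk⟩ := Int.natAbs_dvd.mpr
      (Ideal.mem_span_singleton.mp (ha.le ⟨⟨x, hx⟩, rfl⟩ : β ⟨x, hx⟩ ⟨u, hu⟩ ∈ _))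
    refine ⟨k, ?_⟩
    have := hβ ⟨x, hx⟩ ⟨u, hu⟩
    rw [hk, one_mul, Int.cast_mul, Int.cast_natCast] at this
    exact this.symm
  · obtain ⟨x, hx⟩ := ha.ge (Ideal.mem_span_singleton.mpr (Int.dvd_natAbs.mpr dvd_rfl))
    refine ⟨x, x.2, ?_⟩
    have := hβ x ⟨u, hu⟩
    rw [show β x ⟨u, hu⟩ = _ from hx, one_mul, Int.cast_natCast] at this
    exact this.symm

theorem Hyp.setup {G : Type*} [Group G] [Finite G] {σ : G →* Module.End ℚ V} (H : Hyp σ) :
    ∃ B L g u d, Setup σ B L g u d := by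
  have := Fintype.ofFinite G
  have : Fact (Nat.Prime 23) := ⟨by norm_num⟩
  obtain ⟨B, L, n, M⟩ := exists_min σ
  have hB := M.form
  have hL := M.lat
  obtain ⟨c, hc⟩ := H.card_eq hB hL
  obtain ⟨g, hg⟩ := exists_prime_orderOf_dvd_card' (G := G) 23 ⟨c, hc⟩
  have hg' : g ^ 23 = 1 := hg ▸ pow_orderOf_eq_one g
  obtain ⟨u, hu, h0, h1, h2, h3⟩ := H.exists_prim hB hL hg
  obtain ⟨d, h4, x1, hx1, h5⟩ := hL.exists_d hu
  obtain ⟨e, he⟩ := h4 u hu
  have hd : (d : ℚ) ≠ 0 := fun h => (hB.pos u h0).ne' (by rw [he, h, zero_mul])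
  have hn : ¬ 23 ∣ n := fun h => lt_irrefl _ (M.prime_lt H (by norm_num) h)
  have hgu : ∀ j : ℕ, σ (g ^ j) u = u := fun j => by
    induction j with
    | zero => rw [pow_zero, act_one]
    | succ j ih => rw [pow_succ, act_mul, h1, ih]
  have hsum : ∀ w, B (∑ j ∈ Finset.range 23, σ (g ^ j) w) u = 23 * B w u := fun w => by
    rw [map_sum, LinearMap.sum_apply, Finset.sum_congr rfl (g := fun _ => B w u) fun j _ =>
      (congrArg _ (hgu j).symm).trans (hB.inv _ w u)]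
    simp
  have hud : (d : ℚ)⁻¹ • u ∈ dual B L := fun x hx => by
    obtain ⟨k, hk⟩ := h4 x hx
    exact ⟨k, by rw [bq1, hB.symm, hk, inv_mul_cancel_left₀ hd]⟩
  have hdn : d ∣ n := by
    obtain ⟨j, hj⟩ := h3 (n * (d : ℚ)⁻¹) (by
      have := M.kill _ hud
      rwa [← Int.cast_smul_eq_zsmul ℚ, smul_smul, Int.cast_natCast] at this)
    have : (n : ℤ) = d * j := by
      have : (n : ℚ) = d * j := by rw [← hj]; field_simp
      exact_mod_cast this
    exact Int.natCast_dvd_natCast.mp ⟨j, this⟩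
  have he23 : e = 23 := by
    obtain ⟨t, ht⟩ := h2 _ (setup_fixed hg' x1)
    obtain ⟨j, rfl⟩ := h3 t (ht ▸ sum_mem fun j _ => hL.inv _ _ hx1)
    have h6 := hsum x1
    rw [ht, bq1, he, h5] at h6
    have h7 : j * e = 23 := by
      have : (j : ℚ) * e = 23 := mul_left_cancel₀ hd (by linear_combination h6)
      exact_mod_cast this
    obtain ⟨x, hx, z, hz, hxz⟩ := hL.exists_one hB
    choose F hF using fun k => hL.dual_inv hB k hud x hx
    choose F' hF' using fun k => hz _ (hL.inv k u hu)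
    have h8 := congrArg (B z) (H.star hB x ((d : ℚ)⁻¹ • u) u)
    rw [map_sum, bq2, bq2, hB.symm z, hxz, he, hc,
      Finset.sum_congr rfl (g := fun k => ((F k * F' k : ℤ) : ℚ)) fun k _ => by
        rw [bq2, hB.symm x, hF, hF', Int.cast_mul], ← Int.cast_sum] at h8
    have h9 : ∑ k, F k * F' k = c * e := by
      have : ((∑ k, F k * F' k : ℤ) : ℚ) = c * e := by rw [h8]; push_cast; field_simp
      exact_mod_cast this
    have h10 := setup_dvd_sum (g := g) (fun k => F k * F' k) fun k => by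
      have e1 : F (k * g) = F k := Int.cast_injective (α := ℚ)
        ((hF (k * g)).symm.trans (by rw [act_mul, map_smul (σ g), h1, hF]))
      have e2 : F' (k * g) = F' k := Int.cast_injective (α := ℚ)
        ((hF' (k * g)).symm.trans (by rw [act_mul, h1, hF']))
      simp only [e1, e2]
    rw [hg, h9] at h10
    have h11 : (23 : ℤ) ∣ e := ((Nat.prime_iff_prime_int.mp (by norm_num : Nat.Prime 23)).dvd_or_dvd h10).resolve_left
      fun h => H.not_sq hB (hc ▸ Nat.mul_dvd_mul_left 23 (Int.natCast_dvd_natCast.mp h))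
    have h12 : 0 < e := by
      have h13 := hB.pos u h0
      rw [he] at h13
      exact Int.cast_pos.mp (pos_of_mul_pos_right h13 (Nat.cast_nonneg d))
    exact Int.dvd_antisymm h12.le (by norm_num) ⟨j, by rw [← h7, mul_comm]⟩ h11
  refine ⟨B, L, g, u, d, H, hB, hL, hu, h1, M.sq.squarefree_of_dvd hdn, fun h => hn (h.trans hdn),
    by rw [he, he23]; push_cast; ring, h4, ⟨x1, hx1, h5⟩, fun w hw => ?_, fun w hw => ?_⟩
  · have h6 : ∀ j : ℕ, σ (g ^ j) w - w ∈ L := fun j => by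
      induction j with
      | zero => rw [pow_zero, act_one, sub_self]; exact zero_mem _
      | succ j ih =>
        have := add_mem (hL.inv g _ ih) (M.act_sub H hg' hw)
        rwa [map_sub, sub_add_sub_cancel, ← act_mul, ← pow_succ'] at this
    obtain ⟨t, ht⟩ := h2 _ (setup_fixed hg' w)
    have h7 : t • u - (23 : ℤ) • w ∈ L := by
      have := sum_mem fun j (_ : j ∈ Finset.range 23) => h6 j
      rwa [Finset.sum_sub_distrib, ht, Finset.sum_const, Finset.card_range, ← natCast_zsmul] at this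
    obtain ⟨j, hj⟩ := (ht ▸ sum_mem fun j _ => hL.dual_inv hB _ hw : t • u ∈ dual B L) x1 hx1
    rw [bq1, hB.symm, h5] at hj
    obtain ⟨r, s, e'⟩ := Nat.isCoprime_iff_coprime.mpr ((Nat.Prime.coprime_iff_not_dvd (by norm_num)).mpr hn)
    refine ⟨r * j, ?_⟩
    have h8 := sub_mem (L.smul_mem s (M.kill w hw)) (L.smul_mem r h7)
    convert h8 using 1
    have e1 : ((r * j : ℤ) : ℚ) / d = r * t := by push_cast; rw [← hj]; field_simp
    rw [e1, smul_sub, smul_smul, smul_smul, mul_smul (r : ℚ), Int.cast_smul_eq_zsmul, ← sub_add, sub_add_eq_add_sub,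
      ← add_smul, add_comm, show r * 23 + s * n = 1 from e', one_smul]
  · obtain ⟨t, ht⟩ := h2 _ (setup_fixed hg' w)
    have h6 := hsum w
    rw [ht, bq1, hw, mul_zero, mul_eq_zero] at h6
    rw [ht, h6.resolve_right (hB.pos u h0).ne', zero_smul]

end Cfsg.Agent.F23
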