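import Cfsg.Agent.F23.Defs
import Cfsg.Agent.Th23.Theta

/-! Theta series consequences for abstract even unimodular forms. -/

set_option autoImplicit false
open Module Matrix
namespace Cfsg.Agent.F23

section Theta
variable {Λ : Type*} [AddCommGroup Λ] [Module.Free ℤ Λ] [Module.Finite ℤ Λ] {b : Λ →ₗ[ℤ] Λ →ₗ[ℤ] ℤ}

omit [Module.Free ℤ Λ] [Module.Finite ℤ Λ] in
theorem th_gram {n : ℕ} (e : Basis (Fin n) ℤ Λ) (b : Λ →ₗ[ℤ] Λ →ₗ[ℤ] ℤ) (x : Fin n → ℤ) :
    x ⬝ᵥ (Matrix.of fun i j => b (e i) (e j)) *ᵥ x = b (e.equivFun.symm x) (e.equivFun.symm x) := by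
  simp only [Basis.equivFun_symm_apply, map_sum, map_smul, LinearMap.sum_apply,
    LinearMap.smul_apply, smul_eq_mul, dotProduct, Matrix.mulVec, Matrix.of_apply, Finset.mul_sum]
  rw [Finset.sum_comm]
  exact Finset.sum_congr rfl fun i _ => Finset.sum_congr rfl fun j _ => by ring

omit [Module.Free ℤ Λ] [Module.Finite ℤ Λ] in
theorem th_EU (h : EU b) {n : ℕ} (e : Basis (Fin n) ℤ Λ) :
    Th23.EU (Matrix.of fun i j => b (e i) (e j)) where
  symm := Matrix.IsSymm.ext fun i j => h.symm _ _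
  pos := fun x hx => by
    rw [th_gram]
    exact h.pos _ fun h0 => hx (e.equivFun.symm.map_eq_zero_iff.mp h0)
  even := fun i => h.even _
  det := by
    choose x hx using fun j => h.unim (e.coord j)
    refine Matrix.isUnit_det_of_left_inverse (B := Matrix.of fun j k => e.repr (x j) k) ?_
    ext j i
    rw [Matrix.mul_apply]
    have h1 : b (x j) (e i) = ∑ k, e.repr (x j) k * b (e k) (e i) := by
      conv_lhs => rw [← e.sum_repr (x j)]
      simp only [map_sum, map_smul, LinearMap.sum_apply, LinearMap.smul_apply, smul_eq_mul]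
    simp only [Matrix.of_apply]
    rw [← h1, hx, Basis.coord_apply, Basis.repr_self, Finsupp.single_apply, Matrix.one_apply]
    simp only [eq_comm]

omit [Module.Free ℤ Λ] [Module.Finite ℤ Λ] in
theorem th_cnt {n : ℕ} (e : Basis (Fin n) ℤ Λ) (b : Λ →ₗ[ℤ] Λ →ₗ[ℤ] ℤ) (m : ℤ) :
    Th23.cnt (Matrix.of fun i j => b (e i) (e j)) m = Nat.card {x // b x x = m} :=
  Nat.card_congr (e.equivFun.symm.toEquiv.subtypeEquiv fun x => by rw [th_gram]; rfl)

theorem EU.eight_dvd (h : EU b) : 8 ∣ finrank ℤ Λ :=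
  (th_EU h (Module.finBasis ℤ Λ)).eight_dvd

theorem EU.no44 (h : EU b) : finrank ℤ Λ ≠ 44 := by
  have := h.eight_dvd
  omega

theorem EU.finite_shell (h : EU b) (m : ℤ) : Finite {x // b x x = m} := by
  have := Th23.finite_shell (th_EU h (Module.finBasis ℤ Λ)).pd m
  exact Finite.of_equiv _ ((Module.finBasis ℤ Λ).equivFun.symm.toEquiv.subtypeEquiv
    (p := fun x => x ⬝ᵥ (Matrix.of fun i j =>
      b (Module.finBasis ℤ Λ i) (Module.finBasis ℤ Λ j)) *ᵥ x = m)
    (q := fun x => b x x = m) fun x => by rw [th_gram]; rfl)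

theorem EU.counts (h : EU b) (h24 : finrank ℤ Λ = 24) (hr : ∀ x, b x x ≠ 2) :
    Nat.card {x // b x x = 4} = 196560 ∧ Nat.card {x // b x x = 6} = 16773120 ∧
      Nat.card {x // b x x = 8} = 398034000 := by
  let e : Basis (Fin 24) ℤ Λ := Module.finBasisOfFinrankEq ℤ Λ h24
  have := (th_EU h e).rank24_rootless (by
    rw [th_cnt]
    haveI : IsEmpty {x // b x x = 2} := ⟨fun x => hr x.1 x.2⟩
    exact Nat.card_of_isEmpty)
  simpa only [th_cnt] using this

end Theta

end Cfsg.Agent.F23
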