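import Cfsg.Agent.F23.Basic
import Cfsg.Agent.F23.Dual

/-! The projection of the lattice to the orthogonal complement of the fixed vector. -/

set_option autoImplicit false

open Module

namespace Cfsg.Agent.F23

variable {G : Type*} [Group G] {σ : G →* Module.End ℚ V} {B : V →ₗ[ℚ] V →ₗ[ℚ] ℚ} {L : Submodule ℤ V}
  {g : G} {u : V} {d : ℕ}

theorem top_div {M : Type*} [AddCommGroup M] (h : M →ₗ[ℤ] ℤ) {c : ℤ} (hc : c ≠ 0) (hd : ∀ x, c ∣ h x) :
    ∃ ψ : M →ₗ[ℤ] ℤ, ∀ x, h x = c * ψ x := by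
  choose f hf using hd
  exact ⟨⟨⟨f, fun x y => mul_left_cancel₀ hc (by rw [← hf, mul_add, ← hf, ← hf, map_add])⟩,
    fun a x => mul_left_cancel₀ hc (by
      rw [← hf, map_smul, RingHom.id_apply, smul_eq_mul, smul_eq_mul, mul_left_comm, ← hf])⟩, hf⟩

theorem Setup.exists_k (S : Setup σ B L g u d) : ∃ k : L →ₗ[ℤ] ℤ, ∀ x : L, B x u = d * (k x : ℚ) := by
  choose f hf using fun x : L => S.dvd x x.2
  have inj : ∀ {a b : ℤ}, (d : ℚ) * a = d * b → a = b := fun h => by exact_mod_cast mul_left_cancel₀ S.d_ne h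
  exact ⟨⟨⟨f, fun x y => inj (by rw [← hf, Int.cast_add, mul_add, ← hf, ← hf]; simp)⟩,
    fun a x => inj (by
      rw [← hf, RingHom.id_apply, smul_eq_mul, Int.cast_mul, mul_left_comm, ← hf, Submodule.coe_smul, bz1])⟩, hf⟩

theorem Lat.finrank_eq (hL : Lat σ B L) : finrank ℤ L = 23 := by
  obtain ⟨b, rfl⟩ := exists_basis hL.fg hL.span
  rw [finrank_span_eq_card (b.linearIndependent.restrict_scalars' ℤ), Fintype.card_fin]

theorem Setup.exists_P (S : Setup σ B L g u d) :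
    ∃ (P : Type) (_ : AddCommGroup P) (_ : Module.Free ℤ P) (_ : Module.Finite ℤ P)
      (β : P →ₗ[ℤ] P →ₗ[ℤ] ℤ) (χ : P →+ ZMod 23) (γ : Module.End ℤ P) (π : L →ₗ[ℤ] P) (k : L →ₗ[ℤ] ℤ),
      PG β χ (-(d : ZMod 23)) γ ∧ finrank ℤ P = 22 ∧ Function.Surjective π ∧
      (∀ x : L, B x u = d * (k x : ℚ)) ∧ (∀ x, χ (π x) = (k x : ZMod 23)) ∧
      (∀ x y : L, ((β (π x) (π y) : ℤ) : ℚ) = 23 * B x y - d * (k x : ℚ) * (k y : ℚ)) := by
  have : Fact (Nat.Prime 23) := ⟨by norm_num⟩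
  obtain ⟨k, hk⟩ := S.exists_k
  have hd := S.d_ne
  have hB := S.form
  let p : L →ₗ[ℤ] V := L.subtype - (LinearMap.toSpanSingleton ℤ V ((23 : ℚ)⁻¹ • u)).comp k
  have hp : ∀ x : L, p x = x - ((k x : ℚ) / 23) • u := fun x => by
    simp only [p, LinearMap.sub_apply, Submodule.subtype_apply, LinearMap.comp_apply,
      LinearMap.toSpanSingleton_apply]
    rw [← Int.cast_smul_eq_zsmul ℚ, smul_smul, div_eq_mul_inv]
  have hpu : ∀ x : L, B (p x) u = 0 := fun x => by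
    rw [hp, map_sub, LinearMap.sub_apply, bq1, hk, S.uu]; ring
  have hpp : ∀ x y : L, 23 * B (p x) (p y) = 23 * B x y - d * (k x : ℚ) * (k y : ℚ) := fun x y => by
    rw [hp y, map_sub, bq2, hpu, hp x, map_sub, LinearMap.sub_apply, bq1, hB.symm u, hk]; ring
  have : Module.Finite ℤ L := Module.Finite.iff_fg.mpr S.lat.fg
  let P : Submodule ℤ V := LinearMap.range p
  let π : L →ₗ[ℤ] P := p.rangeRestrict
  have hπ : Function.Surjective π := p.surjective_rangeRestrict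
  have hπp : ∀ x, (π x : V) = p x := fun x => rfl
  obtain ⟨β, hβ⟩ := intForm B 23 P (by
    rintro _ ⟨x, rfl⟩ _ ⟨y, rfl⟩
    obtain ⟨n, hn⟩ := S.lat.int x x.2 y y.2
    exact ⟨23 * n - d * k x * k y, by rw [hpp, hn]; push_cast; ring⟩)
  have hβ' : ∀ x y : L, ((β (π x) (π y) : ℤ) : ℚ) = 23 * B x y - d * (k x : ℚ) * (k y : ℚ) :=
    fun x y => by rw [hβ, hπp, hπp, hpp]
  have hβ'' : ∀ x y : L, ((β (π x) (π y) : ℤ) : ZMod 23) = -(d : ZMod 23) * k x * k y := fun x y => by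
    obtain ⟨n, hn⟩ := S.lat.int x x.2 y y.2
    have h1 := hβ' x y
    rw [hn] at h1
    have h2 : β (π x) (π y) = 23 * n - d * k x * k y := by exact_mod_cast h1
    rw [h2]
    push_cast
    rw [show (23 : ZMod 23) = 0 from rfl]
    ring
  have hd' : -(d : ZMod 23) ≠ 0 := neg_ne_zero.mpr fun h => S.nd ((ZMod.natCast_eq_zero_iff _ _).mp h)
  obtain ⟨x1, hx1, h1⟩ := S.one
  have hk1 : k ⟨x1, hx1⟩ = 1 := by
    have := hk ⟨x1, hx1⟩
    rw [h1] at this
    exact_mod_cast (mul_left_cancel₀ hd ((mul_one _).trans this)).symm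
  let χ : P →+ ZMod 23 := (AddMonoidHom.mulLeft (-(d : ZMod 23))⁻¹).comp
    ((Int.castAddHom (ZMod 23)).comp (β.flip (π ⟨x1, hx1⟩)).toAddMonoidHom)
  have hχ : ∀ x, χ (π x) = (k x : ZMod 23) := fun x => by
    change (-(d : ZMod 23))⁻¹ * ((β (π x) (π ⟨x1, hx1⟩) : ℤ) : ZMod 23) = _
    rw [hβ'', hk1, Int.cast_one, mul_one, inv_mul_cancel_left₀ hd']
  have hkg : ∀ x : L, k ⟨σ g x, S.lat.inv g x x.2⟩ = k x := fun x => by
    have h2 := hk ⟨σ g x, S.lat.inv g x x.2⟩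
    have h3 : B (σ g x) u = B x u := (congrArg _ S.gu.symm).trans (hB.inv g x u)
    rw [h3, hk] at h2
    exact_mod_cast (mul_left_cancel₀ hd h2).symm
  have hpg : ∀ x : L, σ g (p x) = p ⟨σ g x, S.lat.inv g x x.2⟩ := fun x => by
    rw [hp, hp, hkg, map_sub, map_smul, S.gu]
  let γ : Module.End ℤ P := ((σ g).restrictScalars ℤ).restrict (p := P) (q := P) (by
    rintro _ ⟨x, rfl⟩
    exact ⟨_, (hpg x).symm⟩)
  have hγ : ∀ y, (γ y : V) = σ g y := fun y => rfl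
  have hγ' : ∀ (j : ℕ) y, ((γ ^ j) y : V) = σ (g ^ j) y := fun j y => by
    induction j with
    | zero => simp
    | succ j ih => rw [pow_succ', pow_succ', Module.End.mul_apply, hγ, ih, act_mul]
  have hku : k ⟨u, S.uL⟩ = 23 := by
    have h2 := hk ⟨u, S.uL⟩
    rw [S.uu, mul_comm] at h2
    exact_mod_cast (mul_left_cancel₀ hd h2).symm
  have hp0 : p ⟨u, S.uL⟩ = 0 := by rw [hp, hku]; simp
  refine ⟨P, inferInstance, inferInstance, inferInstance, β, χ, γ, π, k,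
    ⟨⟨fun x y => ?_, fun x hx => ?_, fun x => ?_, hd', ⟨π ⟨x1, hx1⟩, by rw [hχ, hk1, Int.cast_one]⟩,
      fun x y => ?_, fun f hf => ?_⟩, fun x y => ?_, fun x => ?_, fun y => ?_⟩, ?_, hπ, hk, hχ, hβ'⟩
  · exact_mod_cast (hβ x y).trans ((congrArg _ (hB.symm _ _)).trans (hβ y x).symm)
  · have := mul_pos (show (0 : ℚ) < 23 by norm_num) (hB.pos x fun h => hx (Subtype.ext h))
    rw [← hβ] at this
    exact_mod_cast this
  · obtain ⟨x, rfl⟩ := hπ x
    obtain ⟨n, hn⟩ := S.par x.2 (hk x)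
    have h2 := hβ' x x
    rw [hn] at h2
    have h3 : β (π x) (π x) = 2 * (23 * n + 11 * d * k x) - d * (k x * (k x - 1)) := by
      have : ((β (π x) (π x) : ℤ) : ℚ) = 2 * (23 * n + 11 * d * k x) - d * (k x * (k x - 1)) := by
        rw [h2]; ring
      exact_mod_cast this
    rw [h3]
    exact (even_two_mul _).sub ((Int.even_mul_pred_self _).mul_left _)
  · obtain ⟨x, rfl⟩ := hπ x
    obtain ⟨y, rfl⟩ := hπ y
    rw [hβ'', hχ, hχ]
  · obtain ⟨ψ, hψ⟩ := top_div (f.comp π - f (π ⟨x1, hx1⟩) • k) (c := 23) (by norm_num) fun x => by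
      have := hf (π x - k x • π ⟨x1, hx1⟩) (by rw [map_sub, map_zsmul, hχ, hχ, hk1]; simp)
      simpa [mul_comm] using this
    obtain ⟨z, hz, hz'⟩ := S.lat.exists_dual hB ψ
    obtain ⟨j, hj⟩ := S.dual z hz
    refine ⟨π ⟨_, hj⟩, fun x => ?_⟩
    obtain ⟨x, rfl⟩ := hπ x
    have h2 := hψ ⟨u, S.uL⟩
    have h3 := hψ x
    have h4 : π ⟨u, S.uL⟩ = 0 := Subtype.ext hp0
    simp only [LinearMap.sub_apply, LinearMap.comp_apply, LinearMap.smul_apply, smul_eq_mul, h4, map_zero,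
      hku] at h2 h3
    have h5 : ψ ⟨u, S.uL⟩ = -f (π ⟨x1, hx1⟩) := by omega
    have h6 : ((β (π ⟨_, hj⟩) (π x) : ℤ) : ℚ) = 23 * ψ x - k x * ψ ⟨u, S.uL⟩ := by
      rw [hβ, hπp, hπp, hp ⟨_, hj⟩]
      simp only [map_sub, LinearMap.sub_apply, bq1, hB.symm u (p x), hpu]
      rw [hp, map_sub, bq2, hz', hz' ⟨u, S.uL⟩]
      ring
    have h7 : β (π ⟨_, hj⟩) (π x) = 23 * ψ x - k x * ψ ⟨u, S.uL⟩ := by exact_mod_cast h6
    rw [h7, h5, ← h3]
    ring
  · exact_mod_cast (hβ (γ x) (γ y)).trans ((congrArg _ (hB.inv g _ _)).trans (hβ x y).symm)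
  · obtain ⟨x, rfl⟩ := hπ x
    have : γ (π x) = π ⟨σ g x, S.lat.inv g x x.2⟩ := Subtype.ext (hpg x)
    rw [this, hχ, hχ, hkg]
  · obtain ⟨x, rfl⟩ := hπ y
    refine Subtype.ext ?_
    rw [AddSubmonoidClass.coe_finsetSum]
    simp only [hγ']
    exact S.sum0 _ (hpu x)
  · have h2 := (LinearMap.ker p).finrank_quotient_add_finrank
    rw [p.quotKerEquivRange.finrank_eq] at h2
    have h3 : finrank ℤ (LinearMap.ker p) ≤ 1 := by
      refine (LinearMap.finrank_le_finrank_of_injective (f := k.comp (LinearMap.ker p).subtype) ?_).trans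
        (finrank_self ℤ).le
      refine (injective_iff_map_eq_zero _).mpr fun x hx => Subtype.ext (Subtype.ext ?_)
      have h4 : p x = 0 := x.2
      have h5 : k x = 0 := hx
      rw [hp, h5] at h4
      simpa using h4
    have : Nontrivial (LinearMap.ker p) := ⟨⟨⟨u, S.uL⟩, hp0⟩, 0, fun h =>
      S.u_ne (congrArg (fun x : LinearMap.ker p => ((x : L) : V)) h)⟩
    have h4 : 0 < finrank ℤ (LinearMap.ker p) := finrank_pos
    rw [S.lat.finrank_eq] at h2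
    change finrank ℤ (LinearMap.range p) = 22
    omega

end Cfsg.Agent.F23
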